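import Mathlib
import Cfsg.Prelude.Def_GeometricClasses

set_option autoImplicit false

namespace Cfsg.Agent.Lib.Helper13.BlockWeightG

open Matrix

variable {F : Type*} [Field F] {ι : Type} [Fintype ι] [DecidableEq ι] {t m : ℕ}

/-- Coordinates adapted to a decomposition. -/
structure Coords (D : Fin t → Submodule F (ι → F)) (m : ℕ) where
  E : (ι → F) ≃ₗ[F] (Fin t × Fin m → F)
  mem_ne : ∀ {x : ι → F} {i j : Fin t}, i ≠ j → x ∈ D i → ∀ a, E x (j, a) = 0
  symm_mem : ∀ (y : Fin t × Fin m → F) (i : Fin t), (∀ k, k.1 ≠ i → y k = 0) → E.symm y ∈ D i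

theorem exists_coords (D : Fin t → Submodule F (ι → F)) (hind : iSupIndep D)
    (htop : iSup D = ⊤) (hfin : ∀ i, Module.finrank F (D i) = m) : Nonempty (Coords D m) := by
  classical
  have hint := DirectSum.isInternal_submodule_of_iSupIndep_of_iSup_eq_top hind htop
  let b0 := hint.collectedBasis (fun i => Module.finBasisOfFinrankEq F (D i) (hfin i))
  let b := b0.reindex (Equiv.sigmaEquivProd (Fin t) (Fin m))
  refine ⟨⟨b.equivFun, ?_, ?_⟩⟩
  · intro x i j hij hx a
    rw [Module.Basis.equivFun_apply]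
    show (b0.reindex (Equiv.sigmaEquivProd (Fin t) (Fin m))).repr x (j, a) = 0
    rw [Module.Basis.repr_reindex_apply]
    exact hint.collectedBasis_repr_of_mem_ne _ hij hx
  · intro y i hy
    rw [Module.Basis.equivFun_symm_apply]
    apply Submodule.sum_mem
    intro k _
    by_cases hk : k.1 = i
    · apply Submodule.smul_mem
      show (b0.reindex (Equiv.sigmaEquivProd (Fin t) (Fin m))) k ∈ D i
      rw [Module.Basis.reindex_apply, ← hk]
      exact hint.collectedBasis_mem (fun i => Module.finBasisOfFinrankEq F (D i) (hfin i))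
        ((Equiv.sigmaEquivProd (Fin t) (Fin m)).symm k)
    · rw [hy k hk, zero_smul]
      exact Submodule.zero_mem _

theorem card_eq {D : Fin t → Submodule F (ι → F)} (C : Coords D m) : t * m = Fintype.card ι := by
  have h1 := LinearEquiv.finrank_eq C.E
  rw [Module.finrank_pi, Module.finrank_pi] at h1
  simpa using h1.symm

/-- Block restriction of a coordinate vector. -/
def blk (i : Fin t) (y : Fin t × Fin m → F) : Fin t × Fin m → F :=
  fun k => if k.1 = i then y k else 0

theorem sum_blk (y : Fin t × Fin m → F) : ∑ i, blk i y = y := by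
  ext k
  simp [blk, Finset.sum_apply]

open Classical in
/-- Indicator of a nonzero block. -/
noncomputable def ind (i : Fin t) (y : Fin t × Fin m → F) : F := if ∃ a, y (i, a) ≠ 0 then 1 else 0

/-- Block weight, as an element of the field. -/
noncomputable def N (y : Fin t × Fin m → F) : F := ∑ i, ind i y

variable {D : Fin t → Submodule F (ι → F)} (C : Coords D m)

theorem stab_nz (g : GL ι F) (σ : Equiv.Perm (Fin t))
    (hσ : ∀ i, (D i).map (Matrix.toLin' (g : Matrix ι ι F)) = D (σ i)) (x : ι → F)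
    (i : Fin t) :
    (∃ a, C.E ((g : Matrix ι ι F) *ᵥ x) (σ i, a) ≠ 0) ↔ ∃ a, C.E x (i, a) ≠ 0 := by
  have hxk : ∀ k, C.E.symm (blk k (C.E x)) ∈ D k := by
    intro k
    apply C.symm_mem
    intro k' hk'
    simp [blk, hk']
  have hx : x = ∑ k, C.E.symm (blk k (C.E x)) := by
    rw [← map_sum, sum_blk, LinearEquiv.symm_apply_apply]
  have hgk : ∀ k, (g : Matrix ι ι F) *ᵥ C.E.symm (blk k (C.E x)) ∈ D (σ k) := by
    intro k
    rw [← hσ k, ← Matrix.toLin'_apply]
    exact Submodule.mem_map_of_mem (hxk k)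
  have hgx : ∀ a, C.E ((g : Matrix ι ι F) *ᵥ x) (σ i, a)
      = C.E ((g : Matrix ι ι F) *ᵥ C.E.symm (blk i (C.E x))) (σ i, a) := by
    intro a
    conv_lhs => rw [hx]
    rw [← Matrix.toLin'_apply, map_sum, map_sum, Finset.sum_apply]
    rw [Finset.sum_eq_single i]
    · rw [Matrix.toLin'_apply]
    · intro k _ hk
      rw [Matrix.toLin'_apply]
      exact C.mem_ne (fun h => hk (σ.injective h)) (hgk k) a
    · intro h; exact absurd (Finset.mem_univ i) h
  constructor
  · rintro ⟨a, ha⟩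
    rw [hgx a] at ha
    by_contra hcon
    push Not at hcon
    apply ha
    have : blk i (C.E x) = 0 := by
      ext k
      by_cases hk : k.1 = i
      · simp only [blk, hk, if_true, Pi.zero_apply]
        have := hcon k.2
        rw [← hk] at this
        exact this
      · simp [blk, hk]
    rw [this, map_zero, Matrix.mulVec_zero, map_zero]
    rfl
  · rintro ⟨a, ha⟩
    by_contra hcon
    push Not at hcon
    have h0 : C.E ((g : Matrix ι ι F) *ᵥ C.E.symm (blk i (C.E x))) = 0 := by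
      ext k
      by_cases hk : k.1 = σ i
      · have := hcon k.2
        rw [hgx, ← hk] at this
        exact this
      · exact C.mem_ne (fun h => hk h.symm) (hgk i) k.2
    have h1 : (g : Matrix ι ι F) *ᵥ C.E.symm (blk i (C.E x)) = 0 := by
      have := congrArg C.E.symm h0
      rwa [LinearEquiv.symm_apply_apply, map_zero] at this
    have h2 : C.E.symm (blk i (C.E x)) = 0 := by
      have := congrArg (fun w => ((g⁻¹ : GL ι F) : Matrix ι ι F) *ᵥ w) h1
      simp only [Matrix.mulVec_mulVec, Matrix.mulVec_zero] at this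
      rwa [← Units.val_mul, inv_mul_cancel, Units.val_one, Matrix.one_mulVec] at this
    have h3 : blk i (C.E x) = 0 := by
      have := congrArg C.E h2
      rwa [LinearEquiv.apply_symm_apply, map_zero] at this
    apply ha
    have := congrFun h3 (i, a)
    simpa [blk] using this

theorem N_stab (g : GL ι F) (hg : g ∈ Cfsg.Geo.decompositionStabilizer D) (x : ι → F) :
    N (C.E ((g : Matrix ι ι F) *ᵥ x)) = N (C.E x) := by
  classical
  obtain ⟨σ, hσ⟩ := hg
  unfold N
  rw [← Equiv.sum_comp σ]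
  apply Finset.sum_congr rfl
  intro i _
  unfold ind
  exact if_congr (stab_nz C g σ hσ x i) rfl rfl

/-- The overgroup: elements of `G₀` preserving the block weight. -/
def KSub (G₀ : Subgroup (GL ι F)) : Subgroup (GL ι F) where
  carrier := {g | g ∈ G₀ ∧ ∀ x, N (C.E ((g : Matrix ι ι F) *ᵥ x)) = N (C.E x)}
  mul_mem' := by
    rintro a b ⟨ha, ha'⟩ ⟨hb, hb'⟩
    refine ⟨G₀.mul_mem ha hb, fun x => ?_⟩
    rw [Units.val_mul, ← Matrix.mulVec_mulVec, ha', hb']
  one_mem' := ⟨G₀.one_mem, fun x => by simp⟩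
  inv_mem' := by
    rintro a ⟨ha, ha'⟩
    refine ⟨G₀.inv_mem ha, fun x => ?_⟩
    have := ha' (((a⁻¹ : GL ι F) : Matrix ι ι F) *ᵥ x)
    rw [Matrix.mulVec_mulVec, ← Units.val_mul, mul_inv_cancel, Units.val_one, Matrix.one_mulVec] at this
    exact this.symm

theorem criterion (G₀ : Subgroup (GL ι F)) (g₁ g₂ : GL ι F) (h₁ : g₁ ∈ G₀)
    (h₁N : ∀ x, N (C.E ((g₁ : Matrix ι ι F) *ᵥ x)) = N (C.E x))
    (h₁S : g₁ ∉ Cfsg.Geo.decompositionStabilizer D) (h₂ : g₂ ∈ G₀)
    (x : ι → F) (h₂N : N (C.E ((g₂ : Matrix ι ι F) *ᵥ x)) ≠ N (C.E x)) :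
    ∃ K : Subgroup (GL ι F), Cfsg.Geo.decompositionStabilizer D ⊓ G₀ < K ∧ K < G₀ := by
  refine ⟨KSub C G₀, ?_, ?_⟩
  · rw [lt_iff_le_and_ne]
    refine ⟨fun g hg => ⟨hg.2, fun x => N_stab C g hg.1 x⟩, ?_⟩
    intro heq
    have : g₁ ∈ KSub C G₀ := ⟨h₁, h₁N⟩
    rw [← heq] at this
    exact h₁S this.1
  · rw [lt_iff_le_and_ne]
    refine ⟨fun g hg => hg.1, ?_⟩
    intro heq
    have : g₂ ∈ KSub C G₀ := by rw [heq]; exact h₂
    exact h₂N (this.2 x)

/-- Transport of a coordinate matrix to `GL_n`. -/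
noncomputable def lift (M : Matrix (Fin t × Fin m) (Fin t × Fin m) F) (hM : M.det ≠ 0) : GL ι F :=
  GeneralLinearGroup.mkOfDetNeZero
    (LinearMap.toMatrix' ((C.E.symm : (Fin t × Fin m → F) →ₗ[F] (ι → F)) ∘ₗ Matrix.toLin' M ∘ₗ
      (C.E : (ι → F) →ₗ[F] (Fin t × Fin m → F)))) (by
    rw [LinearMap.det_toMatrix']
    have := LinearMap.det_conj (Matrix.toLin' M) C.E.symm
    rw [LinearEquiv.symm_symm] at this
    rw [this, LinearMap.det_toLin']
    exact hM)

theorem lift_det (M : Matrix (Fin t × Fin m) (Fin t × Fin m) F) (hM : M.det ≠ 0) :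
    ((lift C M hM : GL ι F) : Matrix ι ι F).det = M.det := by
  show (LinearMap.toMatrix' _).det = _
  rw [LinearMap.det_toMatrix']
  have := LinearMap.det_conj (Matrix.toLin' M) C.E.symm
  rw [LinearEquiv.symm_symm] at this
  rw [this, LinearMap.det_toLin']

theorem lift_mulVec (M : Matrix (Fin t × Fin m) (Fin t × Fin m) F) (hM : M.det ≠ 0) (x : ι → F) :
    C.E (((lift C M hM : GL ι F) : Matrix ι ι F) *ᵥ x) = M *ᵥ C.E x := by
  show C.E ((LinearMap.toMatrix' _) *ᵥ x) = _
  rw [← Matrix.toLin'_apply, Matrix.toLin'_toMatrix']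
  simp [Matrix.toLin'_apply]

theorem lift_mem_SL (M : Matrix (Fin t × Fin m) (Fin t × Fin m) F) (hM : M.det = 1) :
    lift C M (by rw [hM]; exact one_ne_zero) ∈ Cfsg.Geo.specialLinear ι F := by
  unfold Cfsg.Geo.specialLinear
  rw [MonoidHom.mem_ker]
  apply Units.ext
  rw [Matrix.GeneralLinearGroup.val_det_apply, lift_det, hM]
  rfl

/-- A lifted matrix with a column meeting two blocks is not in the stabilizer. -/
theorem lift_not_stab (M : Matrix (Fin t × Fin m) (Fin t × Fin m) F) (hM : M.det ≠ 0)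
    (k₀ k₁ k₂ : Fin t × Fin m) (h12 : k₁.1 ≠ k₂.1) (h1 : M k₁ k₀ ≠ 0) (h2 : M k₂ k₀ ≠ 0) :
    lift C M hM ∉ Cfsg.Geo.decompositionStabilizer D := by
  classical
  rintro ⟨σ, hσ⟩
  have hx : C.E.symm (Pi.single k₀ 1) ∈ D k₀.1 := by
    apply C.symm_mem
    intro k hk
    rw [Pi.single_apply, if_neg]
    rintro rfl
    exact hk rfl
  have hgx : ((lift C M hM : GL ι F) : Matrix ι ι F) *ᵥ C.E.symm (Pi.single k₀ 1)
      ∈ D (σ k₀.1) := by
    rw [← hσ, ← Matrix.toLin'_apply]
    exact Submodule.mem_map_of_mem hx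
  have hcol : ∀ k, C.E (((lift C M hM : GL ι F) : Matrix ι ι F) *ᵥ
      C.E.symm (Pi.single k₀ 1)) k = M k k₀ := by
    intro k
    rw [lift_mulVec, LinearEquiv.apply_symm_apply]
    simp
  have e1 : k₁.1 = σ k₀.1 := by
    by_contra hne
    have := C.mem_ne (fun h => hne h.symm) hgx k₁.2
    rw [hcol] at this
    exact h1 this
  have e2 : k₂.1 = σ k₀.1 := by
    by_contra hne
    have := C.mem_ne (fun h => hne h.symm) hgx k₂.2
    rw [hcol] at this
    exact h2 this
  exact h12 (e1.trans e2.symm)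

/-- An element mapping a vector of some block to a vector meeting two blocks is not in the
stabilizer. -/
theorem not_stab (g : GL ι F) (i : Fin t) (x : ι → F) (hx : x ∈ D i) (k₁ k₂ : Fin t × Fin m)
    (h12 : k₁.1 ≠ k₂.1) (h1 : C.E ((g : Matrix ι ι F) *ᵥ x) k₁ ≠ 0)
    (h2 : C.E ((g : Matrix ι ι F) *ᵥ x) k₂ ≠ 0) : g ∉ Cfsg.Geo.decompositionStabilizer D := by
  rintro ⟨σ, hσ⟩
  have hgx : (g : Matrix ι ι F) *ᵥ x ∈ D (σ i) := by
    rw [← hσ, ← Matrix.toLin'_apply]
    exact Submodule.mem_map_of_mem hx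
  have e1 : k₁.1 = σ i := by
    by_contra hne
    exact h1 (C.mem_ne (fun h => hne h.symm) hgx k₁.2)
  have e2 : k₂.1 = σ i := by
    by_contra hne
    exact h2 (C.mem_ne (fun h => hne h.symm) hgx k₂.2)
  exact h12 (e1.trans e2.symm)

/-! ### Rank one updates -/

section ro

variable {κ : Type*} [Fintype κ] [DecidableEq κ]

/-- The matrix `1 + v φᵀ`. -/
def ro (v φ : κ → F) : Matrix κ κ F := 1 + vecMulVec v φ

theorem ro_det (v φ : κ → F) : (ro v φ).det = 1 + φ ⬝ᵥ v := by
  unfold ro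
  rw [Matrix.vecMulVec_eq Unit, Matrix.det_one_add_replicateCol_mul_replicateRow]

theorem ro_mulVec (v φ y : κ → F) : ro v φ *ᵥ y = y + (φ ⬝ᵥ y) • v := by
  unfold ro
  rw [Matrix.add_mulVec, Matrix.one_mulVec, Matrix.vecMulVec_mulVec, op_smul_eq_smul]

theorem col_eq (M : Matrix κ κ F) (k k₀ : κ) : M k k₀ = (M *ᵥ Pi.single k₀ 1) k := by
  simp

end ro

/-! ### Weights of special vectors -/

theorem ind_single (k : Fin t × Fin m) (i : Fin t) :
    ind i (Pi.single k (1 : F)) = if i = k.1 then 1 else 0 := by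
  classical
  unfold ind
  apply if_congr _ rfl rfl
  constructor
  · rintro ⟨a, ha⟩
    by_contra hne
    apply ha
    rw [Pi.single_apply, if_neg]
    rintro rfl
    exact hne rfl
  · rintro rfl
    exact ⟨k.2, by simp⟩

theorem N_single (k : Fin t × Fin m) : N (Pi.single k (1 : F)) = 1 := by
  classical
  unfold N
  simp only [ind_single]
  simp

theorem ind_single_add (k k' : Fin t × Fin m) (h : k.1 ≠ k'.1) (i : Fin t) :
    ind i ((Pi.single k (1 : F) + Pi.single k' (1 : F) : Fin t × Fin m → F))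
      = (if i = k.1 then 1 else 0) + (if i = k'.1 then 1 else 0) := by
  classical
  have hkk : k ≠ k' := fun e => h (by rw [e])
  unfold ind
  by_cases h1 : i = k.1
  · have h2 : i ≠ k'.1 := fun e => h (h1.symm.trans e)
    rw [if_pos h1, if_neg h2, add_zero, if_pos]
    refine ⟨k.2, ?_⟩
    subst h1
    simp [Pi.single_apply, hkk]
  · by_cases h2 : i = k'.1
    · rw [if_neg h1, if_pos h2, zero_add, if_pos]
      refine ⟨k'.2, ?_⟩
      subst h2
      simp [Pi.single_apply, hkk.symm]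
    · rw [if_neg h1, if_neg h2, add_zero, if_neg]
      rintro ⟨a, ha⟩
      apply ha
      have e1 : (i, a) ≠ k := fun e => h1 (by rw [← e])
      have e2 : (i, a) ≠ k' := fun e => h2 (by rw [← e])
      simp [Pi.single_apply, e1, e2]

theorem N_single_add (k k' : Fin t × Fin m) (h : k.1 ≠ k'.1) :
    N ((Pi.single k (1 : F) + Pi.single k' (1 : F) : Fin t × Fin m → F)) = 2 := by
  classical
  unfold N
  simp only [ind_single_add k k' h, Finset.sum_add_distrib]
  simp
  norm_num

/-- There is an element of `SL` that does not preserve the block weight. -/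
theorem exists_moving (hm : 0 < m) (ht : 2 ≤ t) :
    ∃ g ∈ Cfsg.Geo.specialLinear ι F, ∃ x : ι → F,
      N (C.E ((g : Matrix ι ι F) *ᵥ x)) ≠ N (C.E x) := by
  classical
  let k : Fin t × Fin m := (⟨0, by omega⟩, ⟨0, hm⟩)
  let k' : Fin t × Fin m := (⟨1, by omega⟩, ⟨0, hm⟩)
  have hkk : k.1 ≠ k'.1 := by
    simp [k, k', Fin.ext_iff]
  have hkk' : k ≠ k' := fun e => hkk (by rw [e])
  have hdet : (ro (Pi.single k' (1 : F)) (Pi.single k 1)).det = 1 := by
    rw [ro_det]
    simp [Pi.single_apply, hkk']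
  refine ⟨lift C _ (by rw [hdet]; exact one_ne_zero), lift_mem_SL C _ hdet,
    C.E.symm (Pi.single k 1), ?_⟩
  rw [lift_mulVec, LinearEquiv.apply_symm_apply, ro_mulVec]
  have : (Pi.single k (1 : F) ⬝ᵥ Pi.single k 1) = 1 := by simp
  rw [this, one_smul, N_single_add k k' hkk, N_single]
  intro h2
  have h0 : (1 : F) = 0 := by linear_combination h2
  exact one_ne_zero h0

/-! ### Indicator vectors of sets of blocks -/

/-- Indicator of the coordinates `(i, a)` with `i ∈ I`. -/
def vI (I : Finset (Fin t)) (a : Fin m) : Fin t × Fin m → F :=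
  fun k => if k.1 ∈ I ∧ k.2 = a then 1 else 0

theorem vI_dot (I : Finset (Fin t)) (a : Fin m) (y : Fin t × Fin m → F) :
    vI I a ⬝ᵥ y = ∑ i ∈ I, y (i, a) := by
  classical
  unfold vI dotProduct
  rw [Fintype.sum_prod_type]
  rw [← Finset.sum_subset (Finset.subset_univ I)]
  · apply Finset.sum_congr rfl
    intro i hi
    simp [hi]
  · intro i _ hi
    simp [hi]

theorem vI_dot_vI (I J : Finset (Fin t)) (a b : Fin m) (h : Disjoint I J ∨ a ≠ b) :
    vI I a ⬝ᵥ (vI J b : Fin t × Fin m → F) = 0 := by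
  classical
  rw [vI_dot]
  apply Finset.sum_eq_zero
  intro i hi
  unfold vI
  rw [if_neg]
  rintro ⟨h1, h2⟩
  rcases h with h | h
  · exact (Finset.disjoint_left.mp h hi) h1
  · exact h h2

theorem vI_dot_self (I : Finset (Fin t)) (a : Fin m) :
    vI I a ⬝ᵥ (vI I a : Fin t × Fin m → F) = (I.card : F) := by
  classical
  rw [vI_dot]
  have : ∀ i ∈ I, (vI I a : Fin t × Fin m → F) (i, a) = 1 := by
    intro i hi
    simp [vI, hi]
  rw [Finset.sum_congr rfl this]
  simp

/-! ### Blocks of dimension one, fields with at most four elements -/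

theorem ind_one [Fintype F] (y : Fin t × Fin 1 → F) (i : Fin t) :
    ind i y = y (i, 0) ^ (Fintype.card F - 1) := by
  classical
  unfold ind
  by_cases h : y (i, 0) = 0
  · rw [if_neg, h, zero_pow]
    · have := Fintype.one_lt_card (α := F)
      omega
    · rintro ⟨a, ha⟩
      apply ha
      rw [Subsingleton.elim a 0]
      exact h
  · rw [if_pos ⟨0, h⟩, FiniteField.pow_card_sub_one_eq_one _ h]

theorem key_sum [Fintype F] {ι : Type*} [Fintype ι] [DecidableEq ι] (I : Finset ι)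
    (hI : I.card = 4) (f : ι → F) (hq : Fintype.card F ≤ 4) :
    ∑ i, (f i + (∑ j ∈ I, f j) * (if i ∈ I then 1 else 0)) ^ (Fintype.card F - 1)
      = ∑ i, f i ^ (Fintype.card F - 1) := by
  classical
  set s := ∑ j ∈ I, f j with hs
  have hsplit : ∀ k : ℕ, ∑ i, (f i + s * (if i ∈ I then 1 else 0)) ^ k
      = ∑ i, f i ^ k + ∑ i ∈ I, ((f i + s) ^ k - f i ^ k) := by
    intro k
    rw [← Finset.univ_inter I, ← Finset.sum_ite_mem, ← Finset.sum_add_distrib]
    apply Finset.sum_congr rfl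
    intro i _
    by_cases hi : i ∈ I
    · simp [hi]
    · simp [hi]
  rw [hsplit]
  have h1 := Fintype.one_lt_card (α := F)
  have hc := Nat.cast_card_eq_zero F
  have hcard : (I.card : F) = 4 := by rw [hI]; norm_num
  suffices h : ∑ i ∈ I, ((f i + s) ^ (Fintype.card F - 1) - f i ^ (Fintype.card F - 1)) = 0 by
    rw [h, add_zero]
  obtain h | h | h : Fintype.card F = 2 ∨ Fintype.card F = 3 ∨ Fintype.card F = 4 := by omega
  · rw [h] at hc ⊢
    have h2 : (2 : F) = 0 := by exact_mod_cast hc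
    have : ∀ i ∈ I, ((f i + s) ^ (2 - 1) - f i ^ (2 - 1)) = s := fun i _ => by
      norm_num
    rw [Finset.sum_congr rfl this, Finset.sum_const, nsmul_eq_mul, hcard]
    linear_combination (2 * s) * h2
  · rw [h] at hc ⊢
    have h3 : (3 : F) = 0 := by exact_mod_cast hc
    have : ∀ i ∈ I, ((f i + s) ^ (3 - 1) - f i ^ (3 - 1)) = 2 * s * f i + s ^ 2 := fun i _ => by
      norm_num
      ring
    rw [Finset.sum_congr rfl this, Finset.sum_add_distrib, ← Finset.mul_sum, Finset.sum_const,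
      nsmul_eq_mul, hcard, ← hs]
    linear_combination (2 * s ^ 2) * h3
  · rw [h] at hc ⊢
    have h4 : (4 : F) = 0 := by exact_mod_cast hc
    have h2 : (2 : F) = 0 := by
      have : (2 : F) * 2 = 0 := by linear_combination h4
      exact mul_self_eq_zero.mp this
    have : CharP F 2 := CharTwo.of_one_ne_zero_of_two_eq_zero one_ne_zero h2
    have hsq : ∑ i ∈ I, f i ^ 2 = s ^ 2 := by
      rw [hs, sum_pow_char 2]
    have : ∀ i ∈ I, ((f i + s) ^ (4 - 1) - f i ^ (4 - 1))
        = 3 * s * f i ^ 2 + 3 * s ^ 2 * f i + s ^ 3 := fun i _ => by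
      norm_num
      ring
    rw [Finset.sum_congr rfl this, Finset.sum_add_distrib, Finset.sum_add_distrib,
      ← Finset.mul_sum, ← Finset.mul_sum, Finset.sum_const, nsmul_eq_mul, hcard, hsq, ← hs]
    linear_combination (5 * s ^ 3) * h2

theorem N_ro_one [Fintype F] (hq : Fintype.card F ≤ 4) (I : Finset (Fin t)) (hI : I.card = 4)
    (y : Fin t × Fin 1 → F) : N (ro (vI I 0) (vI I 0) *ᵥ y) = N y := by
  classical
  unfold N
  simp only [ind_one]
  have := key_sum I hI (fun i => y (i, 0)) hq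
  rw [← this]
  apply Finset.sum_congr rfl
  intro i _
  congr 1
  rw [ro_mulVec, vI_dot]
  simp [vI]

theorem twentyfour [Fintype F] (hq : Fintype.card F ≤ 4) : (24 : F) = 0 := by
  have h1 := Fintype.one_lt_card (α := F)
  have hc := Nat.cast_card_eq_zero F
  obtain h | h | h : Fintype.card F = 2 ∨ Fintype.card F = 3 ∨ Fintype.card F = 4 := by omega
  · rw [h] at hc
    have h2 : (2 : F) = 0 := by exact_mod_cast hc
    linear_combination 12 * h2
  · rw [h] at hc
    have h3 : (3 : F) = 0 := by exact_mod_cast hc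
    linear_combination 8 * h3
  · rw [h] at hc
    have h4 : (4 : F) = 0 := by exact_mod_cast hc
    linear_combination 6 * h4

theorem exists_fixing_one [Fintype F] (hq : Fintype.card F ≤ 4)
    {D : Fin t → Submodule F (ι → F)} (C : Coords D 1) (ht : 8 ≤ t) :
    ∃ g ∈ Cfsg.Geo.specialLinear ι F,
      (∀ x, N (C.E ((g : Matrix ι ι F) *ᵥ x)) = N (C.E x)) ∧
        g ∉ Cfsg.Geo.decompositionStabilizer D := by
  classical
  obtain ⟨I, -, hI⟩ := Finset.exists_subset_card_eq (s := (Finset.univ : Finset (Fin t))) (n := 4)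
    (by simp; omega)
  obtain ⟨J, hJI, hJ⟩ := Finset.exists_subset_card_eq (s := Iᶜ) (n := 4)
    (by rw [Finset.card_compl, hI]; simp; omega)
  have hdisj : Disjoint I J := by
    rw [Finset.disjoint_left]
    intro i hi hj
    exact (Finset.mem_compl.mp (hJI hj)) hi
  have hdet : (ro (vI I (0 : Fin 1)) (vI I 0) * ro (vI J (0 : Fin 1)) (vI J 0) :
      Matrix (Fin t × Fin 1) (Fin t × Fin 1) F).det = 1 := by
    rw [Matrix.det_mul, ro_det, ro_det, vI_dot_self, vI_dot_self, hI, hJ]
    have := twentyfour (F := F) hq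
    push_cast
    linear_combination this
  refine ⟨lift C _ (by rw [hdet]; exact one_ne_zero), lift_mem_SL C _ hdet, ?_, ?_⟩
  · intro x
    rw [lift_mulVec, ← Matrix.mulVec_mulVec, N_ro_one hq I hI, N_ro_one hq J hJ]
  · obtain ⟨a, ha, b, hb, c, hc, hab, hac, hbc⟩ := Finset.two_lt_card.mp (by rw [hI]; norm_num : 2 < I.card)
    have haJ : a ∉ J := Finset.disjoint_left.mp hdisj ha
    have hcol : ∀ k : Fin t × Fin 1, (ro (vI I (0 : Fin 1)) (vI I 0) * ro (vI J (0 : Fin 1)) (vI J 0) :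
        Matrix (Fin t × Fin 1) (Fin t × Fin 1) F) k (a, 0)
          = (Pi.single (a, (0 : Fin 1)) (1 : F) + vI I 0 : Fin t × Fin 1 → F) k := by
      intro k
      rw [col_eq (ro (vI I (0 : Fin 1)) (vI I 0) * ro (vI J (0 : Fin 1)) (vI J 0)) k (a, 0),
        ← Matrix.mulVec_mulVec, ro_mulVec, ro_mulVec]
      have e1 : (vI J (0 : Fin 1) ⬝ᵥ Pi.single (a, (0 : Fin 1)) (1 : F)) = 0 := by
        simp [vI, haJ]
      rw [e1, zero_smul, add_zero]
      have e2 : (vI I (0 : Fin 1) ⬝ᵥ Pi.single (a, (0 : Fin 1)) (1 : F)) = 1 := by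
        simp [vI, ha]
      rw [e2, one_smul]
    apply lift_not_stab C _ _ (a, 0) (b, 0) (c, 0) hbc
    · rw [hcol]
      simp [vI, hb, hab.symm]
    · rw [hcol]
      simp [vI, hc, hac.symm]

/-! ### Blocks of dimension two over the field with two elements -/

theorem zero_or_one [Fintype F] (hq : Fintype.card F = 2) (a : F) : a = 0 ∨ a = 1 := by
  have h := FiniteField.pow_card a
  rw [hq] at h
  have : a * (a - 1) = 0 := by linear_combination h
  rcases mul_eq_zero.mp this with h | h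
  · exact Or.inl h
  · exact Or.inr (sub_eq_zero.mp h)

theorem two_eq_zero [Fintype F] (hq : Fintype.card F = 2) : (2 : F) = 0 := by
  have hc := Nat.cast_card_eq_zero F
  rw [hq] at hc
  exact_mod_cast hc

theorem ind_two [Fintype F] (hq : Fintype.card F = 2) (y : Fin t × Fin 2 → F) (i : Fin t) :
    ind i y = y (i, 0) + y (i, 1) + y (i, 0) * y (i, 1) := by
  classical
  have h2 := two_eq_zero hq
  unfold ind
  rcases zero_or_one hq (y (i, 0)) with h0 | h0 <;> rcases zero_or_one hq (y (i, 1)) with h1 | h1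
  · rw [if_neg, h0, h1]
    · ring
    · rintro ⟨a, ha⟩
      apply ha
      fin_cases a
      · exact h0
      · exact h1
  · rw [if_pos ⟨1, by rw [h1]; exact one_ne_zero⟩, h0, h1]
    ring
  · rw [if_pos ⟨0, by rw [h0]; exact one_ne_zero⟩, h0, h1]
    ring
  · rw [if_pos ⟨0, by rw [h0]; exact one_ne_zero⟩, h0, h1]
    linear_combination -h2

theorem N_ro_two_gen [Fintype F] (hq : Fintype.card F = 2) (I : Finset (Fin t))
    (y : Fin t × Fin 2 → F) :
    N (ro (vI I 0) (vI I 1) *ᵥ y) = N y + ((I.card : F) + 1) * ∑ j ∈ I, y (j, 1) := by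
  classical
  have h2 := two_eq_zero hq
  unfold N
  simp only [ind_two hq]
  set s := ∑ j ∈ I, y (j, 1) with hs
  have hss : s * s = s := by
    rcases zero_or_one hq s with h | h <;> rw [h] <;> ring
  have hval0 : ∀ i, (ro (vI I (0 : Fin 2)) (vI I 1) *ᵥ y) (i, 0)
      = y (i, 0) + s * (if i ∈ I then 1 else 0) := by
    intro i
    rw [ro_mulVec, vI_dot, ← hs]
    simp [vI]
  have hval1 : ∀ i, (ro (vI I (0 : Fin 2)) (vI I 1) *ᵥ y) (i, 1) = y (i, 1) := by
    intro i
    rw [ro_mulVec, vI_dot]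
    simp [vI]
  simp only [hval0, hval1]
  have hsplit : ∑ i, (y (i, 0) + s * (if i ∈ I then 1 else 0) + y (i, 1)
        + (y (i, 0) + s * (if i ∈ I then 1 else 0)) * y (i, 1))
      = ∑ i, (y (i, 0) + y (i, 1) + y (i, 0) * y (i, 1)) + ∑ i ∈ I, (s + s * y (i, 1)) := by
    rw [← Finset.univ_inter I, ← Finset.sum_ite_mem, ← Finset.sum_add_distrib]
    apply Finset.sum_congr rfl
    intro i _
    by_cases hi : i ∈ I
    · simp [hi]; ring
    · simp [hi]
  have hI2 : ∑ i ∈ I, (s + s * y (i, 1)) = ((I.card : F) + 1) * s := by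
    rw [Finset.sum_add_distrib, ← Finset.mul_sum, Finset.sum_const, nsmul_eq_mul, ← hs, hss]
    ring
  rw [hsplit, hI2]

theorem N_ro_two [Fintype F] (hq : Fintype.card F = 2) (I : Finset (Fin t)) (hI : I.card = 3)
    (y : Fin t × Fin 2 → F) : N (ro (vI I 0) (vI I 1) *ᵥ y) = N y := by
  classical
  have h2 := two_eq_zero hq
  unfold N
  simp only [ind_two hq]
  set s := ∑ j ∈ I, y (j, 1) with hs
  have hss : s * s = s := by
    rcases zero_or_one hq s with h | h <;> rw [h] <;> ring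
  have hval0 : ∀ i, (ro (vI I (0 : Fin 2)) (vI I 1) *ᵥ y) (i, 0)
      = y (i, 0) + s * (if i ∈ I then 1 else 0) := by
    intro i
    rw [ro_mulVec, vI_dot, ← hs]
    simp [vI]
  have hval1 : ∀ i, (ro (vI I (0 : Fin 2)) (vI I 1) *ᵥ y) (i, 1) = y (i, 1) := by
    intro i
    rw [ro_mulVec, vI_dot]
    simp [vI]
  simp only [hval0, hval1]
  have hsplit : ∑ i, (y (i, 0) + s * (if i ∈ I then 1 else 0) + y (i, 1)
        + (y (i, 0) + s * (if i ∈ I then 1 else 0)) * y (i, 1))
      = ∑ i, (y (i, 0) + y (i, 1) + y (i, 0) * y (i, 1)) + ∑ i ∈ I, (s + s * y (i, 1)) := by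
    rw [← Finset.univ_inter I, ← Finset.sum_ite_mem, ← Finset.sum_add_distrib]
    apply Finset.sum_congr rfl
    intro i _
    by_cases hi : i ∈ I
    · simp [hi]; ring
    · simp [hi]
  have hI2 : ∑ i ∈ I, (s + s * y (i, 1)) = 0 := by
    rw [Finset.sum_add_distrib, ← Finset.mul_sum, Finset.sum_const, nsmul_eq_mul, hI, ← hs, hss]
    push_cast
    linear_combination (2 * s) * h2
  rw [hsplit, hI2, add_zero]

theorem exists_fixing_two [Fintype F] (hq : Fintype.card F = 2)
    {D : Fin t → Submodule F (ι → F)} (C : Coords D 2) (ht : 3 ≤ t) :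
    ∃ g ∈ Cfsg.Geo.specialLinear ι F,
      (∀ x, N (C.E ((g : Matrix ι ι F) *ᵥ x)) = N (C.E x)) ∧
        g ∉ Cfsg.Geo.decompositionStabilizer D := by
  classical
  obtain ⟨I, -, hI⟩ := Finset.exists_subset_card_eq (s := (Finset.univ : Finset (Fin t))) (n := 3)
    (by simp; omega)
  have hdet : (ro (vI I (0 : Fin 2)) (vI I 1) : Matrix (Fin t × Fin 2) (Fin t × Fin 2) F).det = 1 := by
    rw [ro_det, vI_dot_vI I I 1 0 (Or.inr (by decide)), add_zero]
  refine ⟨lift C _ (by rw [hdet]; exact one_ne_zero), lift_mem_SL C _ hdet, ?_, ?_⟩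
  · intro x
    rw [lift_mulVec, N_ro_two hq I hI]
  · obtain ⟨a, ha, b, hb, c, hc, hab, hac, hbc⟩ := Finset.two_lt_card.mp (by rw [hI]; norm_num : 2 < I.card)
    have hcol : ∀ k : Fin t × Fin 2, (ro (vI I (0 : Fin 2)) (vI I 1) :
        Matrix (Fin t × Fin 2) (Fin t × Fin 2) F) k (a, 1)
          = (Pi.single (a, (1 : Fin 2)) (1 : F) + vI I 0 : Fin t × Fin 2 → F) k := by
      intro k
      rw [col_eq (ro (vI I (0 : Fin 2)) (vI I 1)) k (a, 1), ro_mulVec]
      have e2 : (vI I (1 : Fin 2) ⬝ᵥ Pi.single (a, (1 : Fin 2)) (1 : F)) = 1 := by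
        simp [vI, ha]
      rw [e2, one_smul]
    apply lift_not_stab C _ _ (a, 1) (b, 0) (c, 0) hbc
    · rw [hcol]
      simp [vI, hb, hab.symm]
    · rw [hcol]
      simp [vI, hc, hac.symm]

end Cfsg.Agent.Lib.Helper13.BlockWeightG
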