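import Mathlib
import Cfsg.Agent.S5631
import Cfsg.Agent.S5645
import Cfsg.Agent.Lib.Helper5.SympCount
import Cfsg.Agent.Lib.Helper28.Herm
import Cfsg.Agent.Lib.Helper13.AltFrame
import Cfsg.Agent.Lib.Helper13.AltInv

set_option autoImplicit false
open Cfsg

namespace Cfsg.Agent.Lib.Helper13.CentCount

open Matrix
open Cfsg.Agent.S5631 Cfsg.Agent.S5645
open Cfsg.Agent.Lib.Helper28.Herm (Isom isom_inv isom_mul)
open Cfsg.Agent.Lib.Helper13.AltFrame (alt_sum_left alt_sum_right)
open Cfsg.Agent.Lib.Helper13.AltInv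
open Cfsg.Agent.Lib.Helper5.SympCount (card_eq_of_fibers)

variable {ι : Type} [Fintype ι] [DecidableEq ι] {F : Type*} [Field F]
variable {f : (ι → F) → (ι → F) → F}

/-! ### dual vectors and the size of the orthogonal of a family -/

/-- the linear map `x ↦ (f x (w j))_j` -/
def evalMap (hf : IsAlt f) {κ : Type} (w : κ → ι → F) : (ι → F) →ₗ[F] (κ → F) where
  toFun x := fun j => f x (w j)
  map_add' x y := by
    funext j
    exact hf.add_left x y (w j)
  map_smul' c x := by
    funext j
    show f (c • x) (w j) = c • f x (w j)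
    rw [hf.smul_left, smul_eq_mul]

theorem evalMap_apply (hf : IsAlt f) {κ : Type} (w : κ → ι → F) (x : ι → F) (j : κ) :
    evalMap hf w x j = f x (w j) := rfl

theorem evalMap_surj (hf : IsAlt f) {κ : Type} [Fintype κ] [DecidableEq κ] (w : κ → ι → F)
    (hw : LinearIndependent F w) : Function.Surjective (evalMap hf w) := by
  rw [← LinearMap.range_eq_top]
  by_contra hne
  obtain ⟨g, hg0, hg⟩ := Submodule.exists_le_ker_of_lt_top _ (lt_top_iff_ne_top.mpr hne)
  obtain ⟨c, hc⟩ : ∃ c : κ → F, c = fun i => g (fun j => if i = j then 1 else 0) := ⟨_, rfl⟩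
  have hgc : ∀ y : κ → F, g y = ∑ i, c i * y i := by
    intro y
    rw [LinearMap.pi_apply_eq_sum_univ g y, hc]
    apply Finset.sum_congr rfl
    intro i _
    rw [smul_eq_mul, mul_comm]
  have h1 : ∀ x, f x (∑ j, c j • w j) = 0 := by
    intro x
    have h2 : g (evalMap hf w x) = 0 := hg ⟨x, rfl⟩
    rw [hgc] at h2
    rw [alt_sum_right hf]
    exact h2
  have h3 : ∑ j, c j • w j = 0 := by
    apply hf.nondeg
    intro y
    rw [hf.swap, h1 y, neg_zero]
  have h4 : ∀ j, c j = 0 := Fintype.linearIndependent_iff.mp hw c h3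
  apply hg0
  apply LinearMap.ext
  intro y
  rw [hgc, LinearMap.zero_apply]
  apply Finset.sum_eq_zero
  intro i _
  rw [h4 i, zero_mul]

theorem exists_dual (hf : IsAlt f) {κ : Type} [Fintype κ] [DecidableEq κ] (w : κ → ι → F)
    (hw : LinearIndependent F w) :
    ∃ z : κ → ι → F, ∀ i j, f (z i) (w j) = if i = j then 1 else 0 := by
  have h := evalMap_surj hf w hw
  choose z hz using fun i : κ => h (fun j => if i = j then 1 else 0)
  refine ⟨z, fun i j => ?_⟩
  rw [← evalMap_apply hf w (z i) j, hz i]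

theorem perp_card [Fintype F] (hf : IsAlt f) {κ : Type} [Fintype κ] [DecidableEq κ]
    (w : κ → ι → F) (hw : LinearIndependent F w) :
    Nat.card {x : ι → F // ∀ j, f x (w j) = 0} =
      Fintype.card F ^ (Fintype.card ι - Fintype.card κ) := by
  have e : Nat.card {x : ι → F // ∀ j, f x (w j) = 0} =
      Nat.card ↥(LinearMap.ker (evalMap hf w)) := by
    apply Nat.card_congr
    apply Equiv.subtypeEquivRight
    intro x
    rw [LinearMap.mem_ker]
    constructor
    · intro h
      funext j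
      exact h j
    · intro h j
      exact congrFun h j
  rw [e, Module.natCard_eq_pow_finrank (K := F), Nat.card_eq_fintype_card]
  congr 1
  have h1 := LinearMap.finrank_range_add_finrank_ker (evalMap hf w)
  rw [LinearMap.range_eq_top.mpr (evalMap_surj hf w hw), finrank_top,
    Module.finrank_fintype_fun_eq_card, Module.finrank_fintype_fun_eq_card] at h1
  omega

/-! ### counting frames -/

/-- linearly independent totally isotropic families -/
def IsFrame (f : (ι → F) → (ι → F) → F) {κ : Type} (w : κ → ι → F) : Prop :=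
  LinearIndependent F w ∧ ∀ i j, f (w i) (w j) = 0

theorem frame_cons (hf : IsAlt f) {k : ℕ} (w : Fin k → ι → F) (hw : IsFrame f w) (x : ι → F) :
    IsFrame f (Fin.cons x w : Fin (k + 1) → ι → F) ↔
      x ∈ {x : ι → F | ∀ j, f x (w j) = 0} \
        ((Submodule.span F (Set.range w) : Submodule F (ι → F)) : Set (ι → F)) := by
  constructor
  · rintro ⟨h1, h2⟩
    refine ⟨fun j => ?_, (linearIndependent_finCons.mp h1).2⟩
    have := h2 0 j.succ
    rw [Fin.cons_zero, Fin.cons_succ] at this
    exact this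
  · rintro ⟨h1, h2⟩
    refine ⟨linearIndependent_finCons.mpr ⟨hw.1, h2⟩, fun i j => ?_⟩
    induction i using Fin.cases with
    | zero =>
      induction j using Fin.cases with
      | zero => rw [Fin.cons_zero]; exact hf.self x
      | succ j => rw [Fin.cons_zero, Fin.cons_succ]; exact h1 j
    | succ i =>
      induction j using Fin.cases with
      | zero => rw [Fin.cons_zero, Fin.cons_succ, hf.swap, h1 i, neg_zero]
      | succ j => rw [Fin.cons_succ, Fin.cons_succ]; exact hw.2 i j

theorem frame_tail {k : ℕ} (w : Fin (k + 1) → ι → F) (hw : IsFrame f w) :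
    IsFrame f (Fin.tail w) := by
  refine ⟨?_, fun i j => hw.2 i.succ j.succ⟩
  have h := hw.1
  rw [← Fin.cons_self_tail w] at h
  exact (linearIndependent_finCons.mp h).1

theorem frame_step [Fintype F] (hf : IsAlt f) {k : ℕ} (w : Fin k → ι → F) (hw : IsFrame f w) :
    Nat.card {x : ι → F // IsFrame f (Fin.cons x w : Fin (k + 1) → ι → F)} =
      Fintype.card F ^ (Fintype.card ι - k) - Fintype.card F ^ k := by
  classical
  have e1 : Nat.card {x : ι → F // IsFrame f (Fin.cons x w : Fin (k + 1) → ι → F)} =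
      Nat.card ↥({x : ι → F | ∀ j, f x (w j) = 0} \
        ((Submodule.span F (Set.range w) : Submodule F (ι → F)) : Set (ι → F))) :=
    Nat.card_congr (Equiv.subtypeEquivRight (fun x => frame_cons hf w hw x))
  have hsub : ((Submodule.span F (Set.range w) : Submodule F (ι → F)) : Set (ι → F)) ⊆
      {x : ι → F | ∀ j, f x (w j) = 0} := by
    intro x hx j
    apply aspan_perp hf _ _ _ x hx
    rintro _ ⟨i, rfl⟩
    exact hw.2 i j
  have e2 : Nat.card ↥{x : ι → F | ∀ j, f x (w j) = 0} =
      Fintype.card F ^ (Fintype.card ι - k) := by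
    have := perp_card hf w hw.1
    rw [Fintype.card_fin] at this
    exact this
  have e3 : Nat.card ↥((Submodule.span F (Set.range w) : Submodule F (ι → F)) : Set (ι → F)) =
      Fintype.card F ^ k := by
    show Nat.card ↥(Submodule.span F (Set.range w)) = _
    rw [Module.natCard_eq_pow_finrank (K := F), Nat.card_eq_fintype_card,
      finrank_span_eq_card hw.1, Fintype.card_fin]
  rw [e1, Nat.card_coe_set_eq, Set.ncard_sdiff hsub, ← Nat.card_coe_set_eq,
    ← Nat.card_coe_set_eq, e2, e3]

theorem frame_card [Fintype F] (hf : IsAlt f) : ∀ k : ℕ,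
    Nat.card {w : Fin k → ι → F // IsFrame f w} =
      ∏ i ∈ Finset.range k, (Fintype.card F ^ (Fintype.card ι - i) - Fintype.card F ^ i) := by
  intro k
  induction k with
  | zero =>
    rw [Finset.range_zero, Finset.prod_empty]
    have : Unique {w : Fin 0 → ι → F // IsFrame f w} :=
      { default := ⟨fun i => i.elim0, linearIndependent_empty_type, fun i => i.elim0⟩
        uniq := fun a => Subtype.ext (funext fun i => i.elim0) }
    exact Nat.card_unique
  | succ k ih =>
    rw [Finset.prod_range_succ, ← ih]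
    apply card_eq_of_fibers
      (fun w : {w : Fin (k + 1) → ι → F // IsFrame f w} =>
        (⟨Fin.tail w.1, frame_tail w.1 w.2⟩ : {w : Fin k → ι → F // IsFrame f w}))
    intro y
    rw [← frame_step hf y.1 y.2]
    apply Nat.card_congr
    exact
      { toFun := fun x => ⟨x.1.1 0, by
          have h1 : Fin.tail x.1.1 = y.1 := congrArg Subtype.val x.2
          have h2 := x.1.2
          rw [← Fin.cons_self_tail x.1.1, h1] at h2
          exact h2⟩
        invFun := fun x => ⟨⟨Fin.cons x.1 y.1, x.2⟩, Subtype.ext (by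
          show Fin.tail (Fin.cons x.1 y.1 : Fin (k + 1) → ι → F) = y.1
          funext i
          show (Fin.cons x.1 y.1 : Fin (k + 1) → ι → F) i.succ = y.1 i
          rw [Fin.cons_succ])⟩
        left_inv := fun x => by
          apply Subtype.ext
          apply Subtype.ext
          have h1 : Fin.tail x.1.1 = y.1 := congrArg Subtype.val x.2
          show Fin.cons (x.1.1 0) y.1 = x.1.1
          rw [← h1]
          exact Fin.cons_self_tail x.1.1
        right_inv := fun x => by
          apply Subtype.ext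
          show (Fin.cons x.1 y.1 : Fin (k + 1) → ι → F) 0 = x.1
          exact Fin.cons_zero _ _ }

theorem frame_card' [Fintype F] (hf : IsAlt f) {κ : Type} [Fintype κ] :
    Nat.card {w : κ → ι → F // IsFrame f w} =
      ∏ i ∈ Finset.range (Fintype.card κ),
        (Fintype.card F ^ (Fintype.card ι - i) - Fintype.card F ^ i) := by
  rw [← frame_card hf (Fintype.card κ)]
  apply Nat.card_congr
  refine Equiv.subtypeEquiv (Equiv.arrowCongr (Fintype.equivFin κ) (Equiv.refl _)) ?_
  intro w
  show IsFrame f w ↔ IsFrame f (fun i => w ((Fintype.equivFin κ).symm i))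
  constructor
  · rintro ⟨h1, h2⟩
    exact ⟨h1.comp _ (Fintype.equivFin κ).symm.injective, fun i j => h2 _ _⟩
  · rintro ⟨h1, h2⟩
    refine ⟨?_, fun i j => ?_⟩
    · have := h1.comp _ (Fintype.equivFin κ).injective
      have e : (fun i => w ((Fintype.equivFin κ).symm i)) ∘ (Fintype.equivFin κ) = w := by
        funext i
        simp
      rw [e] at this
      exact this
    · have := h2 (Fintype.equivFin κ i) (Fintype.equivFin κ j)
      simp only [Equiv.symm_apply_apply] at this
      exact this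

/-! ### fibres of the isometry group over frames -/

theorem frame_map {κ : Type} (g : GL ι F) (hg : Isom f g) (w : κ → ι → F) (hw : IsFrame f w) :
    IsFrame f (fun i => (g : Matrix ι ι F) *ᵥ w i) := by
  refine ⟨?_, fun i j => by rw [hg]; exact hw.2 i j⟩
  exact hw.1.map' (glEquiv g : (ι → F) →ₗ[F] (ι → F))
    (LinearMap.ker_eq_bot.mpr (glEquiv g).injective)

theorem fib_card (hf : IsAlt f) {κ : Type} (w₀ : κ → ι → F) (hw₀ : IsFrame f w₀)
    (x : κ → ι → F) (hx : IsFrame f x) :
    Nat.card {g : GL ι F // Isom f g ∧ ∀ i, (g : Matrix ι ι F) *ᵥ w₀ i = x i} =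
      Nat.card {g : GL ι F // Isom f g ∧ ∀ i, (g : Matrix ι ι F) *ᵥ w₀ i = w₀ i} := by
  obtain ⟨g₀, hg₀, hg₀w⟩ := witt_alt hf w₀ x hw₀.1 hx.1 hw₀.2 hx.2
  apply Nat.card_congr
  exact
    { toFun := fun g => ⟨g₀⁻¹ * g.1, isom_mul (isom_inv hg₀) g.2.1, fun i => by
        rw [Units.val_mul, ← Matrix.mulVec_mulVec, g.2.2 i, ← hg₀w i, gl_inv_mulVec]⟩
      invFun := fun g => ⟨g₀ * g.1, isom_mul hg₀ g.2.1, fun i => by
        rw [Units.val_mul, ← Matrix.mulVec_mulVec, g.2.2 i, hg₀w i]⟩
      left_inv := fun g => Subtype.ext (by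
        show g₀ * (g₀⁻¹ * g.1) = g.1
        group)
      right_inv := fun g => Subtype.ext (by
        show g₀⁻¹ * (g₀ * g.1) = g.1
        group) }

/-- counting the isometries that move a frame into a given set of frames -/
theorem cent_card [Fintype F] (hf : IsAlt f) {κ : Type} [Fintype κ] (w₀ : κ → ι → F)
    (hw₀ : IsFrame f w₀) (Y : Set (κ → ι → F)) (hY : ∀ y ∈ Y, IsFrame f y) :
    Nat.card {g : GL ι F // Isom f g ∧ (fun i => (g : Matrix ι ι F) *ᵥ w₀ i) ∈ Y} *
        Nat.card {w : κ → ι → F // IsFrame f w} =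
      Nat.card ↥Y * Nat.card {g : GL ι F // Isom f g} := by
  classical
  obtain ⟨c, hc⟩ : ∃ c, c = Nat.card {g : GL ι F // Isom f g ∧
      ∀ i, (g : Matrix ι ι F) *ᵥ w₀ i = w₀ i} := ⟨_, rfl⟩
  have h1 : Nat.card {g : GL ι F // Isom f g} =
      Nat.card {w : κ → ι → F // IsFrame f w} * c := by
    apply card_eq_of_fibers (fun g : {g : GL ι F // Isom f g} =>
      (⟨fun i => (g.1 : Matrix ι ι F) *ᵥ w₀ i, frame_map g.1 g.2 w₀ hw₀⟩ :
        {w : κ → ι → F // IsFrame f w}))
    intro y
    rw [hc, ← fib_card hf w₀ hw₀ y.1 y.2]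
    apply Nat.card_congr
    exact
      { toFun := fun g => ⟨g.1.1, g.1.2, fun i => congrFun (congrArg Subtype.val g.2) i⟩
        invFun := fun g => ⟨⟨g.1, g.2.1⟩, Subtype.ext (funext g.2.2)⟩
        left_inv := fun g => rfl
        right_inv := fun g => rfl }
  have h2 : Nat.card {g : GL ι F // Isom f g ∧ (fun i => (g : Matrix ι ι F) *ᵥ w₀ i) ∈ Y} =
      Nat.card ↥Y * c := by
    apply card_eq_of_fibers
      (fun g : {g : GL ι F // Isom f g ∧ (fun i => (g : Matrix ι ι F) *ᵥ w₀ i) ∈ Y} =>
        (⟨fun i => (g.1 : Matrix ι ι F) *ᵥ w₀ i, g.2.2⟩ : ↥Y))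
    intro y
    rw [hc, ← fib_card hf w₀ hw₀ y.1 (hY y.1 y.2)]
    apply Nat.card_congr
    exact
      { toFun := fun g => ⟨g.1.1, g.1.2.1, fun i => congrFun (congrArg Subtype.val g.2) i⟩
        invFun := fun g => ⟨⟨g.1, g.2.1, by
            have : (fun i => (g.1 : Matrix ι ι F) *ᵥ w₀ i) = y.1 := funext g.2.2
            rw [this]
            exact y.2⟩, Subtype.ext (funext g.2.2)⟩
        left_inv := fun g => rfl
        right_inv := fun g => rfl }
  rw [h1, h2]
  ring

/-! ### the centraliser condition in terms of frames -/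

/-- the family `w · A` -/
def fr {κ : Type} [Fintype κ] (w : κ → ι → F) (A : Matrix κ κ F) : κ → ι → F :=
  fun j => ∑ i, A i j • w i

/-- `σ`-orthogonality of a matrix -/
def PS {κ : Type} [Fintype κ] [DecidableEq κ] (σ : κ ≃ κ) (A : Matrix κ κ F) : Prop :=
  ∀ j i, ∑ k, A j k * A i (σ k) = if i = σ j then 1 else 0

/-- the nilpotent operator attached to a family -/
def nop (f : (ι → F) → (ι → F) → F) {κ : Type} [Fintype κ] (σ : κ ≃ κ) (y : κ → ι → F)
    (x : ι → F) : ι → F :=
  ∑ k, f x (y (σ k)) • y k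

theorem nop_fr (hf : IsAlt f) {κ : Type} [Fintype κ] (σ : κ ≃ κ) (w : κ → ι → F)
    (A : Matrix κ κ F) (x : ι → F) :
    nop f σ (fr w A) x = ∑ j, (∑ i, (∑ k, A j k * A i (σ k)) * f x (w i)) • w j := by
  unfold nop fr
  have e1 : ∀ k, f x (∑ i, A i (σ k) • w i) • ∑ j, A j k • w j =
      ∑ j, ((∑ i, A i (σ k) * f x (w i)) * A j k) • w j := by
    intro k
    rw [alt_sum_right hf, Finset.smul_sum]
    apply Finset.sum_congr rfl
    intro j _
    rw [smul_smul]
  rw [Finset.sum_congr rfl (fun k _ => e1 k), Finset.sum_comm]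
  apply Finset.sum_congr rfl
  intro j _
  rw [← Finset.sum_smul]
  congr 1
  have e2 : ∀ k, (∑ i, A i (σ k) * f x (w i)) * A j k =
      ∑ i, A j k * A i (σ k) * f x (w i) := by
    intro k
    rw [Finset.sum_mul]
    apply Finset.sum_congr rfl
    intro i _
    ring
  rw [Finset.sum_congr rfl (fun k _ => e2 k), Finset.sum_comm]
  apply Finset.sum_congr rfl
  intro i _
  rw [Finset.sum_mul]

theorem nop_eq_of_PS (hf : IsAlt f) {κ : Type} [Fintype κ] [DecidableEq κ] (σ : κ ≃ κ)
    (w : κ → ι → F) (A : Matrix κ κ F) (hA : PS σ A) (x : ι → F) :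
    nop f σ (fr w A) x = nop f σ w x := by
  rw [nop_fr hf]
  unfold nop
  apply Finset.sum_congr rfl
  intro j _
  congr 1
  rw [Finset.sum_congr rfl (fun i _ => by rw [hA j i])]
  rw [Finset.sum_eq_single (σ j)]
  · rw [if_pos rfl, one_mul]
  · intro i _ hi
    rw [if_neg hi, zero_mul]
  · intro h
    exact absurd (Finset.mem_univ _) h

theorem li_coeff {κ : Type} [Fintype κ] (w : κ → ι → F) (hw : LinearIndependent F w)
    (a b : κ → F) (h : ∑ j, a j • w j = ∑ j, b j • w j) : a = b := by
  have h1 : ∑ j, (a j - b j) • w j = 0 := by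
    rw [Finset.sum_congr rfl (fun j _ => sub_smul (a j) (b j) (w j)), Finset.sum_sub_distrib, h,
      sub_self]
  funext j
  exact sub_eq_zero.mp (Fintype.linearIndependent_iff.mp hw _ h1 j)

theorem PS_of_nop_eq (hf : IsAlt f) {κ : Type} [Fintype κ] [DecidableEq κ] (σ : κ ≃ κ)
    (w : κ → ι → F) (hw : LinearIndependent F w) (A : Matrix κ κ F)
    (h : ∀ x, nop f σ (fr w A) x = nop f σ w x) : PS σ A := by
  obtain ⟨z, hz⟩ := exists_dual hf w hw
  intro j i
  have h1 := h (z i)
  rw [nop_fr hf] at h1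
  unfold nop at h1
  have h2 := li_coeff w hw _ _ h1
  have h3 := congrFun h2 j
  simp only [hz] at h3
  rw [Finset.sum_eq_single i] at h3
  · rw [if_pos rfl, mul_one] at h3
    exact h3
  · intro b _ hb
    rw [if_neg (Ne.symm hb), mul_zero]
  · intro h
    exact absurd (Finset.mem_univ _) h

theorem comm_iff_nop (hf : IsAlt f) {κ : Type} [Fintype κ] (σ : κ ≃ κ) (w : κ → ι → F)
    (t : GL ι F) (ht : ∀ y, (t : Matrix ι ι F) *ᵥ y = y + nop f σ w y)
    (g : GL ι F) (hg : Isom f g) :
    g * t = t * g ↔ ∀ x, nop f σ (fun j => (g : Matrix ι ι F) *ᵥ w j) x = nop f σ w x := by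
  have key : ∀ y, (g : Matrix ι ι F) *ᵥ nop f σ w y =
      nop f σ (fun j => (g : Matrix ι ι F) *ᵥ w j) ((g : Matrix ι ι F) *ᵥ y) := by
    intro y
    unfold nop
    rw [Matrix.mulVec_sum]
    apply Finset.sum_congr rfl
    intro k _
    rw [Matrix.mulVec_smul, hg]
  constructor
  · intro h x
    have h1 : (g : Matrix ι ι F) *ᵥ ((t : Matrix ι ι F) *ᵥ (((g⁻¹ : GL ι F) : Matrix ι ι F) *ᵥ x))
        = (t : Matrix ι ι F) *ᵥ x := by
      rw [Matrix.mulVec_mulVec, ← Units.val_mul, h, Units.val_mul, ← Matrix.mulVec_mulVec,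
        gl_mulVec_inv]
    rw [ht, ht, Matrix.mulVec_add, gl_mulVec_inv, key, gl_mulVec_inv] at h1
    exact add_left_cancel h1
  · intro h
    apply gl_ext
    intro y
    rw [Units.val_mul, Units.val_mul, ← Matrix.mulVec_mulVec, ← Matrix.mulVec_mulVec, ht, ht,
      Matrix.mulVec_add, key, h]

theorem comm_iff (hf : IsAlt f) {κ : Type} [Fintype κ] [DecidableEq κ] (σ : κ ≃ κ)
    (w : κ → ι → F) (hw : LinearIndependent F w)
    (t : GL ι F) (ht : ∀ y, (t : Matrix ι ι F) *ᵥ y = y + nop f σ w y)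
    (g : GL ι F) (hg : Isom f g) :
    g * t = t * g ↔
      ∃ A : Matrix κ κ F, PS σ A ∧ (fun j => (g : Matrix ι ι F) *ᵥ w j) = fr w A := by
  rw [comm_iff_nop hf σ w t ht g hg]
  constructor
  · intro h
    obtain ⟨z, hz⟩ := exists_dual hf w hw
    have hA : (fun j => (g : Matrix ι ι F) *ᵥ w j) =
        fr w (fun l k => f ((g : Matrix ι ι F) *ᵥ z (σ k)) (w (σ l))) := by
      funext k
      have h1 := h ((g : Matrix ι ι F) *ᵥ z (σ k))
      unfold nop at h1
      have hg' : ∀ u v, f ((g : Matrix ι ι F) *ᵥ u) ((g : Matrix ι ι F) *ᵥ v) = f u v := hg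
      simp only [hg', hz] at h1
      rw [Finset.sum_eq_single k] at h1
      · rw [if_pos rfl, one_smul] at h1
        rw [h1]
        rfl
      · intro b _ hb
        rw [if_neg (fun hh => hb (σ.injective hh).symm), zero_smul]
      · intro hh
        exact absurd (Finset.mem_univ _) hh
    refine ⟨_, ?_, hA⟩
    apply PS_of_nop_eq hf σ w hw
    intro x
    rw [← hA]
    exact h x
  · rintro ⟨A, hA, hgA⟩ x
    rw [hgA]
    exact nop_eq_of_PS hf σ w A hA x

theorem fr_inj {κ : Type} [Fintype κ] (w : κ → ι → F) (hw : LinearIndependent F w) :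
    Function.Injective (fr w) := by
  intro A B h
  ext i j
  have h1 := congrFun h j
  unfold fr at h1
  exact congrFun (li_coeff w hw _ _ h1) i

theorem fr_frame (hf : IsAlt f) {κ : Type} [Fintype κ] [DecidableEq κ] (σ : κ ≃ κ)
    (w : κ → ι → F) (hw : IsFrame f w) (A : Matrix κ κ F) (hA : PS σ A) :
    IsFrame f (fr w A) := by
  have hmem : ∀ j, fr w A j ∈ Submodule.span F (Set.range w) := by
    intro j
    apply Submodule.sum_mem
    intro i _
    exact Submodule.smul_mem _ _ (Submodule.subset_span ⟨i, rfl⟩)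
  refine ⟨?_, fun i j => aspan_ti hf w hw.2 _ (hmem i) _ (hmem j)⟩
  obtain ⟨z, hz⟩ := exists_dual hf w hw.1
  have hle : Submodule.span F (Set.range w) ≤ Submodule.span F (Set.range (fr w A)) := by
    rw [Submodule.span_le]
    rintro _ ⟨k, rfl⟩
    have h1 := nop_eq_of_PS hf σ w A hA (z (σ k))
    have h2 : nop f σ w (z (σ k)) = w k := by
      unfold nop
      simp only [hz]
      rw [Finset.sum_eq_single k]
      · rw [if_pos rfl, one_smul]
      · intro b _ hb
        rw [if_neg (fun hh => hb (σ.injective hh).symm), zero_smul]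
      · intro hh
        exact absurd (Finset.mem_univ _) hh
    rw [h2] at h1
    rw [SetLike.mem_coe, ← h1]
    unfold nop
    apply Submodule.sum_mem
    intro l _
    exact Submodule.smul_mem _ _ (Submodule.subset_span ⟨l, rfl⟩)
  rw [linearIndependent_iff_card_eq_finrank_span]
  apply le_antisymm
  · rw [← finrank_span_eq_card hw.1]
    exact Submodule.finrank_mono hle
  · exact finrank_range_le_card _

/-- the main counting statement: centraliser order times number of frames -/
theorem cent_main [Fintype F] (hf : IsAlt f) {κ : Type} [Fintype κ] [DecidableEq κ] (σ : κ ≃ κ)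
    (w : κ → ι → F) (hw : IsFrame f w)
    (t : GL ι F) (ht : ∀ y, (t : Matrix ι ι F) *ᵥ y = y + nop f σ w y) :
    Nat.card {g : GL ι F // Isom f g ∧ g * t = t * g} *
        Nat.card {w : κ → ι → F // IsFrame f w} =
      Nat.card {A : Matrix κ κ F // PS σ A} * Nat.card {g : GL ι F // Isom f g} := by
  have h := cent_card hf w hw {y | ∃ A : Matrix κ κ F, PS σ A ∧ y = fr w A} (by
    rintro y ⟨A, hA, rfl⟩
    exact fr_frame hf σ w hw A hA)
  have e1 : Nat.card {g : GL ι F // Isom f g ∧ g * t = t * g} =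
      Nat.card {g : GL ι F // Isom f g ∧ (fun i => (g : Matrix ι ι F) *ᵥ w i) ∈
        {y | ∃ A : Matrix κ κ F, PS σ A ∧ y = fr w A}} := by
    apply Nat.card_congr
    apply Equiv.subtypeEquivRight
    intro g
    constructor
    · rintro ⟨h1, h2⟩
      exact ⟨h1, (comm_iff hf σ w hw.1 t ht g h1).mp h2⟩
    · rintro ⟨h1, h2⟩
      exact ⟨h1, (comm_iff hf σ w hw.1 t ht g h1).mpr h2⟩
  have e2 : Nat.card {A : Matrix κ κ F // PS σ A} =
      Nat.card ↥{y | ∃ A : Matrix κ κ F, PS σ A ∧ y = fr w A} := by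
    apply Nat.card_congr
    refine Equiv.ofBijective (fun A => ⟨fr w A.1, A.1, A.2, rfl⟩) ⟨?_, ?_⟩
    · intro A B hAB
      exact Subtype.ext (fr_inj w hw.1 (congrArg Subtype.val hAB))
    · rintro ⟨y, A, hA, rfl⟩
      exact ⟨⟨A, hA⟩, rfl⟩
  rw [e1, e2]
  exact h

end Cfsg.Agent.Lib.Helper13.CentCount
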