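import Mathlib
import Cfsg.Agent.Lib.Helper13.GL2Irr
import Cfsg.Agent.S2301
import Cfsg.Agent.Lib.Helper2.SLGen

set_option autoImplicit false

namespace Cfsg.Agent.Lib.Helper13.GL2Syl

open Cfsg.Agent.Lib.Helper13

universe u

section gen

variable {G : Type*} [Group G]

theorem card_centralizer_conj (g a : G) :
    Nat.card (Subgroup.centralizer ({g * a * g⁻¹} : Set G)) = Nat.card (Subgroup.centralizer ({a} : Set G)) := by
  symm
  refine Nat.card_congr ((MulAut.conj g).toEquiv.subtypeEquiv ?_)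
  intro x
  rw [Subgroup.mem_centralizer_singleton_iff, Subgroup.mem_centralizer_singleton_iff]
  show _ ↔ g * x * g⁻¹ * (g * a * g⁻¹) = g * a * g⁻¹ * (g * x * g⁻¹)
  constructor
  · intro h
    have : g * x * g⁻¹ * (g * a * g⁻¹) = g * (x * a) * g⁻¹ := by group
    rw [this, h]; group
  · intro h
    have h1 : x * a = g⁻¹ * (g * x * g⁻¹ * (g * a * g⁻¹)) * g := by group
    rw [h1, h]; group

end gen

section gl

variable {F : Type u} [Field F]

/-- upper unitriangular elements of `GL₂` -/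
noncomputable def uG (t : F) : Matrix.GeneralLinearGroup (Fin 2) F :=
  Matrix.GeneralLinearGroup.mkOfDetNeZero !![1, t; 0, 1] (by simp [Matrix.det_fin_two])

theorem uG_val (t : F) : (uG t).1 = !![1, t; 0, 1] := rfl

theorem uG_mul (s t : F) : uG s * uG t = uG (s + t) := by
  apply Units.ext
  show (!![1, s; 0, 1] : Matrix (Fin 2) (Fin 2) F) * !![1, t; 0, 1] = !![1, s + t; 0, 1]
  rw [Matrix.mul_fin_two]
  congr 1
  ext i j
  fin_cases i <;> fin_cases j <;> simp
  ring

theorem uG_zero : uG (0 : F) = 1 := by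
  apply Units.ext
  show (!![1, 0; 0, 1] : Matrix (Fin 2) (Fin 2) F) = 1
  rw [Matrix.one_fin_two]

theorem uG_inj {s t : F} (h : uG s = uG t) : s = t := by
  have h1 : (uG s).1 0 1 = (uG t).1 0 1 := by rw [h]
  simpa [uG_val] using h1

/-- the homomorphism `t ↦ u(t)` -/
noncomputable def uHom (F : Type u) [Field F] : Multiplicative F →* Matrix.GeneralLinearGroup (Fin 2) F where
  toFun t := uG (Multiplicative.toAdd t)
  map_one' := uG_zero
  map_mul' s t := (uG_mul _ _).symm

/-- the upper unitriangular subgroup -/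
noncomputable def UG (F : Type u) [Field F] : Subgroup (Matrix.GeneralLinearGroup (Fin 2) F) :=
  (uHom F).range

theorem uG_mem (t : F) : uG t ∈ UG F := ⟨Multiplicative.ofAdd t, rfl⟩

theorem exists_of_mem_UG {g : Matrix.GeneralLinearGroup (Fin 2) F} (hg : g ∈ UG F) :
    ∃ t : F, g = uG t := by
  obtain ⟨t, rfl⟩ := hg
  exact ⟨Multiplicative.toAdd t, rfl⟩

theorem mem_UG_iff (g : Matrix.GeneralLinearGroup (Fin 2) F) :
    g ∈ UG F ↔ g.1 0 0 = 1 ∧ g.1 1 0 = 0 ∧ g.1 1 1 = 1 := by
  constructor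
  · intro hg
    obtain ⟨t, rfl⟩ := exists_of_mem_UG hg
    rw [uG_val]
    exact ⟨rfl, rfl, rfl⟩
  · rintro ⟨h00, h10, h11⟩
    have : g = uG (g.1 0 1) := by
      apply Units.ext
      rw [uG_val]
      conv_lhs => rw [Matrix.eta_fin_two g.1, h00, h11, h10]
    rw [this]
    exact uG_mem _

theorem card_UG [Fintype F] : Nat.card (UG F) = Fintype.card F := by
  have hinj : Function.Injective (uHom F) := by
    intro s t h
    exact uG_inj (s := Multiplicative.toAdd s) (t := Multiplicative.toAdd t) h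
  rw [UG, ← Nat.card_congr (MonoidHom.ofInjective hinj).toEquiv, ← Nat.card_eq_fintype_card]
  exact Nat.card_congr Multiplicative.toAdd

theorem mem_B_of_conj {h : Matrix.GeneralLinearGroup (Fin 2) F} {t : F} (ht : t ≠ 0)
    (hc : h * uG t * h⁻¹ ∈ UG F) : h ∈ Cfsg.upperTriangularGL 2 F := by
  obtain ⟨s, hs⟩ := exists_of_mem_UG hc
  have hm : h * uG t = uG s * h := by rw [← hs]; group
  have hm' : h.1 * (uG t).1 = (uG s).1 * h.1 := congrArg Units.val hm
  rw [uG_val, uG_val] at hm'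
  have e11 := congrFun (congrFun hm' 1) 1
  simp [Matrix.mul_apply, Fin.sum_univ_two] at e11
  rw [S2308.mem_B_iff]
  rcases e11 with h | h
  · exact h
  · exact absurd h ht

theorem conj_uG_of_mem_B {h : Matrix.GeneralLinearGroup (Fin 2) F}
    (hh : h ∈ Cfsg.upperTriangularGL 2 F) (t : F) :
    h * uG t * h⁻¹ = uG (h.1 0 0 * t / h.1 1 1) := by
  have h10 := (S2308.mem_B_iff h).mp hh
  have hd := (GL2Ind.B_diag_ne ⟨h, hh⟩).2
  replace hd : h.1 1 1 ≠ 0 := hd
  rw [mul_inv_eq_iff_eq_mul]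
  apply Units.ext
  show h.1 * (uG t).1 = (uG _).1 * h.1
  rw [uG_val, uG_val]
  ext i j
  fin_cases i <;> fin_cases j <;> simp [Matrix.mul_apply, Fin.sum_univ_two, h10]
  field_simp
  ring

theorem normalizer_UG :
    Subgroup.normalizer ((UG F : Subgroup (Matrix.GeneralLinearGroup (Fin 2) F)) : Set (Matrix.GeneralLinearGroup (Fin 2) F))
      = Cfsg.upperTriangularGL 2 F := by
  ext g
  rw [Subgroup.mem_normalizer_iff]
  constructor
  · intro hg
    exact mem_B_of_conj one_ne_zero ((hg (uG 1)).mp (uG_mem 1))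
  · intro hg x
    constructor
    · intro hx
      obtain ⟨t, rfl⟩ := exists_of_mem_UG hx
      rw [conj_uG_of_mem_B hg]
      exact uG_mem _
    · intro hx
      obtain ⟨t, ht⟩ := exists_of_mem_UG hx
      have hg' : g⁻¹ ∈ Cfsg.upperTriangularGL 2 F := inv_mem hg
      have h1 := conj_uG_of_mem_B hg' t
      have hx' : x = g⁻¹ * uG t * g⁻¹⁻¹ := by rw [← ht]; group
      rw [hx', h1]
      exact uG_mem _

theorem exists_sylow_UG [Fintype F] (p : ℕ) [Fact p.Prime] [CharP F p] :
    ∃ P : Sylow p (Matrix.GeneralLinearGroup (Fin 2) F),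
      (P : Subgroup (Matrix.GeneralLinearGroup (Fin 2) F)) = UG F := by
  classical
  obtain ⟨n, hp, hq⟩ := FiniteField.card F p
  have hcard : Nat.card (UG F) = p ^ (n : ℕ) := by rw [card_UG, hq]
  have hq2 : 2 ≤ Fintype.card F := Fintype.one_lt_card
  have hidx : ¬ p ∣ (UG F).index := by
    have h1 := (UG F).card_mul_index
    rw [card_UG, GL2Irr.card_GL2] at h1
    have h2 : (UG F).index = (Fintype.card F ^ 2 - 1) * (Fintype.card F - 1) := by
      have h3 : Fintype.card F * (UG F).index =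
          Fintype.card F * ((Fintype.card F ^ 2 - 1) * (Fintype.card F - 1)) := by
        rw [h1]
        have : Fintype.card F ^ 2 - Fintype.card F = Fintype.card F * (Fintype.card F - 1) := by
          rw [Nat.mul_sub, mul_one, sq]
        rw [this]; ring
      exact Nat.eq_of_mul_eq_mul_left (by omega) h3
    rw [h2]
    intro hdvd
    have hpq : p ∣ Fintype.card F := by rw [hq]; exact dvd_pow_self p n.ne_zero
    have hp1 : ¬ p ∣ 1 := fun h => hp.one_lt.ne' (Nat.dvd_one.mp h)
    rcases (Nat.Prime.dvd_mul hp).mp hdvd with h | h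
    · have h4 : p ∣ Fintype.card F ^ 2 := dvd_pow hpq two_ne_zero
      have h6 : Fintype.card F ^ 2 - 1 + 1 = Fintype.card F ^ 2 := by
        have : 1 ≤ Fintype.card F ^ 2 := Nat.one_le_pow _ _ (by omega)
        omega
      rw [← h6] at h4
      exact hp1 ((Nat.dvd_add_right h).mp h4)
    · have h6 : Fintype.card F - 1 + 1 = Fintype.card F := by omega
      rw [← h6] at hpq
      exact hp1 ((Nat.dvd_add_right h).mp hpq)
  exact ⟨(IsPGroup.of_card hcard).toSylow hidx, rfl⟩

theorem card_normalizer_sylow [Fintype F] (p : ℕ) [Fact p.Prime] [CharP F p]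
    (P : Sylow p (Matrix.GeneralLinearGroup (Fin 2) F)) :
    Nat.card (Subgroup.normalizer ((P : Subgroup (Matrix.GeneralLinearGroup (Fin 2) F)) : Set (Matrix.GeneralLinearGroup (Fin 2) F)))
      = Fintype.card F * (Fintype.card F - 1) ^ 2 := by
  obtain ⟨P₀, hP₀⟩ := exists_sylow_UG (F := F) p
  have h1 := Sylow.card_eq_index_normalizer P
  have h2 := Sylow.card_eq_index_normalizer P₀
  have h3 : (Subgroup.normalizer ((P : Subgroup (Matrix.GeneralLinearGroup (Fin 2) F)) : Set (Matrix.GeneralLinearGroup (Fin 2) F))).index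
      = (Subgroup.normalizer ((P₀ : Subgroup (Matrix.GeneralLinearGroup (Fin 2) F)) : Set (Matrix.GeneralLinearGroup (Fin 2) F))).index :=
    h1.symm.trans h2
  have h4 := (Subgroup.normalizer ((P : Subgroup (Matrix.GeneralLinearGroup (Fin 2) F)) : Set (Matrix.GeneralLinearGroup (Fin 2) F))).card_mul_index
  have h5 := (Subgroup.normalizer ((P₀ : Subgroup (Matrix.GeneralLinearGroup (Fin 2) F)) : Set (Matrix.GeneralLinearGroup (Fin 2) F))).card_mul_index
  rw [h3] at h4
  have hpos : 0 < (Subgroup.normalizer ((P₀ : Subgroup (Matrix.GeneralLinearGroup (Fin 2) F)) : Set (Matrix.GeneralLinearGroup (Fin 2) F))).index :=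
    Nat.pos_of_ne_zero (Subgroup.index_ne_zero_of_finite)
  have h6 := Nat.eq_of_mul_eq_mul_right hpos (h4.trans h5.symm)
  rw [h6, hP₀, normalizer_UG, GL2Ind.card_B]
  ring

theorem card_sylow [Fintype F] (p : ℕ) [Fact p.Prime] [CharP F p] :
    Nat.card (Sylow p (Matrix.GeneralLinearGroup (Fin 2) F)) = Fintype.card F + 1 := by
  classical
  obtain ⟨P₀, hP₀⟩ := exists_sylow_UG (F := F) p
  have hq2 : 2 ≤ Fintype.card F := Fintype.one_lt_card
  have h2 : Nat.card (Sylow p (Matrix.GeneralLinearGroup (Fin 2) F)) =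
      (Subgroup.normalizer ((P₀ : Subgroup (Matrix.GeneralLinearGroup (Fin 2) F)) : Set (Matrix.GeneralLinearGroup (Fin 2) F))).index :=
    Sylow.card_eq_index_normalizer P₀
  have h5 := (Subgroup.normalizer ((P₀ : Subgroup (Matrix.GeneralLinearGroup (Fin 2) F)) : Set (Matrix.GeneralLinearGroup (Fin 2) F))).card_mul_index
  rw [← h2, hP₀, normalizer_UG, GL2Ind.card_B, GL2Irr.card_GL2] at h5
  have e1 : Fintype.card F ^ 2 - Fintype.card F = Fintype.card F * (Fintype.card F - 1) := by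
    rw [Nat.mul_sub, mul_one, sq]
  have e2 : Fintype.card F ^ 2 - 1 = (Fintype.card F - 1) * (Fintype.card F + 1) := by
    obtain ⟨k, hk⟩ : ∃ k, Fintype.card F = k + 1 := ⟨Fintype.card F - 1, by omega⟩
    rw [hk]
    simp only [Nat.add_sub_cancel]
    have : (k + 1) ^ 2 = k * (k + 1 + 1) + 1 := by ring
    rw [this, Nat.add_sub_cancel]
  rw [e1, e2] at h5
  have hpos : 0 < (Fintype.card F - 1) * (Fintype.card F - 1) * Fintype.card F := by
    have : 0 < Fintype.card F - 1 := by omega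
    positivity
  apply Nat.eq_of_mul_eq_mul_left hpos
  rw [h5]; ring

theorem smul_mem_iff {p : ℕ} (g x : Matrix.GeneralLinearGroup (Fin 2) F)
    (P : Sylow p (Matrix.GeneralLinearGroup (Fin 2) F)) :
    x ∈ ((g • P : Sylow p (Matrix.GeneralLinearGroup (Fin 2) F)) : Subgroup (Matrix.GeneralLinearGroup (Fin 2) F))
      ↔ g⁻¹ * x * g ∈ (P : Subgroup (Matrix.GeneralLinearGroup (Fin 2) F)) := by
  rw [Sylow.coe_subgroup_smul, Subgroup.mem_pointwise_smul_iff_inv_smul_mem]
  rfl

theorem sylow_inf [Fintype F] (p : ℕ) [Fact p.Prime] [CharP F p]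
    (P Q : Sylow p (Matrix.GeneralLinearGroup (Fin 2) F)) (h : P ≠ Q) :
    (P : Subgroup (Matrix.GeneralLinearGroup (Fin 2) F)) ⊓ (Q : Subgroup (Matrix.GeneralLinearGroup (Fin 2) F)) = ⊥ := by
  obtain ⟨P₀, hP₀⟩ := exists_sylow_UG (F := F) p
  obtain ⟨g, hg⟩ := MulAction.exists_smul_eq (Matrix.GeneralLinearGroup (Fin 2) F) P₀ P
  obtain ⟨k, hk⟩ := MulAction.exists_smul_eq (Matrix.GeneralLinearGroup (Fin 2) F) P₀ Q
  rw [Subgroup.eq_bot_iff_forall]
  intro x hx
  by_contra hx1
  apply h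
  have hxP : g⁻¹ * x * g ∈ UG F := by
    rw [← hP₀, ← smul_mem_iff, hg]; exact hx.1
  have hxQ : k⁻¹ * x * k ∈ UG F := by
    rw [← hP₀, ← smul_mem_iff, hk]; exact hx.2
  obtain ⟨t, ht⟩ := exists_of_mem_UG hxP
  have ht0 : t ≠ 0 := by
    rintro rfl
    rw [uG_zero] at ht
    apply hx1
    have : x = g * (g⁻¹ * x * g) * g⁻¹ := by group
    rw [this, ht]; group
  have hB : k⁻¹ * g ∈ Cfsg.upperTriangularGL 2 F := by
    apply mem_B_of_conj ht0
    rw [← ht]
    have : k⁻¹ * g * (g⁻¹ * x * g) * (k⁻¹ * g)⁻¹ = k⁻¹ * x * k := by group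
    rw [this]; exact hxQ
  have h6 : (k⁻¹ * g) • P₀ = P₀ := by
    rw [Sylow.smul_eq_iff_mem_normalizer]
    show k⁻¹ * g ∈ Subgroup.normalizer ((P₀ : Subgroup (Matrix.GeneralLinearGroup (Fin 2) F)) : Set (Matrix.GeneralLinearGroup (Fin 2) F))
    rw [hP₀, normalizer_UG]; exact hB
  rw [mul_smul, inv_smul_eq_iff] at h6
  rw [← hg, ← hk, h6]

/-- elements `[[a, b], [0, a]]` -/
theorem card_centralizer_uG [Fintype F] {t : F} (ht : t ≠ 0) :
    Nat.card (Subgroup.centralizer ({uG t} : Set (Matrix.GeneralLinearGroup (Fin 2) F)))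
      = Fintype.card F * (Fintype.card F - 1) := by
  classical
  have hmem : ∀ (a : Fˣ) (b : F), (GL2Ind.bElt a a b).1 ∈
      Subgroup.centralizer ({uG t} : Set (Matrix.GeneralLinearGroup (Fin 2) F)) := by
    intro a b
    rw [Subgroup.mem_centralizer_singleton_iff]
    apply Units.ext
    show (!![(a : F), b; 0, (a : F)] : Matrix (Fin 2) (Fin 2) F) * !![1, t; 0, 1]
      = !![1, t; 0, 1] * !![(a : F), b; 0, (a : F)]
    rw [Matrix.mul_fin_two, Matrix.mul_fin_two]
    congr 1
    ext i j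
    fin_cases i <;> fin_cases j <;> simp
    ring
  let f : Fˣ × F → Subgroup.centralizer ({uG t} : Set (Matrix.GeneralLinearGroup (Fin 2) F)) :=
    fun x => ⟨(GL2Ind.bElt x.1 x.1 x.2).1, hmem x.1 x.2⟩
  have hf : Function.Bijective f := by
    constructor
    · rintro ⟨a, b⟩ ⟨a', b'⟩ hxy
      have hm : (f (a, b)).1.1 = (f (a', b')).1.1 := by rw [hxy]
      have e00 := congrFun (congrFun hm 0) 0
      have e01 := congrFun (congrFun hm 0) 1
      exact Prod.ext (Units.ext e00) e01
    · intro x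
      have hx := (Subgroup.mem_centralizer_singleton_iff.mp x.2)
      have hm' : x.1.1 * (uG t).1 = (uG t).1 * x.1.1 := congrArg Units.val hx
      rw [uG_val] at hm'
      have e11 := congrFun (congrFun hm' 1) 1
      have e01 := congrFun (congrFun hm' 0) 1
      simp [Matrix.mul_apply, Fin.sum_univ_two] at e11 e01
      have hc : x.1.1 1 0 = 0 := by
        rcases e11 with h | h
        · exact h
        · exact absurd h ht
      have had : x.1.1 0 0 = x.1.1 1 1 := by
        have : (x.1.1 0 0 - x.1.1 1 1) * t = 0 := by linear_combination e01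
        rcases mul_eq_zero.mp this with h | h
        · exact sub_eq_zero.mp h
        · exact absurd h ht
      have hdet := S2308.gl_det_ne_zero x.1
      rw [Matrix.det_fin_two, hc, mul_zero, sub_zero] at hdet
      have h00 : x.1.1 0 0 ≠ 0 := left_ne_zero_of_mul hdet
      refine ⟨(Units.mk0 _ h00, x.1.1 0 1), ?_⟩
      apply Subtype.ext
      apply Units.ext
      show (!![x.1.1 0 0, x.1.1 0 1; 0, x.1.1 0 0] : Matrix (Fin 2) (Fin 2) F) = x.1.1
      conv_rhs => rw [Matrix.eta_fin_two x.1.1, ← had, hc]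
  rw [← Nat.card_congr (Equiv.ofBijective f hf), Nat.card_prod, Nat.card_eq_fintype_card,
    Nat.card_eq_fintype_card, Fintype.card_units, mul_comm]

theorem card_centralizer_of_mem [Fintype F] (p : ℕ) [Fact p.Prime] [CharP F p]
    (P : Sylow p (Matrix.GeneralLinearGroup (Fin 2) F)) (a : Matrix.GeneralLinearGroup (Fin 2) F)
    (ha : a ∈ P) (ha1 : a ≠ 1) :
    Nat.card (Subgroup.centralizer ({a} : Set (Matrix.GeneralLinearGroup (Fin 2) F)))
      = Fintype.card F * (Fintype.card F - 1) := by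
  obtain ⟨P₀, hP₀⟩ := exists_sylow_UG (F := F) p
  obtain ⟨g, hg⟩ := MulAction.exists_smul_eq (Matrix.GeneralLinearGroup (Fin 2) F) P₀ P
  have hxP : g⁻¹ * a * g ∈ UG F := by
    rw [← hP₀, ← smul_mem_iff, hg]; exact ha
  obtain ⟨t, ht⟩ := exists_of_mem_UG hxP
  have ht0 : t ≠ 0 := by
    rintro rfl
    rw [uG_zero] at ht
    apply ha1
    have : a = g * (g⁻¹ * a * g) * g⁻¹ := by group
    rw [this, ht]; group
  have ha' : a = g * uG t * g⁻¹ := by rw [← ht]; group
  rw [ha', card_centralizer_conj, card_centralizer_uG ht0]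

end gl

end Cfsg.Agent.Lib.Helper13.GL2Syl
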