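import Mathlib
import Cfsg.Agent.S5631
import Cfsg.Agent.S5645
import Cfsg.Agent.Lib.Helper28.Herm
import Cfsg.Agent.Lib.Helper13.AltFrame
import Cfsg.Agent.Lib.Helper13.AltInv
import Cfsg.Agent.Lib.Helper13.OrthInv

set_option autoImplicit false
open Cfsg

namespace Cfsg.Agent.Lib.Helper13.InvCount

open Matrix
open Cfsg.Agent.S5631 Cfsg.Agent.S5645
open Cfsg.Agent.Lib.Helper28.Herm (Isom isom_inv isom_mul)
open Cfsg.Agent.Lib.Helper13.AltInv
open Cfsg.Agent.Lib.Helper13.OrthInv

/-! ### counting classes of involutions from a classification -/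

theorem class_count {G : Type*} [Group G] {I : Type*} [Fintype I] (rep : I → G)
    (h2 : ∀ x, orderOf (rep x) = 2) (hinj : ∀ x y, IsConj (rep x) (rep y) → x = y)
    (hsurj : ∀ g, orderOf g = 2 → ∃ x, IsConj (rep x) g) :
    Nat.card {C : ConjClasses G // ∃ g : G, ConjClasses.mk g = C ∧ orderOf g = 2} =
      Fintype.card I := by
  rw [← Nat.card_eq_fintype_card]
  symm
  apply Nat.card_congr
  refine Equiv.ofBijective (fun x => ⟨ConjClasses.mk (rep x), rep x, rfl, h2 x⟩) ⟨?_, ?_⟩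
  · intro x y hxy
    have := congrArg Subtype.val hxy
    exact hinj x y (ConjClasses.mk_eq_mk_iff_isConj.mp this)
  · rintro ⟨C, g, rfl, hg⟩
    obtain ⟨x, hx⟩ := hsurj g hg
    exact ⟨x, Subtype.ext (ConjClasses.mk_eq_mk_iff_isConj.mpr hx)⟩

theorem class_count' {G : Type*} [Group G] {I : Type*} [Fintype I] (P : I → G → Prop)
    (hex : ∀ x, ∃ g, orderOf g = 2 ∧ P x g)
    (hall : ∀ g, orderOf g = 2 → ∃ x, P x g)
    (hconj : ∀ x g h, orderOf g = 2 → orderOf h = 2 → P x g → P x h → IsConj g h)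
    (hinv : ∀ x y g h, P x g → P y h → IsConj g h → x = y) :
    Nat.card {C : ConjClasses G // ∃ g : G, ConjClasses.mk g = C ∧ orderOf g = 2} =
      Fintype.card I := by
  choose rep hrep2 hrepP using hex
  apply class_count rep hrep2
  · intro x y h
    exact hinv x y _ _ (hrepP x) (hrepP y) h
  · intro g hg
    obtain ⟨x, hx⟩ := hall g hg
    exact ⟨x, hconj x _ _ (hrep2 x) hg (hrepP x) hx⟩

variable {ι : Type} [Fintype ι] [DecidableEq ι] {F : Type*} [Field F]
variable {f : (ι → F) → (ι → F) → F}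

/-! ### existence of involutions with prescribed normal form -/

theorem exB (hf : IsAlt f) (h2 : (2 : F) = 0) : ∀ (k : ℕ) (u : Fin k → ι → F),
    (∀ i j, f (u i) (u j) = 0) →
    ∃ a : GL ι F, Isom f a ∧ a * a = 1 ∧
      ∀ y, (a : Matrix ι ι F) *ᵥ y = y + ∑ i, f y (u i) • u i := by
  intro k
  induction k with
  | zero =>
    intro u _
    refine ⟨1, fun x y => by rw [Units.val_one, Matrix.one_mulVec, Matrix.one_mulVec],
      one_mul 1, fun y => ?_⟩
    rw [Units.val_one, Matrix.one_mulVec, Finset.univ_eq_empty, Finset.sum_empty, add_zero]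
  | succ k ih =>
    intro u ho
    obtain ⟨a', hi', hs', hform'⟩ := ih (fun j => u j.succ) (fun i j => ho _ _)
    have hfix : (a' : Matrix ι ι F) *ᵥ u 0 = u 0 := by
      rw [hform']
      simp only [ho, zero_smul, Finset.sum_const_zero, add_zero]
    refine ⟨sT hf (u 0) 1 * a', isom_mul (sT_isom hf (u 0) 1) hi',
      tw_sq hf h2 a' hi' hs' (u 0) hfix, fun y => ?_⟩
    rw [tw_mulVec hf a' hi' hs' (u 0) hfix, hform', Fin.sum_univ_succ]
    abel

theorem exA (hf : IsAlt f) (h2 : (2 : F) = 0) : ∀ (r : ℕ) (u v : Fin r → ι → F),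
    (∀ i j, f (u i) (u j) = 0) → (∀ i j, f (u i) (v j) = 0) → (∀ i j, f (v i) (v j) = 0) →
    ∃ a : GL ι F, Isom f a ∧ a * a = 1 ∧
      ∀ y, (a : Matrix ι ι F) *ᵥ y = y + ∑ i, (f y (u i) • v i + f y (v i) • u i) := by
  intro r
  induction r with
  | zero =>
    intro u v _ _ _
    refine ⟨1, fun x y => by rw [Units.val_one, Matrix.one_mulVec, Matrix.one_mulVec],
      one_mul 1, fun y => ?_⟩
    rw [Units.val_one, Matrix.one_mulVec, Finset.univ_eq_empty, Finset.sum_empty, add_zero]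
  | succ r ih =>
    intro u v huu huv hvv
    obtain ⟨a', hi', hs', hform'⟩ := ih (fun j => u j.succ) (fun j => v j.succ)
      (fun i j => huu _ _) (fun i j => huv _ _) (fun i j => hvv _ _)
    have hvu : ∀ i j, f (v i) (u j) = 0 := fun i j => by rw [hf.swap, huv, neg_zero]
    have hfixu : (a' : Matrix ι ι F) *ᵥ u 0 = u 0 := by
      rw [hform']
      simp only [huu, huv, zero_smul, add_zero, Finset.sum_const_zero]
    have hfixv : (a' : Matrix ι ι F) *ᵥ v 0 = v 0 := by
      rw [hform']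
      simp only [hvu, hvv, zero_smul, add_zero, Finset.sum_const_zero]
    obtain ⟨a, hi, hs, hx⟩ := tw2 hf h2 a' hi' hs' (u 0) (v 0) hfixu hfixv (huv 0 0)
    refine ⟨a, hi, hs, fun y => ?_⟩
    rw [hx, hform', Fin.sum_univ_succ]
    abel

/-! ### rank and type from a normal form with dual vectors -/

theorem li_of_dual (hf : IsAlt f) {κ : Type} [Fintype κ] [DecidableEq κ] (u z : κ → ι → F)
    (hz : ∀ i j, f (z i) (u j) = if i = j then 1 else 0) : LinearIndependent F u := by
  rw [Fintype.linearIndependent_iff]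
  intro c hc j
  have h := congrArg (fun w => f (z j) w) hc
  simp only [AltFrame.alt_sum_right hf, hz, hf.zero_right] at h
  simpa using h

theorem sub_one_mulVec (a : GL ι F) (y : ι → F) :
    ((a : Matrix ι ι F) - 1) *ᵥ y = (a : Matrix ι ι F) *ᵥ y - y := by
  rw [Matrix.sub_mulVec, Matrix.one_mulVec]

theorem B_data (hf : IsAlt f) (a : GL ι F) {k : ℕ} (u z : Fin k → ι → F)
    (hform : ∀ y, (a : Matrix ι ι F) *ᵥ y = y + ∑ i, f y (u i) • u i)
    (hz : ∀ i j, f (z i) (u j) = if i = j then 1 else 0) :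
    ((a : Matrix ι ι F) - 1).rank = k ∧
      (0 < k → ∃ y, f ((a : Matrix ι ι F) *ᵥ y - y) y ≠ 0) := by
  have hli := li_of_dual hf u z hz
  have hsub : ∀ y, (a : Matrix ι ι F) *ᵥ y - y = ∑ i, f y (u i) • u i := by
    intro y
    rw [hform]
    abel
  have hzi : ∀ i, (a : Matrix ι ι F) *ᵥ z i - z i = u i := by
    intro i
    rw [hsub]
    simp only [hz, ite_smul, one_smul, zero_smul, Finset.sum_ite_eq, Finset.mem_univ, if_true]
  constructor
  · have hN : ∀ y, ((a : Matrix ι ι F) - 1) *ᵥ y ∈ Submodule.span F (Set.range u) := by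
      intro y
      rw [sub_one_mulVec, hsub]
      exact Submodule.sum_mem _
        (fun i _ => Submodule.smul_mem _ _ (Submodule.subset_span ⟨i, rfl⟩))
    have hw1 : ∀ i, ∃ w, u i = ((a : Matrix ι ι F) - 1) *ᵥ w := by
      intro i
      exact ⟨z i, by rw [sub_one_mulVec, hzi]⟩
    rw [rank_of_span _ _ hN hw1 hli, Fintype.card_fin]
  · intro hk
    refine ⟨z ⟨0, hk⟩, ?_⟩
    rw [hzi, hf.swap, hz, if_pos rfl]
    exact neg_ne_zero.mpr one_ne_zero

theorem A_data (hf : IsAlt f) (h2 : (2 : F) = 0) (a : GL ι F) {r : ℕ}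
    (u v zu zv : Fin r → ι → F)
    (hform : ∀ y, (a : Matrix ι ι F) *ᵥ y = y + ∑ i, (f y (u i) • v i + f y (v i) • u i))
    (hzuu : ∀ i j, f (zu i) (u j) = if i = j then 1 else 0) (hzuv : ∀ i j, f (zu i) (v j) = 0)
    (hzvv : ∀ i j, f (zv i) (v j) = if i = j then 1 else 0) (hzvu : ∀ i j, f (zv i) (u j) = 0) :
    ((a : Matrix ι ι F) - 1).rank = r + r ∧
      ∀ y, f ((a : Matrix ι ι F) *ᵥ y - y) y = 0 := by
  have hli : LinearIndependent F (Sum.elim u v) := by
    apply li_of_dual hf (Sum.elim u v) (Sum.elim zu zv)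
    rintro (i | i) (j | j)
    · simp [hzuu]
    · simp [hzuv]
    · simp [hzvu]
    · simp [hzvv]
  have hsub : ∀ y, (a : Matrix ι ι F) *ᵥ y - y =
      ∑ i, (f y (u i) • v i + f y (v i) • u i) := by
    intro y
    rw [hform]
    abel
  constructor
  · have hN : ∀ y, ((a : Matrix ι ι F) - 1) *ᵥ y ∈
        Submodule.span F (Set.range (Sum.elim u v)) := by
      intro y
      rw [sub_one_mulVec, hsub]
      apply Submodule.sum_mem
      intro i _
      apply Submodule.add_mem
      · exact Submodule.smul_mem _ _ (Submodule.subset_span ⟨Sum.inr i, rfl⟩)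
      · exact Submodule.smul_mem _ _ (Submodule.subset_span ⟨Sum.inl i, rfl⟩)
    have hw1 : ∀ i, ∃ w, Sum.elim u v i = ((a : Matrix ι ι F) - 1) *ᵥ w := by
      rintro (i | i)
      · refine ⟨zv i, ?_⟩
        rw [sub_one_mulVec, hsub]
        simp only [Sum.elim_inl, hzvu, hzvv, zero_smul, zero_add, ite_smul, one_smul,
          Finset.sum_ite_eq, Finset.mem_univ, if_true]
      · refine ⟨zu i, ?_⟩
        rw [sub_one_mulVec, hsub]
        simp only [Sum.elim_inr, hzuu, hzuv, zero_smul, add_zero, ite_smul, one_smul,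
          Finset.sum_ite_eq, Finset.mem_univ, if_true]
    rw [rank_of_span _ _ hN hw1 hli, Fintype.card_sum, Fintype.card_fin]
  · intro y
    rw [hsub, Finset.sum_add_distrib, hf.add_left, AltFrame.alt_sum_left hf,
      AltFrame.alt_sum_left hf, ← Finset.sum_add_distrib]
    apply Finset.sum_eq_zero
    intro i _
    rw [symm2 hf h2 (v i) y, symm2 hf h2 (u i) y]
    linear_combination (f y (u i) * f y (v i)) * h2

theorem rank_le (h2 : (2 : F) = 0) (a : GL ι F) (hs : a * a = 1) :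
    2 * ((a : Matrix ι ι F) - 1).rank ≤ Fintype.card ι := by
  have h : ((a : Matrix ι ι F) - 1) * ((a : Matrix ι ι F) - 1) = 0 := by
    have e : (a : Matrix ι ι F) * (a : Matrix ι ι F) = 1 := by
      rw [← Units.val_mul, hs, Units.val_one]
    rw [Matrix.sub_mul, Matrix.mul_sub, Matrix.mul_sub, e, mul_one, one_mul, mul_one]
    have e2 : (1 : Matrix ι ι F) - (a : Matrix ι ι F) - ((a : Matrix ι ι F) - 1) =
        (2 : F) • (1 - (a : Matrix ι ι F)) := by
      rw [two_smul]
      abel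
    rw [e2, h2, zero_smul]
  have := Matrix.rank_add_rank_le_card_of_mul_eq_zero h
  omega

theorem type_conj (g a b : GL ι F) (hg : Isom f g) (hgab : g * a = b * g) :
    (∀ y, f ((a : Matrix ι ι F) *ᵥ y - y) y = 0) ↔
      (∀ y, f ((b : Matrix ι ι F) *ᵥ y - y) y = 0) := by
  have key : ∀ y, f ((b : Matrix ι ι F) *ᵥ ((g : Matrix ι ι F) *ᵥ y) - (g : Matrix ι ι F) *ᵥ y)
      ((g : Matrix ι ι F) *ᵥ y) = f ((a : Matrix ι ι F) *ᵥ y - y) y := by
    intro y
    have e : (b : Matrix ι ι F) *ᵥ ((g : Matrix ι ι F) *ᵥ y) =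
        (g : Matrix ι ι F) *ᵥ ((a : Matrix ι ι F) *ᵥ y) := by
      rw [Matrix.mulVec_mulVec, Matrix.mulVec_mulVec, ← Units.val_mul, ← Units.val_mul, hgab]
    rw [e, ← Matrix.mulVec_sub, hg]
  constructor
  · intro h y
    have h1 := key (((g⁻¹ : GL ι F) : Matrix ι ι F) *ᵥ y)
    rw [gl_mulVec_inv] at h1
    rw [h1]
    exact h _
  · intro h y
    rw [← key]
    exact h _

end Cfsg.Agent.Lib.Helper13.InvCount
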