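import Mathlib
import Cfsg.Agent.S5631
import Cfsg.Agent.S5645
import Cfsg.Agent.Lib.Helper28.Herm
import Cfsg.Agent.Lib.Helper13.AltInv
import Cfsg.Agent.Lib.Helper13.OrthInv
import Cfsg.Agent.Lib.Helper13.InvCount

set_option autoImplicit false
open Cfsg

namespace Cfsg.Agent.Lib.Helper13.OrthCount

open Matrix
open Cfsg.Agent.S5631 Cfsg.Agent.S5645
open Cfsg.Agent.Lib.Helper28.Herm (Isom isom_inv isom_mul)
open Cfsg.Agent.Lib.Helper13.AltInv
open Cfsg.Agent.Lib.Helper13.OrthInv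
open Cfsg.Agent.Lib.Helper13.InvCount

variable {ι : Type} [Fintype ι] [DecidableEq ι] {F : Type*} [Field F]

/-- involutions of an orthogonal group in characteristic two with the same rank and type are
conjugate -/
theorem orth_conj' [Finite F] (Q : QuadraticForm F (ι → F))
    (hQ : (QuadraticMap.polarBilin Q).Nondegenerate) (h2 : (2 : F) = 0)
    (t s : GL ι F) (ht : ∀ v, Q ((t : Matrix ι ι F) *ᵥ v) = Q v)
    (hs : ∀ v, Q ((s : Matrix ι ι F) *ᵥ v) = Q v) (htt : t * t = 1) (hss : s * s = 1)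
    (hrank : ((t : Matrix ι ι F) - 1).rank = ((s : Matrix ι ι F) - 1).rank)
    (htype : (∀ y, pf Q ((t : Matrix ι ι F) *ᵥ y - y) y = 0) ↔
      (∀ y, pf Q ((s : Matrix ι ι F) *ᵥ y - y) y = 0)) :
    ∃ h : GL ι F, (∀ v, Q ((h : Matrix ι ι F) *ᵥ v) = Q v) ∧ h * t = s * h := by
  have hf := pf_isAlt Q hQ h2
  have hti := isom_of_Q Q t ht
  have hsi := isom_of_Q Q s hs
  by_cases hA : ∀ y, pf Q ((t : Matrix ι ι F) *ᵥ y - y) y = 0
  · have hA' := htype.mp hA
    obtain ⟨r, u, v, hmem, hli, hti2, hform, hrk⟩ := dataA' hf h2 t hti htt hA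
    obtain ⟨r', u', v', hmem', hli', hti2', hform', hrk'⟩ := dataA' hf h2 s hsi hss hA'
    have hrr : r = r' := by
      rw [hrk, hrk'] at hrank
      omega
    subst hrr
    have hq : ∀ i, Q (Sum.elim u v i) = Q (Sum.elim u' v' i) := by
      intro i
      obtain ⟨z, hz⟩ := hmem i
      obtain ⟨z', hz'⟩ := hmem' i
      rw [hz, hz', Q_range Q h2 t ht, Q_range Q h2 s hs, hA, hA']
    obtain ⟨h, hh1, hh2⟩ := witt_Q Q hQ h2 _ _ hli hli' hti2 hti2' hq
    exact ⟨h, hh1, comm_A t s h (isom_of_Q Q h hh1) u v u' v' hh2 hform hform'⟩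
  · have hA' : ¬ ∀ y, pf Q ((s : Matrix ι ι F) *ᵥ y - y) y = 0 := fun h => hA (htype.mpr h)
    push Not at hA hA'
    obtain ⟨k, u, hmem, hli, hti2, hform, hrk⟩ := dataB' hf h2 t hti htt hA
    obtain ⟨k', u', hmem', hli', hti2', hform', hrk'⟩ := dataB' hf h2 s hsi hss hA'
    have hkk : k = k' := by
      rw [hrk, hrk'] at hrank
      exact hrank
    subst hkk
    have hq : ∀ i, Q (u i) = Q (u' i) := by
      intro i
      rw [B_norm Q hQ h2 t ht u hmem hli hform i, B_norm Q hQ h2 s hs u' hmem' hli' hform' i]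
    obtain ⟨h, hh1, hh2⟩ := witt_Q Q hQ h2 _ _ hli hli' hti2 hti2' hq
    exact ⟨h, hh1, comm_B t s h (isom_of_Q Q h hh1) u u' hh2 hform hform'⟩

theorem sT_Q (Q : QuadraticForm F (ι → F)) (hf : IsAlt (pf Q)) (h2 : (2 : F) = 0) (u : ι → F)
    (hu : Q u = 1) (x : ι → F) : Q (((sT hf u 1 : GL ι F) : Matrix ι ι F) *ᵥ x) = Q x := by
  rw [sT_mulVec, one_mul, QuadraticMap.map_add (⇑Q) x (pf Q x u • u), QuadraticMap.map_smul, hu]
  have e : QuadraticMap.polar (⇑Q) x (pf Q x u • u) = pf Q x u * pf Q x u := hf.smul_right _ _ _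
  rw [e, smul_eq_mul, mul_one]
  linear_combination (pf Q x u * pf Q x u) * h2

theorem exB_Q (Q : QuadraticForm F (ι → F)) (hQ : (QuadraticMap.polarBilin Q).Nondegenerate)
    (h2 : (2 : F) = 0) : ∀ (k : ℕ) (u : Fin k → ι → F),
    (∀ i j, pf Q (u i) (u j) = 0) → (∀ i, Q (u i) = 1) →
    ∃ a : GL ι F, (∀ v, Q ((a : Matrix ι ι F) *ᵥ v) = Q v) ∧ a * a = 1 ∧
      ∀ y, (a : Matrix ι ι F) *ᵥ y = y + ∑ i, pf Q y (u i) • u i := by
  have hf := pf_isAlt Q hQ h2
  intro k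
  induction k with
  | zero =>
    intro u _ _
    refine ⟨1, fun v => by rw [Units.val_one, Matrix.one_mulVec], one_mul 1, fun y => ?_⟩
    rw [Units.val_one, Matrix.one_mulVec, Finset.univ_eq_empty, Finset.sum_empty, add_zero]
  | succ k ih =>
    intro u ho hq
    obtain ⟨a', hQ', hs', hform'⟩ := ih (fun j => u j.succ) (fun i j => ho _ _) (fun i => hq _)
    have hi' := isom_of_Q Q a' hQ'
    have hfix : (a' : Matrix ι ι F) *ᵥ u 0 = u 0 := by
      rw [hform']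
      simp only [ho, zero_smul, Finset.sum_const_zero, add_zero]
    refine ⟨sT hf (u 0) 1 * a', fun v => ?_, tw_sq hf h2 a' hi' hs' (u 0) hfix, fun y => ?_⟩
    · rw [Units.val_mul, ← Matrix.mulVec_mulVec, sT_Q Q hf h2 (u 0) (hq 0), hQ']
    · rw [tw_mulVec hf a' hi' hs' (u 0) hfix, hform', Fin.sum_univ_succ]
      abel

theorem Q_pair (Q : QuadraticForm F (ι → F)) (hf : IsAlt (pf Q)) (h2 : (2 : F) = 0)
    (x u v : ι → F) (c₁ c₂ : F) (hu : Q u = 0) (hv : Q v = 0) (huv : pf Q u v = 0)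
    (h1 : pf Q x v = c₂) (h1' : pf Q x u = c₁) : Q (x + c₁ • v + c₂ • u) = Q x := by
  have e : Q (x + c₁ • v + c₂ • u) =
      Q x + Q (c₁ • v) + pf Q x (c₁ • v) + Q (c₂ • u) + pf Q (x + c₁ • v) (c₂ • u) := by
    rw [QuadraticMap.map_add (⇑Q) (x + c₁ • v) (c₂ • u), QuadraticMap.map_add (⇑Q) x (c₁ • v)]
    rfl
  rw [e, QuadraticMap.map_smul, QuadraticMap.map_smul, hu, hv]
  simp only [hf.smul_right, hf.add_left, hf.smul_left, h1, h1', hf.swap v u, huv, smul_zero,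
    neg_zero, mul_zero, add_zero]
  linear_combination (c₁ * c₂) * h2

theorem exA_Q (Q : QuadraticForm F (ι → F)) (hQ : (QuadraticMap.polarBilin Q).Nondegenerate)
    (h2 : (2 : F) = 0) : ∀ (r : ℕ) (u v : Fin r → ι → F),
    (∀ i j, pf Q (u i) (u j) = 0) → (∀ i j, pf Q (u i) (v j) = 0) →
    (∀ i j, pf Q (v i) (v j) = 0) → (∀ i, Q (u i) = 0) → (∀ i, Q (v i) = 0) →
    ∃ a : GL ι F, (∀ w, Q ((a : Matrix ι ι F) *ᵥ w) = Q w) ∧ a * a = 1 ∧
      ∀ y, (a : Matrix ι ι F) *ᵥ y = y + ∑ i, (pf Q y (u i) • v i + pf Q y (v i) • u i) := by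
  have hf := pf_isAlt Q hQ h2
  intro r
  induction r with
  | zero =>
    intro u v _ _ _ _ _
    refine ⟨1, fun v => by rw [Units.val_one, Matrix.one_mulVec], one_mul 1, fun y => ?_⟩
    rw [Units.val_one, Matrix.one_mulVec, Finset.univ_eq_empty, Finset.sum_empty, add_zero]
  | succ r ih =>
    intro u v huu huv hvv hqu hqv
    obtain ⟨a', hQ', hs', hform'⟩ := ih (fun j => u j.succ) (fun j => v j.succ)
      (fun i j => huu _ _) (fun i j => huv _ _) (fun i j => hvv _ _) (fun i => hqu _)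
      (fun i => hqv _)
    have hi' := isom_of_Q Q a' hQ'
    have hvu : ∀ i j, pf Q (v i) (u j) = 0 := fun i j => by rw [hf.swap, huv, neg_zero]
    have hfixu : (a' : Matrix ι ι F) *ᵥ u 0 = u 0 := by
      rw [hform']
      simp only [huu, huv, zero_smul, add_zero, Finset.sum_const_zero]
    have hfixv : (a' : Matrix ι ι F) *ᵥ v 0 = v 0 := by
      rw [hform']
      simp only [hvu, hvv, zero_smul, add_zero, Finset.sum_const_zero]
    obtain ⟨a, hi, hs, hx⟩ := tw2 hf h2 a' hi' hs' (u 0) (v 0) hfixu hfixv (huv 0 0)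
    refine ⟨a, fun w => ?_, hs, fun y => ?_⟩
    · have e1 : pf Q ((a' : Matrix ι ι F) *ᵥ w) (v 0) = pf Q w (v 0) := by
        have := hi' w (v 0)
        rw [hfixv] at this
        exact this
      have e2 : pf Q ((a' : Matrix ι ι F) *ᵥ w) (u 0) = pf Q w (u 0) := by
        have := hi' w (u 0)
        rw [hfixu] at this
        exact this
      rw [hx, Q_pair Q hf h2 _ (u 0) (v 0) _ _ (hqu 0) (hqv 0) (huv 0 0) e1 e2, hQ']
    · rw [hx, hform', Fin.sum_univ_succ]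
      abel

/-- counting classes of involutions in an orthogonal group in characteristic two -/
theorem orth_count [Finite F] (Q₀ : (ι → F) → F) (QF : QuadraticForm F (ι → F))
    (hQF : ∀ v, QF v = Q₀ v) (hnd : (QuadraticMap.polarBilin QF).Nondegenerate)
    (h2 : (2 : F) = 0) {I : Type*} [Fintype I] (rkI : I → ℕ) (tyI : I → Prop)
    (hI : ∀ x y, rkI x = rkI y → (tyI x ↔ tyI y) → x = y)
    (hpos : ∀ x, 0 < rkI x)
    (hex : ∀ x, ∃ M : GL ι F, (∀ v, QF ((M : Matrix ι ι F) *ᵥ v) = QF v) ∧ M * M = 1 ∧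
      ((M : Matrix ι ι F) - 1).rank = rkI x ∧
      ((∀ y, pf QF ((M : Matrix ι ι F) *ᵥ y - y) y = 0) ↔ tyI x))
    (hall : ∀ M : GL ι F, (∀ v, QF ((M : Matrix ι ι F) *ᵥ v) = QF v) → M * M = 1 → M ≠ 1 →
      ∃ x, ((M : Matrix ι ι F) - 1).rank = rkI x ∧
        ((∀ y, pf QF ((M : Matrix ι ι F) *ᵥ y - y) y = 0) ↔ tyI x)) :
    Nat.card {C : ConjClasses ↥(Cfsg.isometryGroup F Q₀) //
      ∃ g : ↥(Cfsg.isometryGroup F Q₀), ConjClasses.mk g = C ∧ orderOf g = 2} =
      Fintype.card I := by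
  have mem_iso : ∀ g : GL ι F, g ∈ Cfsg.isometryGroup F Q₀ ↔
      ∀ v, Q₀ ((g : Matrix ι ι F) *ᵥ v) = Q₀ v := by
    intro g
    constructor
    · intro h v
      exact h v v
    · intro h u v
      exact h u
  have hQg : ∀ g : ↥(Cfsg.isometryGroup F Q₀), ∀ v,
      QF (((g : GL ι F) : Matrix ι ι F) *ᵥ v) = QF v := by
    intro g v
    rw [hQF, hQF]
    exact (mem_iso _).mp g.2 v
  have hsq : ∀ g : ↥(Cfsg.isometryGroup F Q₀), orderOf g = 2 → (g : GL ι F) * (g : GL ι F) = 1 := by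
    intro g hg
    have : g * g = 1 := by rw [← pow_two, ← hg]; exact pow_orderOf_eq_one g
    exact congrArg Subtype.val this
  apply class_count' (fun x (g : ↥(Cfsg.isometryGroup F Q₀)) =>
    (((g : GL ι F) : Matrix ι ι F) - 1).rank = rkI x ∧
      ((∀ y, pf QF (((g : GL ι F) : Matrix ι ι F) *ᵥ y - y) y = 0) ↔ tyI x))
  · intro x
    obtain ⟨M, hM1, hM2, hM3, hM4⟩ := hex x
    refine ⟨⟨M, (mem_iso M).mpr (fun v => by rw [← hQF, ← hQF]; exact hM1 v)⟩, ?_, hM3, hM4⟩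
    apply orderOf_eq_prime
    · rw [pow_two]
      exact Subtype.ext hM2
    · intro h
      have h1 : M = 1 := congrArg Subtype.val h
      have := hpos x
      rw [← hM3, h1, Units.val_one, sub_self, Matrix.rank_zero] at this
      exact lt_irrefl 0 this
  · intro g hg
    have hne : (g : GL ι F) ≠ 1 := by
      intro h
      have h1 : g = 1 := Subtype.ext h
      rw [h1, orderOf_one] at hg
      omega
    exact hall g.1 (hQg g) (hsq g hg) hne
  · rintro x g h hg hh ⟨h1, h3⟩ ⟨h4, h5⟩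
    obtain ⟨c, hc1, hc2⟩ := orth_conj' QF hnd h2 g.1 h.1 (hQg g) (hQg h) (hsq g hg) (hsq h hh)
      (by rw [h1, h4]) (h3.trans h5.symm)
    rw [isConj_iff]
    refine ⟨⟨c, (mem_iso c).mpr (fun v => by rw [← hQF, ← hQF]; exact hc1 v)⟩, ?_⟩
    apply mul_inv_eq_of_eq_mul
    apply Subtype.ext
    exact hc2
  · rintro x y g h ⟨h1, h3⟩ ⟨h4, h5⟩ hc
    obtain ⟨c, hc'⟩ := isConj_iff.mp hc
    have hcg : (c : GL ι F) * (g : GL ι F) = (h : GL ι F) * (c : GL ι F) := by
      have : c * g = h * c := by rw [← hc']; group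
      exact congrArg Subtype.val this
    have hci : Isom (pf QF) (c : GL ι F) := isom_of_Q QF _ (hQg c)
    apply hI
    · rw [← h1, ← h4]
      exact gl_rank_conj _ _ _ hcg
    · exact h3.symm.trans ((type_conj _ _ _ hci hcg).trans h5)

/-- a nonzero matrix has positive rank -/
theorem rank_pos_of_ne (N : Matrix ι ι F) (hN : N ≠ 0) : 0 < N.rank := by
  by_contra h
  have h0 : Module.finrank F (LinearMap.range N.mulVecLin) = 0 := by
    have : N.rank = 0 := by omega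
    exact this
  have h1 : LinearMap.range N.mulVecLin = ⊥ := Submodule.finrank_eq_zero.mp h0
  have h3 : N.mulVecLin = 0 := LinearMap.range_eq_bot.mp h1
  apply hN
  apply Matrix.ext_iff_mulVec.mpr
  intro y
  have := LinearMap.congr_fun h3 y
  rw [Matrix.zero_mulVec]
  exact this

/-- the invariants of an arbitrary involution: either alternating of rank `r + r`, or not -/
theorem inv_cases [Finite F] (Q : QuadraticForm F (ι → F))
    (hQ : (QuadraticMap.polarBilin Q).Nondegenerate) (h2 : (2 : F) = 0) (M : GL ι F)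
    (hM : ∀ v, Q ((M : Matrix ι ι F) *ᵥ v) = Q v) (hs : M * M = 1) (hne : M ≠ 1) :
    0 < ((M : Matrix ι ι F) - 1).rank ∧
    2 * ((M : Matrix ι ι F) - 1).rank ≤ Fintype.card ι ∧
    ((∀ y, pf Q ((M : Matrix ι ι F) *ᵥ y - y) y = 0) →
      ∃ (r : ℕ) (w : Fin r ⊕ Fin r → ι → F), ((M : Matrix ι ι F) - 1).rank = r + r ∧
        LinearIndependent F w ∧ (∀ i j, pf Q (w i) (w j) = 0) ∧ ∀ i, Q (w i) = 0) := by
  have hf := pf_isAlt Q hQ h2
  refine ⟨?_, rank_le h2 M hs, fun hA => ?_⟩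
  · apply rank_pos_of_ne
    intro h0
    exact hne (Units.ext (sub_eq_zero.mp h0))
  · obtain ⟨r, u, v, hmem, hli, hti2, hform, hrk⟩ := dataA' hf h2 M (isom_of_Q Q M hM) hs hA
    refine ⟨r, Sum.elim u v, hrk, hli, hti2, fun i => ?_⟩
    obtain ⟨z, hz⟩ := hmem i
    rw [hz, Q_range Q h2 M hM, hA]

end Cfsg.Agent.Lib.Helper13.OrthCount
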