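import Mathlib
import Cfsg.Agent.S5631
import Cfsg.Agent.S5645
import Cfsg.Agent.Lib.Helper28.Herm
import Cfsg.Agent.Lib.Helper15.InvSplit
import Cfsg.Agent.Lib.Helper13.AltInv
import Cfsg.Agent.Lib.Helper13.OrthInv
import Cfsg.Agent.Lib.Helper13.InvCount
import Cfsg.Agent.Lib.Helper13.OrthCount

set_option autoImplicit false
open Cfsg

namespace Cfsg.Agent.Lib.Helper13.OmegaCount

open Matrix
open Cfsg.Agent.S5631 Cfsg.Agent.S5645
open Cfsg.Agent.Lib.Helper28.Herm (Isom)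
open Cfsg.Agent.Lib.Helper13.AltInv
open Cfsg.Agent.Lib.Helper13.OrthInv
open Cfsg.Agent.Lib.Helper13.InvCount
open Cfsg.Agent.Lib.Helper13.OrthCount
open Cfsg.Agent.Lib.Helper15.CD2 (act act_apply act_mul act_one)
open Cfsg.Agent.Lib.Helper15.Spinor (prodRefl prodRefl_append)
open Cfsg.Agent.Lib.Helper15.RankParity (fixSp mem_fixSp rank_eq mem_commutator_iff_rank)
open Cfsg.Agent.Lib.Helper15.InvSplit (conj_in_omega fix_ts conj_max_ts mulVecLin_sub_one)

variable {ι : Type} [Fintype ι] [DecidableEq ι] {F : Type*} [Field F]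

/-- the rank of `x - 1` -/
noncomputable def rk (Q : QuadraticForm F (ι → F)) (x : ↥(Cfsg.isometryGroup F ⇑Q)) : ℕ :=
  (((x : GL ι F) : Matrix ι ι F) - 1).rank

/-- the alternating type -/
def alt (Q : QuadraticForm F (ι → F)) (x : ↥(Cfsg.isometryGroup F ⇑Q)) : Prop :=
  ∀ y, pf Q (((x : GL ι F) : Matrix ι ι F) *ᵥ y - y) y = 0

/-- an isometry from an invertible matrix -/
def mkO (Q : QuadraticForm F (ι → F)) (M : GL ι F)
    (hM : ∀ v, Q ((M : Matrix ι ι F) *ᵥ v) = Q v) : ↥(Cfsg.isometryGroup F ⇑Q) :=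
  ⟨M, fun u _ => hM u⟩

theorem Qx (Q : QuadraticForm F (ι → F)) (x : ↥(Cfsg.isometryGroup F ⇑Q)) (v : ι → F) :
    Q (((x : GL ι F) : Matrix ι ι F) *ᵥ v) = Q v := x.2 v v

theorem rk_conj (Q : QuadraticForm F (ι → F)) (c x y : ↥(Cfsg.isometryGroup F ⇑Q))
    (h : c * x * c⁻¹ = y) : rk Q x = rk Q y := by
  have h1 : c * x = y * c := by rw [← h]; group
  exact gl_rank_conj (c : GL ι F) (x : GL ι F) (y : GL ι F) (congrArg Subtype.val h1)

theorem alt_conj (Q : QuadraticForm F (ι → F)) (c x y : ↥(Cfsg.isometryGroup F ⇑Q))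
    (h : c * x * c⁻¹ = y) : alt Q x ↔ alt Q y := by
  have h1 : c * x = y * c := by rw [← h]; group
  exact type_conj (c : GL ι F) (x : GL ι F) (y : GL ι F) (isom_of_Q Q _ (Qx Q c))
    (congrArg Subtype.val h1)

theorem rk_one (Q : QuadraticForm F (ι → F)) : rk Q 1 = 0 := by
  unfold rk
  rw [show (((1 : ↥(Cfsg.isometryGroup F ⇑Q)) : GL ι F) : Matrix ι ι F) = 1 from rfl, sub_self,
    Matrix.rank_zero]

theorem order_two (Q : QuadraticForm F (ι → F))
    (g : ↥(commutator ↥(Cfsg.isometryGroup F ⇑Q)))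
    (h1 : (g : ↥(Cfsg.isometryGroup F ⇑Q)) * (g : ↥(Cfsg.isometryGroup F ⇑Q)) = 1)
    (h3 : 0 < rk Q (g : ↥(Cfsg.isometryGroup F ⇑Q))) : orderOf g = 2 := by
  apply orderOf_eq_prime
  · rw [pow_two]
    exact Subtype.ext h1
  · intro h
    have e : (g : ↥(Cfsg.isometryGroup F ⇑Q)) = 1 := congrArg Subtype.val h
    rw [e, rk_one] at h3
    exact lt_irrefl 0 h3

theorem index_two [Fintype F] [CharP F 2] (Q : QuadraticForm F (ι → F))
    (hQ : (QuadraticMap.polarBilin Q).Nondegenerate)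
    (hc : Fintype.card F ≠ 2 ∨ Fintype.card ι ≠ 4) (c z : ↥(Cfsg.isometryGroup F ⇑Q))
    (hc' : c ∉ commutator ↥(Cfsg.isometryGroup F ⇑Q))
    (hz : z ∉ commutator ↥(Cfsg.isometryGroup F ⇑Q)) :
    c * z ∈ commutator ↥(Cfsg.isometryGroup F ⇑Q) := by
  have hnd : ∀ x, (∀ y, QuadraticMap.polar ⇑Q x y = 0) → x = 0 := fun x hx => hQ.1 x hx
  obtain ⟨vs, hvs, rfl⟩ := Cfsg.Agent.Lib.Helper15.OrthGen.cd_all Q hnd hc c
  obtain ⟨ws, hws, rfl⟩ := Cfsg.Agent.Lib.Helper15.OrthGen.cd_all Q hnd hc z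
  rw [Cfsg.Agent.Lib.Helper15.Dickson.prodRefl_mem_commutator_iff Q hnd hc vs hvs] at hc'
  rw [Cfsg.Agent.Lib.Helper15.Dickson.prodRefl_mem_commutator_iff Q hnd hc ws hws] at hz
  have hvw : ∀ v ∈ vs ++ ws, Q v ≠ 0 := by
    intro v hv
    rcases List.mem_append.mp hv with h | h
    · exact hvs v h
    · exact hws v h
  rw [← prodRefl_append,
    Cfsg.Agent.Lib.Helper15.Dickson.prodRefl_mem_commutator_iff Q hnd hc (vs ++ ws) hvw,
    List.length_append]
  rw [Nat.not_even_iff_odd] at hc' hz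
  exact hc'.add_odd hz

theorem fix_ns [Fintype F] [CharP F 2] (Q : QuadraticForm F (ι → F))
    (hQ : (QuadraticMap.polarBilin Q).Nondegenerate) (m : ℕ) (hcard : Fintype.card ι = 2 * m)
    (x : ↥(Cfsg.isometryGroup F ⇑Q)) (hxx : x * x = 1) (hnot : ¬ (rk Q x = m ∧ alt Q x)) :
    ∃ w, Q w ≠ 0 ∧ act Q x w = w := by
  have h2 : (2 : F) = 0 := CharTwo.two_eq_zero
  by_contra hno
  have hts : ∀ w ∈ fixSp Q x, Q w = 0 := fun w hw => by
    by_contra h
    exact hno ⟨w, h, (mem_fixSp Q x w).1 hw⟩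
  have hinv : ∀ v, act Q x (act Q x v) = v := fun v => by
    rw [← act_mul, hxx, act_one]
  obtain ⟨h1, h3⟩ := fix_ts Q hQ x hinv hts
  apply hnot
  constructor
  · show (((x : GL ι F) : Matrix ι ι F) - 1).rank = m
    rw [rank_eq, hcard]
    omega
  · intro y
    rw [← Q_range Q h2 (x : GL ι F) (Qx Q x) y]
    apply hts
    rw [← h1]
    exact ⟨y, rfl⟩

theorem conj_nonsplit [Fintype F] [CharP F 2] (Q : QuadraticForm F (ι → F))
    (hQ : (QuadraticMap.polarBilin Q).Nondegenerate)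
    (hc : Fintype.card F ≠ 2 ∨ Fintype.card ι ≠ 4) (m : ℕ) (hcard : Fintype.card ι = 2 * m)
    (x y : ↥(Cfsg.isometryGroup F ⇑Q)) (hx : x * x = 1) (hy : y * y = 1)
    (hrk : rk Q x = rk Q y) (hty : alt Q x ↔ alt Q y) (hnot : ¬ (rk Q x = m ∧ alt Q x)) :
    ∃ c ∈ commutator ↥(Cfsg.isometryGroup F ⇑Q), c * x * c⁻¹ = y := by
  have h2 : (2 : F) = 0 := CharTwo.two_eq_zero
  have hnd : ∀ x, (∀ y, QuadraticMap.polar ⇑Q x y = 0) → x = 0 := fun x hx => hQ.1 x hx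
  obtain ⟨h, hh1, hh2⟩ := orth_conj' Q hQ h2 (x : GL ι F) (y : GL ι F) (Qx Q x) (Qx Q y)
    (congrArg Subtype.val hx) (congrArg Subtype.val hy) hrk hty
  obtain ⟨w, hw, hwfix⟩ := fix_ns Q hQ m hcard x hx hnot
  have hg : mkO Q h hh1 * x * (mkO Q h hh1)⁻¹ = y := by
    apply mul_inv_eq_of_eq_mul
    exact Subtype.ext hh2
  exact conj_in_omega Q hnd hc x y _ hg w hw hwfix

theorem sq_of_order (Q : QuadraticForm F (ι → F))
    (g : ↥(commutator ↥(Cfsg.isometryGroup F ⇑Q))) (hg : orderOf g = 2) :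
    (g : ↥(Cfsg.isometryGroup F ⇑Q)) * (g : ↥(Cfsg.isometryGroup F ⇑Q)) = 1 := by
  have : g * g = 1 := by rw [← pow_two, ← hg]; exact pow_orderOf_eq_one g
  exact congrArg Subtype.val this

theorem fin_if (m : ℕ) (s : Fin (if Even m then 2 else 0)) : Even m ∧ s.val < 2 := by
  have hs := s.2
  by_cases h : Even m
  · have h' : (if Even m then 2 else 0) = 2 := if_pos h
    exact ⟨h, by omega⟩
  · have h' : (if Even m then 2 else 0) = 0 := if_neg h
    omega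

/-- the classification of involutions of `Ω` -/
def Pc (Q : QuadraticForm F (ι → F)) (m : ℕ) (t₀ : ↥(Cfsg.isometryGroup F ⇑Q)) :
    (Fin (m / 2) ⊕ Fin ((m - 1) / 2)) ⊕ Fin (if Even m then 2 else 0) →
      ↥(commutator ↥(Cfsg.isometryGroup F ⇑Q)) → Prop :=
  Sum.elim
    (Sum.elim
      (fun i g => rk Q (g : ↥(Cfsg.isometryGroup F ⇑Q)) = 2 * (i.val + 1) ∧
        ¬ alt Q (g : ↥(Cfsg.isometryGroup F ⇑Q)))
      (fun j g => rk Q (g : ↥(Cfsg.isometryGroup F ⇑Q)) = 2 * (j.val + 1) ∧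
        alt Q (g : ↥(Cfsg.isometryGroup F ⇑Q))))
    (fun s g => ∃ c : ↥(Cfsg.isometryGroup F ⇑Q),
      (c ∈ commutator ↥(Cfsg.isometryGroup F ⇑Q) ↔ s.val = 0) ∧
        c * t₀ * c⁻¹ = (g : ↥(Cfsg.isometryGroup F ⇑Q)))

set_option maxHeartbeats 400000 in
/-- the number of classes of involutions of `Ω` for a form of plus type -/
theorem omega_count [Fintype F] [CharP F 2] (Q : QuadraticForm F (ι → F))
    (hQ : (QuadraticMap.polarBilin Q).Nondegenerate)
    (hc : Fintype.card F ≠ 2 ∨ Fintype.card ι ≠ 4) (m : ℕ) (hm : 1 ≤ m)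
    (hcard : Fintype.card ι = 2 * m)
    (exB : ∀ k, 0 < k → k ≤ m → ∃ M : GL ι F, (∀ v, Q ((M : Matrix ι ι F) *ᵥ v) = Q v) ∧
      M * M = 1 ∧ ((M : Matrix ι ι F) - 1).rank = k ∧
      ((∀ y, pf Q ((M : Matrix ι ι F) *ᵥ y - y) y = 0) ↔ False))
    (exA : ∀ r, r + r ≤ m → ∃ M : GL ι F, (∀ v, Q ((M : Matrix ι ι F) *ᵥ v) = Q v) ∧
      M * M = 1 ∧ ((M : Matrix ι ι F) - 1).rank = r + r ∧
      ((∀ y, pf Q ((M : Matrix ι ι F) *ᵥ y - y) y = 0) ↔ True)) :
    Nat.card {C : ConjClasses ↥(commutator ↥(Cfsg.isometryGroup F ⇑Q)) //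
      ∃ g : ↥(commutator ↥(Cfsg.isometryGroup F ⇑Q)), ConjClasses.mk g = C ∧ orderOf g = 2} =
      m / 2 + (m - 1) / 2 + (if Even m then 2 else 0) := by
  classical
  have h2 : (2 : F) = 0 := CharTwo.two_eq_zero
  have hmem : ∀ x : ↥(Cfsg.isometryGroup F ⇑Q),
      x ∈ commutator ↥(Cfsg.isometryGroup F ⇑Q) ↔ Even (rk Q x) :=
    fun x => mem_commutator_iff_rank Q hQ hc x
  obtain ⟨t₀, ht₀⟩ : ∃ t₀ : ↥(Cfsg.isometryGroup F ⇑Q),
      Even m → (t₀ * t₀ = 1 ∧ rk Q t₀ = m ∧ alt Q t₀) := by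
    by_cases hev : Even m
    · obtain ⟨r, hr⟩ := hev
      obtain ⟨M, hM, hs, hrk, hal⟩ := exA r (by omega)
      refine ⟨mkO Q M hM, fun _ => ⟨Subtype.ext hs, ?_, hal.mpr trivial⟩⟩
      show ((M : Matrix ι ι F) - 1).rank = m
      rw [hrk]
      omega
    · exact ⟨1, fun h => absurd h hev⟩
  obtain ⟨z₀, hz₀⟩ : ∃ z₀ : ↥(Cfsg.isometryGroup F ⇑Q),
      z₀ ∉ commutator ↥(Cfsg.isometryGroup F ⇑Q) := by
    obtain ⟨M, hM, hs, hrk, hal⟩ := exB 1 (by omega) hm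
    refine ⟨mkO Q M hM, fun h => ?_⟩
    have h3' := (hmem (mkO Q M hM)).mp h
    have h3 : Even ((M : Matrix ι ι F) - 1).rank := h3'
    rw [hrk] at h3
    exact Nat.not_even_one h3
  have key := class_count' (Pc Q m t₀) ?_ ?_ ?_ ?_
  · rw [key, Fintype.card_sum, Fintype.card_sum, Fintype.card_fin, Fintype.card_fin,
      Fintype.card_fin]
  · -- existence
    rintro ((i | j) | s)
    · obtain ⟨M, hM, hs, hrk, hal⟩ := exB (2 * (i.val + 1)) (by omega) (by have := i.2; omega)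
      have hin : mkO Q M hM ∈ commutator ↥(Cfsg.isometryGroup F ⇑Q) := by
        rw [hmem]
        show Even ((M : Matrix ι ι F) - 1).rank
        rw [hrk]
        exact even_two_mul _
      refine ⟨⟨mkO Q M hM, hin⟩, order_two Q _ (Subtype.ext hs) ?_, hrk, fun h => hal.mp h⟩
      show 0 < ((M : Matrix ι ι F) - 1).rank
      rw [hrk]
      omega
    · obtain ⟨M, hM, hs, hrk, hal⟩ := exA (j.val + 1) (by have := j.2; omega)
      have hin : mkO Q M hM ∈ commutator ↥(Cfsg.isometryGroup F ⇑Q) := by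
        rw [hmem]
        show Even ((M : Matrix ι ι F) - 1).rank
        rw [hrk]
        exact ⟨j.val + 1, rfl⟩
      refine ⟨⟨mkO Q M hM, hin⟩, order_two Q _ (Subtype.ext hs) ?_, ?_, hal.mpr trivial⟩
      · show 0 < ((M : Matrix ι ι F) - 1).rank
        rw [hrk]
        omega
      · show ((M : Matrix ι ι F) - 1).rank = 2 * (j.val + 1)
        rw [hrk]
        omega
    · have hev : Even m := (fin_if m s).1
      obtain ⟨ht1, ht2, ht3⟩ := ht₀ hev
      have hm2 : 0 < m := by omega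
      by_cases hs0 : s.val = 0
      · have hin : t₀ ∈ commutator ↥(Cfsg.isometryGroup F ⇑Q) := by
          rw [hmem, ht2]
          exact hev
        refine ⟨⟨t₀, hin⟩, order_two Q _ ht1 ?_, 1, ?_, ?_⟩
        · show 0 < rk Q t₀
          rw [ht2]
          exact hm2
        · exact ⟨fun _ => hs0, fun _ => Subgroup.one_mem _⟩
        · show 1 * t₀ * 1⁻¹ = t₀
          group
      · have hrk' : rk Q (z₀ * t₀ * z₀⁻¹) = m := by
          rw [← rk_conj Q z₀ t₀ _ rfl, ht2]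
        have hin : z₀ * t₀ * z₀⁻¹ ∈ commutator ↥(Cfsg.isometryGroup F ⇑Q) := by
          rw [hmem, hrk']
          exact hev
        refine ⟨⟨z₀ * t₀ * z₀⁻¹, hin⟩, order_two Q _ ?_ ?_, z₀, ?_, rfl⟩
        · show z₀ * t₀ * z₀⁻¹ * (z₀ * t₀ * z₀⁻¹) = 1
          have e : z₀ * t₀ * z₀⁻¹ * (z₀ * t₀ * z₀⁻¹) = z₀ * (t₀ * t₀) * z₀⁻¹ := by group
          rw [e, ht1]
          group
        · show 0 < rk Q (z₀ * t₀ * z₀⁻¹)
          rw [hrk']
          exact hm2
        · exact ⟨fun h => absurd h hz₀, fun h => absurd h hs0⟩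
  · -- every involution is classified
    intro g hg
    have hgg := sq_of_order Q g hg
    have hne : ((g : ↥(Cfsg.isometryGroup F ⇑Q)) : GL ι F) ≠ 1 := by
      intro h
      have h1 : g = 1 := Subtype.ext (Subtype.ext h)
      rw [h1, orderOf_one] at hg
      omega
    have hev : Even ((((g : ↥(Cfsg.isometryGroup F ⇑Q)) : GL ι F) : Matrix ι ι F) - 1).rank :=
      (hmem g.1).mp g.2
    obtain ⟨hpos, hle, hA⟩ := inv_cases Q hQ h2 ((g : ↥(Cfsg.isometryGroup F ⇑Q)) : GL ι F)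
      (Qx Q g.1) (congrArg Subtype.val hgg) hne
    rw [hcard] at hle
    by_cases halt : alt Q (g : ↥(Cfsg.isometryGroup F ⇑Q))
    · obtain ⟨r, w, hrk, _, _, _⟩ := hA halt
      by_cases hrm : r + r = m
      · have hevm : Even m := ⟨r, hrm.symm⟩
        obtain ⟨ht1, ht2, ht3⟩ := ht₀ hevm
        obtain ⟨h, hh1, hh2⟩ := orth_conj' Q hQ h2 (t₀ : GL ι F)
          ((g : ↥(Cfsg.isometryGroup F ⇑Q)) : GL ι F) (Qx Q t₀) (Qx Q g.1)
          (congrArg Subtype.val ht1) (congrArg Subtype.val hgg)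
          (by
            show rk Q t₀ = _
            rw [ht2, hrk, hrm]) ⟨fun _ => halt, fun _ => ht3⟩
        have hc0 : mkO Q h hh1 * t₀ * (mkO Q h hh1)⁻¹ = (g : ↥(Cfsg.isometryGroup F ⇑Q)) := by
          apply mul_inv_eq_of_eq_mul
          exact Subtype.ext hh2
        by_cases hin : mkO Q h hh1 ∈ commutator ↥(Cfsg.isometryGroup F ⇑Q)
        · exact ⟨Sum.inr ⟨0, by rw [if_pos hevm]; omega⟩, mkO Q h hh1,
            ⟨fun _ => rfl, fun _ => hin⟩, hc0⟩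
        · exact ⟨Sum.inr ⟨1, by rw [if_pos hevm]; omega⟩, mkO Q h hh1,
            ⟨fun h => absurd h hin, fun h => absurd (show (1 : ℕ) = 0 from h) one_ne_zero⟩, hc0⟩
      · refine ⟨Sum.inl (Sum.inr ⟨r - 1, by omega⟩), ?_, halt⟩
        show ((((g : ↥(Cfsg.isometryGroup F ⇑Q)) : GL ι F) : Matrix ι ι F) - 1).rank =
          2 * (r - 1 + 1)
        omega
    · obtain ⟨k', hk'⟩ := hev
      refine ⟨Sum.inl (Sum.inl ⟨k' - 1, by omega⟩), ?_, halt⟩
      show ((((g : ↥(Cfsg.isometryGroup F ⇑Q)) : GL ι F) : Matrix ι ι F) - 1).rank =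
        2 * (k' - 1 + 1)
      omega
  · -- same invariants imply conjugacy
    rintro ((i | j) | s) g h hg hh hPg hPh
    · obtain ⟨h1, h3⟩ := hPg
      obtain ⟨h4, h5⟩ := hPh
      obtain ⟨c, hcΩ, hc'⟩ := conj_nonsplit Q hQ hc m hcard g.1 h.1 (sq_of_order Q g hg)
        (sq_of_order Q h hh) (by rw [h1, h4]) ⟨fun x => absurd x h3, fun x => absurd x h5⟩
        (fun hx => h3 hx.2)
      rw [isConj_iff]
      exact ⟨⟨c, hcΩ⟩, Subtype.ext hc'⟩
    · obtain ⟨h1, h3⟩ := hPg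
      obtain ⟨h4, h5⟩ := hPh
      obtain ⟨c, hcΩ, hc'⟩ := conj_nonsplit Q hQ hc m hcard g.1 h.1 (sq_of_order Q g hg)
        (sq_of_order Q h hh) (by rw [h1, h4]) ⟨fun _ => h5, fun _ => h3⟩
        (fun hx => by
          have := j.2
          have h6 := hx.1
          rw [h1] at h6
          omega)
      rw [isConj_iff]
      exact ⟨⟨c, hcΩ⟩, Subtype.ext hc'⟩
    · obtain ⟨c₁, hc₁, hg1⟩ := hPg
      obtain ⟨c₂, hc₂, hh1⟩ := hPh
      have hd : c₂ * c₁⁻¹ ∈ commutator ↥(Cfsg.isometryGroup F ⇑Q) := by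
        by_cases hs0 : s.val = 0
        · exact Subgroup.mul_mem _ (hc₂.mpr hs0) (Subgroup.inv_mem _ (hc₁.mpr hs0))
        · apply index_two Q hQ hc
          · exact fun h => hs0 (hc₂.mp h)
          · intro h
            exact hs0 (hc₁.mp ((Subgroup.inv_mem_iff _).mp h))
      rw [isConj_iff]
      refine ⟨⟨c₂ * c₁⁻¹, hd⟩, Subtype.ext ?_⟩
      show c₂ * c₁⁻¹ * (g : ↥(Cfsg.isometryGroup F ⇑Q)) * (c₂ * c₁⁻¹)⁻¹ =
        (h : ↥(Cfsg.isometryGroup F ⇑Q))
      rw [← hg1, ← hh1]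
      group
  · -- conjugate involutions have the same invariants
    intro x y g h hPg hPh hcj
    obtain ⟨d, hd⟩ := isConj_iff.mp hcj
    have hdO : (d : ↥(Cfsg.isometryGroup F ⇑Q)) * (g : ↥(Cfsg.isometryGroup F ⇑Q)) *
        (d : ↥(Cfsg.isometryGroup F ⇑Q))⁻¹ = (h : ↥(Cfsg.isometryGroup F ⇑Q)) :=
      congrArg Subtype.val hd
    have hrk := rk_conj Q _ _ _ hdO
    have hty := alt_conj Q _ _ _ hdO
    rcases x with (i | j) | s <;> rcases y with (i' | j') | s'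
    · obtain ⟨h1, h3⟩ := hPg
      obtain ⟨h4, h5⟩ := hPh
      rw [h1, h4] at hrk
      congr 2
      exact Fin.ext (by omega)
    · exact absurd (hty.mpr hPh.2) hPg.2
    · obtain ⟨c, _, hc3⟩ := hPh
      have hev : Even m := (fin_if m s').1
      exact absurd (hty.mpr ((alt_conj Q c t₀ _ hc3).mp (ht₀ hev).2.2)) hPg.2
    · exact absurd (hty.mp hPg.2) hPh.2
    · obtain ⟨h1, h3⟩ := hPg
      obtain ⟨h4, h5⟩ := hPh
      rw [h1, h4] at hrk
      congr 2
      exact Fin.ext (by omega)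
    · obtain ⟨c, _, hc3⟩ := hPh
      have hev : Even m := (fin_if m s').1
      have h6 := rk_conj Q c t₀ _ hc3
      rw [(ht₀ hev).2.1, ← hrk, hPg.1] at h6
      have := j.2
      omega
    · obtain ⟨c, _, hc3⟩ := hPg
      have hev : Even m := (fin_if m s).1
      exact absurd (hty.mp ((alt_conj Q c t₀ _ hc3).mp (ht₀ hev).2.2)) hPh.2
    · obtain ⟨c, _, hc3⟩ := hPg
      have hev : Even m := (fin_if m s).1
      have h6 := rk_conj Q c t₀ _ hc3
      rw [(ht₀ hev).2.1, hrk, hPh.1] at h6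
      have := j'.2
      omega
    · obtain ⟨c₁, hc₁, hg1⟩ := hPg
      obtain ⟨c₂, hc₂, hh1⟩ := hPh
      have hev : Even m := (fin_if m s).1
      obtain ⟨ht1, ht2, ht3⟩ := ht₀ hev
      have hR0 : ∀ x ∈ LinearMap.range (act Q t₀ - LinearMap.id), Q x = 0 := by
        rintro _ ⟨v, rfl⟩
        rw [LinearMap.sub_apply, LinearMap.id_apply, act_apply,
          Q_range Q h2 (t₀ : GL ι F) (Qx Q t₀) v]
        exact ht3 v
      have hRm : Module.finrank F ↥(LinearMap.range (act Q t₀ - LinearMap.id)) = m := by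
        have h := ht2
        unfold rk Matrix.rank at h
        rw [mulVecLin_sub_one Q t₀] at h
        exact h
      have e1 := conj_max_ts Q hQ hc m hcard t₀ (h : ↥(Cfsg.isometryGroup F ⇑Q)) c₂ hh1 hR0 hRm
      have e2 := conj_max_ts Q hQ hc m hcard t₀ (h : ↥(Cfsg.isometryGroup F ⇑Q))
        ((d : ↥(Cfsg.isometryGroup F ⇑Q)) * c₁) (by rw [← hdO, ← hg1]; group) hR0 hRm
      have e3 : (d : ↥(Cfsg.isometryGroup F ⇑Q)) * c₁ ∈ commutator ↥(Cfsg.isometryGroup F ⇑Q) ↔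
          c₁ ∈ commutator ↥(Cfsg.isometryGroup F ⇑Q) := Subgroup.mul_mem_cancel_left _ d.2
      have e4 : s.val = 0 ↔ s'.val = 0 :=
        hc₁.symm.trans (e3.symm.trans (e2.trans (e1.symm.trans hc₂)))
      have hs := (fin_if m s).2
      have hs' := (fin_if m s').2
      congr 1
      apply Fin.ext
      by_cases h0 : s.val = 0
      · have := e4.mp h0
        omega
      · have : s'.val ≠ 0 := fun h => h0 (e4.mpr h)
        omega

end Cfsg.Agent.Lib.Helper13.OmegaCount
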