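import Mathlib
import Cfsg.Prelude.Def_GeometricClasses

set_option autoImplicit false
open Cfsg

namespace Cfsg.Agent.Lib.Helper13.TensorF3

open Matrix
open scoped Kronecker

variable {F : Type*} [Field F]

section Tensor

variable {n₁ n₂ : ℕ}

/-- Pure tensors. -/
def tv (v : Fin n₁ → F) (w : Fin n₂ → F) : Fin n₁ × Fin n₂ → F := fun p => v p.1 * w p.2

theorem tv_add_right (v : Fin n₁ → F) (w w' : Fin n₂ → F) : tv v (w + w') = tv v w + tv v w' := by
  ext p; simp only [tv, Pi.add_apply]; ring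

theorem tv_add_left (v v' : Fin n₁ → F) (w : Fin n₂ → F) : tv (v + v') w = tv v w + tv v' w := by
  ext p; simp only [tv, Pi.add_apply]; ring

theorem tv_smul_left (c : F) (v : Fin n₁ → F) (w : Fin n₂ → F) : tv (c • v) w = c • tv v w := by
  ext p; simp only [tv, Pi.smul_apply, smul_eq_mul]; ring

theorem tv_smul_right (c : F) (v : Fin n₁ → F) (w : Fin n₂ → F) : tv v (c • w) = c • tv v w := by
  ext p; simp only [tv, Pi.smul_apply, smul_eq_mul]; ring

theorem tv_neg_left (v : Fin n₁ → F) (w : Fin n₂ → F) : tv (-v) w = -tv v w := by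
  ext p; simp only [tv, Pi.neg_apply]; ring

theorem tv_neg_right (v : Fin n₁ → F) (w : Fin n₂ → F) : tv v (-w) = -tv v w := by
  ext p; simp only [tv, Pi.neg_apply]; ring

theorem tv_zero_left (w : Fin n₂ → F) : tv (0 : Fin n₁ → F) w = 0 := by
  ext p; simp [tv]

theorem tv_zero_right (v : Fin n₁ → F) : tv v (0 : Fin n₂ → F) = 0 := by
  ext p; simp [tv]

/-- Equal pure tensors have proportional second factors. -/
theorem tv_eq_right {p p' : Fin n₁ → F} {q q' : Fin n₂ → F} (h : tv p q = tv p' q') (hp' : p' ≠ 0) :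
    ∃ l : F, q' = l • q := by
  obtain ⟨i, hi⟩ : ∃ i, p' i ≠ 0 := by
    by_contra hcon
    push Not at hcon
    exact hp' (funext hcon)
  refine ⟨p i / p' i, ?_⟩
  ext j
  have := congrFun h (i, j)
  simp only [tv] at this
  simp only [Pi.smul_apply, smul_eq_mul]
  field_simp
  linear_combination -this

/-- Equal pure tensors have proportional first factors. -/
theorem tv_eq_left {p p' : Fin n₁ → F} {q q' : Fin n₂ → F} (h : tv p q = tv p' q') (hq' : q' ≠ 0) :
    ∃ l : F, p' = l • p := by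
  obtain ⟨j, hj⟩ : ∃ j, q' j ≠ 0 := by
    by_contra hcon
    push Not at hcon
    exact hq' (funext hcon)
  refine ⟨q j / q' j, ?_⟩
  ext i
  have := congrFun h (i, j)
  simp only [tv] at this
  simp only [Pi.smul_apply, smul_eq_mul]
  field_simp
  linear_combination -this

/-- Rows of a sum of pure tensors: pairing the second factors with a fixed form. -/
theorem slice_right {g : (Fin n₂ → F) → (Fin n₂ → F) → F}
    (hadd : ∀ x y v, g (x + y) v = g x v + g y v) (hsmul : ∀ (c : F) x v, g (c • x) v = c * g x v)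
    {p p' v : Fin n₁ → F} {q q' w : Fin n₂ → F} (y : Fin n₂ → F)
    (h : tv p q + tv p' q' = tv v w) (i : Fin n₁) :
    p i * g q y + p' i * g q' y = v i * g w y := by
  have e1 : (p i • q + p' i • q' : Fin n₂ → F) = v i • w := by
    ext j
    have := congrFun h (i, j)
    simp only [tv, Pi.add_apply, Pi.smul_apply, smul_eq_mul] at this ⊢
    linear_combination this
  have := congrArg (fun t => g t y) e1
  simpa only [hadd, hsmul] using this

/-- Columns of a sum of pure tensors: pairing the first factors with a fixed form. -/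
theorem slice_left {g : (Fin n₁ → F) → (Fin n₁ → F) → F}
    (hadd : ∀ x y v, g (x + y) v = g x v + g y v) (hsmul : ∀ (c : F) x v, g (c • x) v = c * g x v)
    {p p' v : Fin n₁ → F} {q q' w : Fin n₂ → F} (y : Fin n₁ → F)
    (h : tv p q + tv p' q' = tv v w) (j : Fin n₂) :
    q j * g p y + q' j * g p' y = w j * g v y := by
  have e1 : (q j • p + q' j • p' : Fin n₁ → F) = w j • v := by
    ext i
    have := congrFun h (i, j)
    simp only [tv, Pi.add_apply, Pi.smul_apply, smul_eq_mul] at this ⊢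
    linear_combination this
  have := congrArg (fun t => g t y) e1
  simpa only [hadd, hsmul] using this

theorem gram_tv (G₁ : Matrix (Fin n₁) (Fin n₁) F) (G₂ : Matrix (Fin n₂) (Fin n₂) F)
    (v v' : Fin n₁ → F) (w w' : Fin n₂ → F) :
    Cfsg.Geo.formOfGram (id : F → F) (G₁ ⊗ₖ G₂) (tv v w) (tv v' w') =
      Cfsg.Geo.formOfGram (id : F → F) G₁ v v' * Cfsg.Geo.formOfGram (id : F → F) G₂ w w' := by
  unfold Cfsg.Geo.formOfGram
  simp only [Fintype.sum_prod_type, tv, Matrix.kroneckerMap_apply, id]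
  rw [Finset.sum_mul_sum]
  apply Finset.sum_congr rfl
  intro i _
  apply Finset.sum_congr rfl
  intro j _
  rw [Finset.sum_mul_sum]
  apply Finset.sum_congr rfl
  intro i' _
  apply Finset.sum_congr rfl
  intro j' _
  ring

theorem kron_tv (a : Matrix (Fin n₁) (Fin n₁) F) (b : Matrix (Fin n₂) (Fin n₂) F) (v : Fin n₁ → F)
    (w : Fin n₂ → F) : (a ⊗ₖ b) *ᵥ tv v w = tv (a *ᵥ v) (b *ᵥ w) := by
  ext ⟨i, j⟩
  simp only [Matrix.mulVec, dotProduct, tv, Fintype.sum_prod_type, Matrix.kroneckerMap_apply]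
  rw [Finset.sum_mul_sum]
  apply Finset.sum_congr rfl
  intro i' _
  apply Finset.sum_congr rfl
  intro j' _
  ring

end Tensor

section BilinGram

variable {κ : Type} [Fintype κ] [DecidableEq κ] {f : (κ → F) → (κ → F) → F}

theorem bf_zero_left (hf : Cfsg.Geo.IsBilinearForm f) (v : κ → F) : f 0 v = 0 := by
  have := hf.smul_left 0 0 v
  simpa using this

theorem bf_zero_right (hf : Cfsg.Geo.IsBilinearForm f) (v : κ → F) : f v 0 = 0 := by
  have := hf.smul_right 0 v 0
  simpa using this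

theorem bf_neg_left (hf : Cfsg.Geo.IsBilinearForm f) (u v : κ → F) : f (-u) v = - f u v := by
  have := hf.smul_left (-1) u v
  simpa using this

theorem bf_neg_right (hf : Cfsg.Geo.IsBilinearForm f) (u v : κ → F) : f u (-v) = - f u v := by
  have := hf.smul_right (-1) u v
  simpa using this

theorem bf_sub_left (hf : Cfsg.Geo.IsBilinearForm f) (u u' v : κ → F) :
    f (u - u') v = f u v - f u' v := by
  rw [sub_eq_add_neg, hf.add_left, bf_neg_left hf]
  ring

theorem bf_sub_right (hf : Cfsg.Geo.IsBilinearForm f) (u v v' : κ → F) :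
    f u (v - v') = f u v - f u v' := by
  rw [sub_eq_add_neg, hf.add_right, bf_neg_right hf]
  ring

theorem bf_eq_gram (hf : Cfsg.Geo.IsBilinearForm f) (x y : κ → F) :
    f x y = Cfsg.Geo.formOfGram (id : F → F) (Cfsg.Geo.gramMatrix f) x y := by
  have hL : ∀ (w : κ → F) (x : κ → F), f x w = ∑ a, x a * f (Pi.single a 1) w := by
    intro w x
    let L : (κ → F) →ₗ[F] F :=
      { toFun := fun x => f x w
        map_add' := fun x y => hf.add_left x y w
        map_smul' := fun c x => by simpa using hf.smul_left c x w }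
    have hx : x = ∑ a, x a • (Pi.single a (1 : F) : κ → F) := by
      ext b
      simp [Finset.sum_apply, Pi.single_apply]
    have h1 : f x w = L x := rfl
    rw [h1]
    conv_lhs => rw [hx]
    rw [map_sum]
    apply Finset.sum_congr rfl
    intro a _
    rw [map_smul]
    rfl
  have hR : ∀ (w : κ → F) (y : κ → F), f w y = ∑ b, f w (Pi.single b 1) * y b := by
    intro w y
    let L : (κ → F) →ₗ[F] F :=
      { toFun := fun y => f w y
        map_add' := fun x y => hf.add_right w x y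
        map_smul' := fun c x => by simpa using hf.smul_right c w x }
    have hy : y = ∑ b, y b • (Pi.single b (1 : F) : κ → F) := by
      ext b
      simp [Finset.sum_apply, Pi.single_apply]
    have h1 : f w y = L y := rfl
    rw [h1]
    conv_lhs => rw [hy]
    rw [map_sum]
    apply Finset.sum_congr rfl
    intro a _
    rw [map_smul]
    show y a * f w (Pi.single a 1) = _
    ring
  unfold Cfsg.Geo.formOfGram Cfsg.Geo.gramMatrix
  rw [hL y x]
  apply Finset.sum_congr rfl
  intro a _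
  rw [hR (Pi.single a 1) y, Finset.mul_sum]
  apply Finset.sum_congr rfl
  intro b _
  simp only [id]
  ring

end BilinGram

section Emb

variable {ι : Type} [Fintype ι] [DecidableEq ι] {n₁ n₂ : ℕ}

/-- The coordinate change from the tensor coordinates. -/
def emb (e : ι ≃ Fin n₁ × Fin n₂) (P : GL ι F) (x : Fin n₁ × Fin n₂ → F) : ι → F :=
  (P : Matrix ι ι F) *ᵥ (x ∘ e)

theorem emb_add (e : ι ≃ Fin n₁ × Fin n₂) (P : GL ι F) (x y : Fin n₁ × Fin n₂ → F) :
    emb e P (x + y) = emb e P x + emb e P y := by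
  unfold emb
  rw [← Matrix.mulVec_add]
  rfl

theorem emb_smul (e : ι ≃ Fin n₁ × Fin n₂) (P : GL ι F) (c : F) (x : Fin n₁ × Fin n₂ → F) :
    emb e P (c • x) = c • emb e P x := by
  unfold emb
  rw [← Matrix.mulVec_smul]
  rfl

theorem emb_neg (e : ι ≃ Fin n₁ × Fin n₂) (P : GL ι F) (x : Fin n₁ × Fin n₂ → F) :
    emb e P (-x) = - emb e P x := by
  have := emb_smul e P (-1 : F) x
  simpa using this

theorem emb_sub (e : ι ≃ Fin n₁ × Fin n₂) (P : GL ι F) (x y : Fin n₁ × Fin n₂ → F) :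
    emb e P (x - y) = emb e P x - emb e P y := by
  rw [sub_eq_add_neg, emb_add, emb_neg, ← sub_eq_add_neg]

theorem emb_inj (e : ι ≃ Fin n₁ × Fin n₂) (P : GL ι F) : Function.Injective (emb e P) := by
  intro x y h
  unfold emb at h
  have h2 := congrArg (fun z => ((P⁻¹ : GL ι F) : Matrix ι ι F) *ᵥ z) h
  simp only [Matrix.mulVec_mulVec, ← Units.val_mul, inv_mul_cancel, Units.val_one,
    Matrix.one_mulVec] at h2
  funext p
  have := congrFun h2 (e.symm p)
  simpa using this

/-- The value of a form similar to a tensor product of bilinear forms on pure tensors. -/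
theorem pair_tv {e : ι ≃ Fin n₁ × Fin n₂} {P : GL ι F} {Φ : (ι → F) → (ι → F) → F}
    {f₁ : (Fin n₁ → F) → (Fin n₁ → F) → F} {f₂ : (Fin n₂ → F) → (Fin n₂ → F) → F}
    (hf₁ : Cfsg.Geo.IsBilinearForm f₁) (hf₂ : Cfsg.Geo.IsBilinearForm f₂) {c : F}
    (hc : ∀ x y : Fin n₁ × Fin n₂ → F,
      Φ ((P : Matrix ι ι F) *ᵥ (x ∘ e)) ((P : Matrix ι ι F) *ᵥ (y ∘ e)) =
      c * Cfsg.Geo.formOfGram (id : F → F)
        (Cfsg.Geo.gramMatrix f₁ ⊗ₖ Cfsg.Geo.gramMatrix f₂) x y)
    (v v' : Fin n₁ → F) (w w' : Fin n₂ → F) :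
    Φ (emb e P (tv v w)) (emb e P (tv v' w')) = c * (f₁ v v' * f₂ w w') := by
  unfold emb
  rw [hc, gram_tv, ← bf_eq_gram hf₁, ← bf_eq_gram hf₂]

/-- Elements of the tensor product stabiliser act on tensor coordinates by a Kronecker product. -/
theorem tensor_act {e : ι ≃ Fin n₁ × Fin n₂} {P : GL ι F} {g : GL ι F}
    (hg : g ∈ Cfsg.Geo.tensorProductSubgroup n₁ n₂ e P) :
    ∃ (a : GL (Fin n₁) F) (b : GL (Fin n₂) F), ∀ x : Fin n₁ × Fin n₂ → F,
      (g : Matrix ι ι F) *ᵥ emb e P x =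
        emb e P (((a : Matrix (Fin n₁) (Fin n₁) F) ⊗ₖ (b : Matrix (Fin n₂) (Fin n₂) F)) *ᵥ x) := by
  unfold Cfsg.Geo.tensorProductSubgroup at hg
  obtain ⟨h, ⟨k, ⟨a, b, hk⟩, rfl⟩, rfl⟩ := hg
  refine ⟨a, b, fun x => ?_⟩
  unfold emb
  have h1 : (((MulAut.conj P).toMonoidHom ((Cfsg.Geo.glReindex e.symm).toMonoidHom k) : GL ι F) :
      Matrix ι ι F) = (P : Matrix ι ι F) *
        (k : Matrix (Fin n₁ × Fin n₂) (Fin n₁ × Fin n₂) F).submatrix e e *
        ((P⁻¹ : GL ι F) : Matrix ι ι F) := by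
    rfl
  rw [h1, Matrix.mulVec_mulVec, mul_assoc, mul_assoc, ← Units.val_mul, inv_mul_cancel, Units.val_one,
    mul_one, ← Matrix.mulVec_mulVec, Matrix.submatrix_mulVec_equiv, ← hk]
  have hx : (x ∘ ⇑e) ∘ ⇑e.symm = x := by
    funext p
    simp
  rw [hx]

/-- The elements permuting a set of vectors. -/
def KX (S : Set (ι → F)) : Subgroup (GL ι F) where
  carrier := {g | ∀ x, x ∈ S ↔ (g : Matrix ι ι F) *ᵥ x ∈ S}
  mul_mem' := by
    intro a b ha hb x
    rw [Units.val_mul, ← Matrix.mulVec_mulVec, ← ha, ← hb]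
  one_mem' := fun x => by simp
  inv_mem' := by
    intro a ha x
    have := ha (((a⁻¹ : GL ι F) : Matrix ι ι F) *ᵥ x)
    rw [Matrix.mulVec_mulVec, ← Units.val_mul, mul_inv_cancel, Units.val_one, Matrix.one_mulVec] at this
    exact this.symm

end Emb


section Symm

variable {κ : Type} [Fintype κ] [DecidableEq κ] {f : (κ → F) → (κ → F) → F}

omit [Fintype κ] [DecidableEq κ] in
theorem bf_sum_left (hb : Cfsg.Geo.IsBilinearForm f) {k : ℕ} (c : Fin k → F) (d : Fin k → κ → F)
    (v : κ → F) : f (∑ i, c i • d i) v = ∑ i, c i * f (d i) v := by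
  let L : (κ → F) →ₗ[F] F :=
    { toFun := fun x => f x v
      map_add' := fun x y => hb.add_left x y v
      map_smul' := fun c x => by simpa using hb.smul_left c x v }
  have h1 : f (∑ i, c i • d i) v = L (∑ i, c i • d i) := rfl
  rw [h1, map_sum]
  apply Finset.sum_congr rfl
  intro i _
  rw [map_smul]
  rfl

/-- Gram–Schmidt step: a non-isotropic vector orthogonal to a short orthogonal family. -/
theorem exists_orth (hf : Cfsg.Geo.IsSymmetricForm f) (h2 : (2 : F) ≠ 0) {k : ℕ} (d : Fin k → κ → F)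
    (horth : ∀ i j, i ≠ j → f (d i) (d j) = 0) (hnz : ∀ i, f (d i) (d i) ≠ 0)
    (hk : k < Fintype.card κ) : ∃ y, (∀ i, f y (d i) = 0) ∧ f y y ≠ 0 := by
  have hb := hf.bilinear
  obtain ⟨π, hπ⟩ : ∃ π : (κ → F) → (κ → F),
      ∀ x, π x = x - ∑ i, (f x (d i) / f (d i) (d i)) • d i := ⟨_, fun _ => rfl⟩
  have hπorth : ∀ x j, f (π x) (d j) = 0 := by
    intro x j
    rw [hπ, bf_sub_left hb, bf_sum_left hb, Finset.sum_eq_single j]
    · have := hnz j
      field_simp
      ring
    · intro i _ hij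
      rw [horth i j hij, mul_zero]
    · intro h
      exact absurd (Finset.mem_univ j) h
  obtain ⟨x, hx⟩ : ∃ x, x ∉ Submodule.span F (Set.range d) := by
    by_contra hcon
    push Not at hcon
    have htop : Submodule.span F (Set.range d) = ⊤ := by
      rw [eq_top_iff]
      intro x _
      exact hcon x
    have h1 := finrank_range_le_card (R := F) d
    unfold Set.finrank at h1
    rw [htop, finrank_top, Module.finrank_pi, Fintype.card_fin] at h1
    omega
  by_contra hcon
  push Not at hcon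
  have hy₀ : π x ≠ 0 := by
    intro h0
    apply hx
    have : x = ∑ i, (f x (d i) / f (d i) (d i)) • d i := by
      rw [hπ] at h0
      exact sub_eq_zero.mp h0
    rw [this]
    exact Submodule.sum_mem _ (fun i _ => Submodule.smul_mem _ _ (Submodule.subset_span ⟨i, rfl⟩))
  obtain ⟨⟨z, hz⟩, -⟩ := hf.nondegenerate (π x) hy₀
  apply hz
  have hzdec : z = π z + ∑ i, (f z (d i) / f (d i) (d i)) • d i := by
    rw [hπ]
    abel
  have h1 : f (π z) (π x) = 0 := by
    have ha := hcon (π z) (hπorth z)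
    have hb' := hcon (π x) (hπorth x)
    have hc := hcon (π z + π x) (fun i => by rw [hb.add_left, hπorth, hπorth, add_zero])
    rw [hb.add_left, hb.add_right, hb.add_right, ha, hb', hf.symm (π x) (π z)] at hc
    have : (2 : F) * f (π z) (π x) = 0 := by linear_combination hc
    exact (mul_eq_zero.mp this).resolve_left h2
  rw [hzdec, hb.add_left, bf_sum_left hb, h1, zero_add]
  apply Finset.sum_eq_zero
  intro i _
  rw [hf.symm (d i) (π x), hπorth, mul_zero]

/-- Expansion in a full orthogonal family. -/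
theorem expand_orth (hf : Cfsg.Geo.IsSymmetricForm f) {k : ℕ} (d : Fin k → κ → F)
    (horth : ∀ i j, i ≠ j → f (d i) (d j) = 0) (hnz : ∀ i, f (d i) (d i) ≠ 0)
    (hk : k = Fintype.card κ) (x : κ → F) :
    x = ∑ i, (f x (d i) / f (d i) (d i)) • d i := by
  have hb := hf.bilinear
  have hli : LinearIndependent F d := by
    rw [Fintype.linearIndependent_iff]
    intro g hg j
    have h1 := congrArg (fun v => f v (d j)) hg
    simp only [bf_sum_left hb, bf_zero_left hb] at h1
    rw [Finset.sum_eq_single j] at h1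
    · exact (mul_eq_zero.mp h1).resolve_right (hnz j)
    · intro i _ hij
      rw [horth i j hij, mul_zero]
    · intro h
      exact absurd (Finset.mem_univ j) h
  have hspan : Submodule.span F (Set.range d) = ⊤ :=
    hli.span_eq_top_of_card_eq_finrank' (by simp [hk])
  have hx : x ∈ Submodule.span F (Set.range d) := by
    rw [hspan]
    trivial
  obtain ⟨c, rfl⟩ := (Submodule.mem_span_range_iff_exists_fun F).mp hx
  apply Finset.sum_congr rfl
  intro i _
  congr 1
  rw [bf_sum_left hb, Finset.sum_eq_single i]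
  · have := hnz i
    field_simp
  · intro j _ hji
    rw [horth j i hji, mul_zero]
  · intro h
    exact absurd (Finset.mem_univ i) h

end Symm


section F3

variable [Fintype F]

theorem three_eq_zero (hq : Fintype.card F = 3) : (3 : F) = 0 := by
  have hc := Nat.cast_card_eq_zero F
  rw [hq] at hc
  exact_mod_cast hc

theorem two_ne_zero3 (hq : Fintype.card F = 3) : (2 : F) ≠ 0 := by
  intro h
  have h3 := three_eq_zero hq
  have : (1 : F) = 0 := by linear_combination h3 - h
  exact one_ne_zero this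

theorem sq_eq_one3 (hq : Fintype.card F = 3) {x : F} (hx : x ≠ 0) : x ^ 2 = 1 := by
  have := FiniteField.pow_card_sub_one_eq_one x hx
  rwa [hq] at this

theorem eq_one_or_neg_one3 (hq : Fintype.card F = 3) {x : F} (hx : x ≠ 0) : x = 1 ∨ x = -1 := by
  have h := sq_eq_one3 hq hx
  have : (x - 1) * (x + 1) = 0 := by linear_combination h
  rcases mul_eq_zero.mp this with h | h
  · left
    linear_combination h
  · right
    linear_combination h

theorem sq_add_sq3 (hq : Fintype.card F = 3) {x y : F} (h : x ^ 2 + y ^ 2 = 0) : x = 0 ∧ y = 0 := by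
  by_cases hx : x = 0
  · subst hx
    refine ⟨rfl, ?_⟩
    have : y ^ 2 = 0 := by linear_combination h
    exact pow_eq_zero_iff (by norm_num) |>.mp this
  · by_cases hy : y = 0
    · subst hy
      have : x ^ 2 = 0 := by linear_combination h
      exact absurd (pow_eq_zero_iff (by norm_num) |>.mp this) hx
    · exfalso
      rw [sq_eq_one3 hq hx, sq_eq_one3 hq hy] at h
      exact two_ne_zero3 hq (by linear_combination h)

variable {f : (Fin 3 → F) → (Fin 3 → F) → F}

/-- An orthogonal basis of the 3-space with all norms equal to `ε`. -/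
structure IsFrame (f : (Fin 3 → F) → (Fin 3 → F) → F) (ε : F) (d₁ d₂ d₃ : Fin 3 → F) : Prop where
  ne : ε ≠ 0
  n1 : f d₁ d₁ = ε
  n2 : f d₂ d₂ = ε
  n3 : f d₃ d₃ = ε
  o12 : f d₁ d₂ = 0
  o13 : f d₁ d₃ = 0
  o23 : f d₂ d₃ = 0
  exp : ∀ x, x = (ε * f x d₁) • d₁ + (ε * f x d₂) • d₂ + (ε * f x d₃) • d₃

omit [Fintype F] in
theorem IsFrame.swap12 (hf : Cfsg.Geo.IsSymmetricForm f) {ε : F} {d₁ d₂ d₃ : Fin 3 → F}
    (h : IsFrame f ε d₁ d₂ d₃) : IsFrame f ε d₂ d₁ d₃ where
  ne := h.ne
  n1 := h.n2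
  n2 := h.n1
  n3 := h.n3
  o12 := by rw [hf.symm]; exact h.o12
  o13 := h.o23
  o23 := h.o13
  exp := fun x => by
    conv_lhs => rw [h.exp x]
    abel

omit [Fintype F] in
theorem IsFrame.swap23 (hf : Cfsg.Geo.IsSymmetricForm f) {ε : F} {d₁ d₂ d₃ : Fin 3 → F}
    (h : IsFrame f ε d₁ d₂ d₃) : IsFrame f ε d₁ d₃ d₂ where
  ne := h.ne
  n1 := h.n1
  n2 := h.n3
  n3 := h.n2
  o12 := h.o13
  o13 := h.o12
  o23 := by rw [hf.symm]; exact h.o23
  exp := fun x => by
    conv_lhs => rw [h.exp x]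
    abel

omit [Fintype F] in
theorem IsFrame.parseval (hf : Cfsg.Geo.IsSymmetricForm f) {ε : F} {d₁ d₂ d₃ : Fin 3 → F}
    (h : IsFrame f ε d₁ d₂ d₃) (x y : Fin 3 → F) :
    f x y = ε * (f x d₁ * f y d₁ + f x d₂ * f y d₂ + f x d₃ * f y d₃) := by
  have hb := hf.bilinear
  conv_lhs => rw [h.exp x]
  rw [hb.add_left, hb.add_left, hb.smul_left, hb.smul_left, hb.smul_left, hf.symm d₁ y, hf.symm d₂ y,
    hf.symm d₃ y]
  ring

theorem frame_of_orth (hq : Fintype.card F = 3) (hf : Cfsg.Geo.IsSymmetricForm f) {ε : F}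
    {d₁ d₂ d₃ : Fin 3 → F} (hε : ε ≠ 0) (n1 : f d₁ d₁ = ε) (n2 : f d₂ d₂ = ε) (n3 : f d₃ d₃ = ε)
    (o12 : f d₁ d₂ = 0) (o13 : f d₁ d₃ = 0) (o23 : f d₂ d₃ = 0) : IsFrame f ε d₁ d₂ d₃ := by
  refine ⟨hε, n1, n2, n3, o12, o13, o23, fun x => ?_⟩
  have hε2 : ε * ε = 1 := by
    have := sq_eq_one3 hq hε
    linear_combination this
  have hinv : ∀ t : F, t / ε = ε * t := by
    intro t
    field_simp
    linear_combination (-t) * hε2
  have o21 : f d₂ d₁ = 0 := by rw [hf.symm]; exact o12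
  have o31 : f d₃ d₁ = 0 := by rw [hf.symm]; exact o13
  have o32 : f d₃ d₂ = 0 := by rw [hf.symm]; exact o23
  have := expand_orth hf ![d₁, d₂, d₃]
    (by
      intro i j hij
      fin_cases i <;> fin_cases j <;> simp_all)
    (by
      intro i
      fin_cases i <;> simp_all)
    (by simp) x
  rw [Fin.sum_univ_three] at this
  simp only [Matrix.cons_val_zero, Matrix.cons_val_one, Matrix.cons_val_two, Matrix.head_cons,
    Matrix.tail_cons, n1, n2, n3, hinv] at this
  exact this

theorem frame_of_two_eq (hq : Fintype.card F = 3) (hf : Cfsg.Geo.IsSymmetricForm f)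
    {x y z : Fin 3 → F} (hx : f x x ≠ 0) (hxy : f y y = f x x) (hz : f z z ≠ 0)
    (o12 : f x y = 0) (o13 : f x z = 0) (o23 : f y z = 0) :
    ∃ (ε : F) (d₁ d₂ d₃ : Fin 3 → F), IsFrame f ε d₁ d₂ d₃ := by
  have hb := hf.bilinear
  have h3 := three_eq_zero hq
  by_cases hzx : f z z = f x x
  · exact ⟨f x x, x, y, z, frame_of_orth hq hf hx rfl hxy hzx o12 o13 o23⟩
  · have hneg : f z z = - f x x := by
      rcases eq_one_or_neg_one3 hq hx with h1 | h1 <;> rcases eq_one_or_neg_one3 hq hz with h2 | h2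
      · exact absurd (h2.trans h1.symm) hzx
      · rw [h1, h2]
      · rw [h1, h2, neg_neg]
      · exact absurd (h2.trans h1.symm) hzx
    have o21 : f y x = 0 := by rw [hf.symm]; exact o12
    refine ⟨f z z, x + y, x - y, z, frame_of_orth hq hf hz ?_ ?_ rfl ?_ ?_ ?_⟩
    · rw [hb.add_left, hb.add_right, hb.add_right, o12, o21, hxy, hneg]
      linear_combination (f x x) * h3
    · rw [bf_sub_left hb, bf_sub_right hb, bf_sub_right hb, o12, o21, hxy, hneg]
      linear_combination (f x x) * h3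
    · rw [hb.add_left, bf_sub_right hb, bf_sub_right hb, o12, o21, hxy]
      ring
    · rw [hb.add_left, o13, o23, add_zero]
    · rw [bf_sub_left hb, o13, o23, sub_zero]

/-- A non-degenerate symmetric bilinear form on the 3-space over the field with 3 elements has an
orthogonal basis with all norms equal. -/
theorem exists_frame (hq : Fintype.card F = 3) (hf : Cfsg.Geo.IsSymmetricForm f) :
    ∃ (ε : F) (d₁ d₂ d₃ : Fin 3 → F), IsFrame f ε d₁ d₂ d₃ := by
  have h2 := two_ne_zero3 hq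
  obtain ⟨d₁, -, hd₁⟩ := exists_orth hf h2 (k := 0) (fun i => Fin.elim0 i)
    (fun i => Fin.elim0 i) (fun i => Fin.elim0 i) (by simp)
  obtain ⟨d₂, h21, hd₂⟩ := exists_orth hf h2 (k := 1) ![d₁]
    (by
      intro i j hij
      fin_cases i; fin_cases j
      exact absurd rfl hij)
    (by
      intro i
      fin_cases i
      simpa using hd₁) (by simp)
  have o21 : f d₂ d₁ = 0 := by simpa using h21 0
  have o12 : f d₁ d₂ = 0 := by rw [hf.symm]; exact o21
  obtain ⟨d₃, h3, hd₃⟩ := exists_orth hf h2 (k := 2) ![d₁, d₂]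
    (by
      intro i j hij
      fin_cases i <;> fin_cases j <;> simp_all)
    (by
      intro i
      fin_cases i <;> simp_all) (by simp)
  have o31 : f d₃ d₁ = 0 := by simpa using h3 0
  have o32 : f d₃ d₂ = 0 := by simpa using h3 1
  have o13 : f d₁ d₃ = 0 := by rw [hf.symm]; exact o31
  have o23 : f d₂ d₃ = 0 := by rw [hf.symm]; exact o32
  by_cases e12 : f d₂ d₂ = f d₁ d₁
  · exact frame_of_two_eq hq hf hd₁ e12 hd₃ o12 o13 o23
  · by_cases e13 : f d₃ d₃ = f d₁ d₁
    · exact frame_of_two_eq hq hf hd₁ e13 hd₂ o13 o12 o32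
    · have e23 : f d₃ d₃ = f d₂ d₂ := by
        rcases eq_one_or_neg_one3 hq hd₁ with h1 | h1 <;>
          rcases eq_one_or_neg_one3 hq hd₂ with h2' | h2' <;>
          rcases eq_one_or_neg_one3 hq hd₃ with h3' | h3'
        all_goals first
          | exact absurd (h2'.trans h1.symm) e12
          | exact absurd (h3'.trans h1.symm) e13
          | exact h3'.trans h2'.symm
      exact frame_of_two_eq hq hf hd₂ e23 hd₁ o23 o21 o31

/-- The special non-isotropic vectors: those whose orthogonal complement is anisotropic. -/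
def NN (f : (Fin 3 → F) → (Fin 3 → F) → F) (w : Fin 3 → F) : Prop :=
  f w w ≠ 0 ∧ ∀ u, f u w = 0 → f u u = 0 → u = 0

theorem IsFrame.nn1 (hq : Fintype.card F = 3) (hf : Cfsg.Geo.IsSymmetricForm f) {ε : F}
    {d₁ d₂ d₃ : Fin 3 → F} (h : IsFrame f ε d₁ d₂ d₃) : NN f d₁ := by
  refine ⟨by rw [h.n1]; exact h.ne, fun u hu huu => ?_⟩
  rw [h.parseval hf u u, hu] at huu
  have h1 : f u d₂ ^ 2 + f u d₃ ^ 2 = 0 := by
    rcases mul_eq_zero.mp huu with h0 | h0
    · exact absurd h0 h.ne
    · linear_combination h0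
  obtain ⟨e2, e3⟩ := sq_add_sq3 hq h1
  rw [h.exp u, hu, e2, e3]
  simp

theorem IsFrame.nn2 (hq : Fintype.card F = 3) (hf : Cfsg.Geo.IsSymmetricForm f) {ε : F}
    {d₁ d₂ d₃ : Fin 3 → F} (h : IsFrame f ε d₁ d₂ d₃) : NN f d₂ :=
  (h.swap12 hf).nn1 hq hf

theorem IsFrame.nn3 (hq : Fintype.card F = 3) (hf : Cfsg.Geo.IsSymmetricForm f) {ε : F}
    {d₁ d₂ d₃ : Fin 3 → F} (h : IsFrame f ε d₁ d₂ d₃) : NN f d₃ :=
  ((h.swap23 hf).swap12 hf).nn1 hq hf

theorem IsFrame.not_two (hq : Fintype.card F = 3) (hf : Cfsg.Geo.IsSymmetricForm f) {ε : F}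
    {d₁ d₂ d₃ : Fin 3 → F} (h : IsFrame f ε d₁ d₂ d₃) {w : Fin 3 → F} (hN : NN f w)
    (h1 : f w d₁ ≠ 0) (h2 : f w d₂ ≠ 0) : False := by
  have hb := hf.bilinear
  have h3 := three_eq_zero hq
  have hε2 : ε ^ 2 = 1 := sq_eq_one3 hq h.ne
  have e1 := sq_eq_one3 hq h1
  have e2 := sq_eq_one3 hq h2
  have hp3 : f w d₃ = 0 := by
    by_contra hne
    apply hN.1
    rw [h.parseval hf w w]
    have e3 := sq_eq_one3 hq hne
    linear_combination ε * e1 + ε * e2 + ε * e3 + ε * h3
  have hu := hN.2 (f w d₂ • d₁ - f w d₁ • d₂ + d₃)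
    (by
      rw [hb.add_left, bf_sub_left hb, hb.smul_left, hb.smul_left, hf.symm d₁ w, hf.symm d₂ w,
        hf.symm d₃ w, hp3]
      ring)
    (by
      have o21 : f d₂ d₁ = 0 := by rw [hf.symm]; exact h.o12
      have o31 : f d₃ d₁ = 0 := by rw [hf.symm]; exact h.o13
      have o32 : f d₃ d₂ = 0 := by rw [hf.symm]; exact h.o23
      rw [h.parseval hf]
      simp only [hb.add_left, bf_sub_left hb, hb.smul_left, h.n1, h.n2, h.n3, h.o12, h.o13, h.o23,
        o21, o31, o32]
      linear_combination (ε * ε ^ 2) * e1 + (ε * ε ^ 2) * e2 + (ε * ε ^ 2) * h3)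
  have := congrArg (fun t => f t d₃) hu
  simp only [hb.add_left, bf_sub_left hb, hb.smul_left, h.o13, h.o23, h.n3, bf_zero_left hb] at this
  apply h.ne
  linear_combination this

/-- The special vectors are the multiples of the frame vectors. -/
theorem IsFrame.of_nn (hq : Fintype.card F = 3) (hf : Cfsg.Geo.IsSymmetricForm f) {ε : F}
    {d₁ d₂ d₃ : Fin 3 → F} (h : IsFrame f ε d₁ d₂ d₃) {w : Fin 3 → F} (hN : NN f w) :
    ∃ s : F, w = s • d₁ ∨ w = s • d₂ ∨ w = s • d₃ := by
  have h12 := h.not_two hq hf hN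
  have h13 := (h.swap23 hf).not_two hq hf hN
  have h23 := ((h.swap12 hf).swap23 hf).not_two hq hf hN
  have hexp := h.exp w
  by_cases p1 : f w d₁ = 0
  · by_cases p2 : f w d₂ = 0
    · refine ⟨ε * f w d₃, Or.inr (Or.inr ?_)⟩
      conv_lhs => rw [hexp]
      rw [p1, p2]
      simp
    · have p3 : f w d₃ = 0 := by
        by_contra hne
        exact h23 p2 hne
      refine ⟨ε * f w d₂, Or.inr (Or.inl ?_)⟩
      conv_lhs => rw [hexp]
      rw [p1, p3]
      simp
  · have p2 : f w d₂ = 0 := by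
      by_contra hne
      exact h12 p1 hne
    have p3 : f w d₃ = 0 := by
      by_contra hne
      exact h13 p1 hne
    refine ⟨ε * f w d₁, Or.inl ?_⟩
    conv_lhs => rw [hexp]
    rw [p2, p3]
    simp

omit [Fintype F] in
/-- Similarities preserve the special vectors. -/
theorem NN.similarity {w : Fin 3 → F} (hN : NN f w) (a : GL (Fin 3) F) (μ : F)
    (hμ : ∀ x y : Fin 3 → F, μ * f ((a : Matrix (Fin 3) (Fin 3) F) *ᵥ x)
      ((a : Matrix (Fin 3) (Fin 3) F) *ᵥ y) = f x y) :
    NN f ((a : Matrix (Fin 3) (Fin 3) F) *ᵥ w) := by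
  refine ⟨fun h0 => hN.1 ?_, fun u hu huu => ?_⟩
  · rw [← hμ, h0, mul_zero]
  · have hau : (a : Matrix (Fin 3) (Fin 3) F) *ᵥ
        (((a⁻¹ : GL (Fin 3) F) : Matrix (Fin 3) (Fin 3) F) *ᵥ u) = u := by
      rw [Matrix.mulVec_mulVec, ← Units.val_mul, mul_inv_cancel, Units.val_one, Matrix.one_mulVec]
    have h1 := hN.2 (((a⁻¹ : GL (Fin 3) F) : Matrix (Fin 3) (Fin 3) F) *ᵥ u)
      (by rw [← hμ, hau, hu, mul_zero]) (by rw [← hμ, hau, huu, mul_zero])
    rw [← hau, h1, Matrix.mulVec_zero]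

end F3

end Cfsg.Agent.Lib.Helper13.TensorF3
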