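import Mathlib
import Cfsg.Prelude.Def_GeometricClasses
import Cfsg.Agent.Lib.Helper13.TensorF3

set_option autoImplicit false
open Cfsg

namespace Cfsg.Agent.Lib.Helper13.OmegaF3

open Matrix
open scoped Kronecker
open scoped commutatorElement
open Cfsg.Agent.Lib.Helper13.TensorF3

variable {ι : Type} [Fintype ι] [DecidableEq ι] {F : Type*} [Field F] {Q : (ι → F) → F}

/-- Quadratic form data: homogeneity and bilinearity of the polar form. -/
structure IsQF (Q : (ι → F) → F) : Prop where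
  smul : ∀ (c : F) (v : ι → F), Q (c • v) = c ^ 2 * Q v
  bil : Cfsg.Geo.IsBilinearForm (QuadraticMap.polar Q)

omit [Fintype ι] [DecidableEq ι] in
theorem Q_add (Q : (ι → F) → F) (x y : ι → F) :
    Q (x + y) = Q x + Q y + QuadraticMap.polar Q x y := by
  unfold QuadraticMap.polar
  ring

omit [Fintype ι] [DecidableEq ι] in
theorem IsQF.polar_self (hQ : IsQF Q) (x : ι → F) : QuadraticMap.polar Q x x = 2 * Q x := by
  unfold QuadraticMap.polar
  have : x + x = (2 : F) • x := (two_smul F x).symm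
  rw [this, hQ.smul]
  ring

omit [Fintype ι] [DecidableEq ι] in
theorem polar_symm (Q : (ι → F) → F) (x y : ι → F) :
    QuadraticMap.polar Q x y = QuadraticMap.polar Q y x :=
  QuadraticMap.polar_comm Q x y

/-- The reflection along `z` as a linear map. -/
noncomputable def reflL (hQ : IsQF Q) (z : ι → F) : (ι → F) →ₗ[F] (ι → F) where
  toFun x := x - (QuadraticMap.polar Q x z / Q z) • z
  map_add' x y := by
    rw [hQ.bil.add_left, add_div, add_smul]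
    abel
  map_smul' c x := by
    rw [hQ.bil.smul_left, RingHom.id_apply, smul_sub, smul_smul, mul_div_assoc]

omit [Fintype ι] [DecidableEq ι] in
theorem reflL_apply (hQ : IsQF Q) (z x : ι → F) :
    reflL hQ z x = x - (QuadraticMap.polar Q x z / Q z) • z := rfl

theorem reflL_invol (hQ : IsQF Q) (z : ι → F) (hz : Q z ≠ 0) (x : ι → F) :
    reflL hQ z (reflL hQ z x) = x := by
  rw [reflL_apply, reflL_apply, bf_sub_left hQ.bil, hQ.bil.smul_left, hQ.polar_self]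
  have ht : (QuadraticMap.polar Q x z - QuadraticMap.polar Q x z / Q z * (2 * Q z)) / Q z
      = -(QuadraticMap.polar Q x z / Q z) := by
    field_simp
    ring
  rw [ht, neg_smul, sub_neg_eq_add, sub_add_cancel]

/-- The reflection along a non-singular vector as an invertible matrix. -/
noncomputable def reflGL (hQ : IsQF Q) (z : ι → F) (hz : Q z ≠ 0) : GL ι F where
  val := LinearMap.toMatrix' (reflL hQ z)
  inv := LinearMap.toMatrix' (reflL hQ z)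
  val_inv := by
    rw [← LinearMap.toMatrix'_comp]
    have : (reflL hQ z).comp (reflL hQ z) = LinearMap.id :=
      LinearMap.ext fun x => reflL_invol hQ z hz x
    rw [this, LinearMap.toMatrix'_id]
  inv_val := by
    rw [← LinearMap.toMatrix'_comp]
    have : (reflL hQ z).comp (reflL hQ z) = LinearMap.id :=
      LinearMap.ext fun x => reflL_invol hQ z hz x
    rw [this, LinearMap.toMatrix'_id]

theorem reflGL_mulVec (hQ : IsQF Q) (z : ι → F) (hz : Q z ≠ 0) (x : ι → F) :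
    ((reflGL hQ z hz : GL ι F) : Matrix ι ι F) *ᵥ x = x - (QuadraticMap.polar Q x z / Q z) • z := by
  show LinearMap.toMatrix' (reflL hQ z) *ᵥ x = _
  rw [LinearMap.toMatrix'_mulVec]
  rfl

theorem reflGL_inv (hQ : IsQF Q) (z : ι → F) (hz : Q z ≠ 0) :
    (reflGL hQ z hz)⁻¹ = reflGL hQ z hz := rfl

theorem reflGL_mem (hQ : IsQF Q) (z : ι → F) (hz : Q z ≠ 0) :
    reflGL hQ z hz ∈ Cfsg.isometryGroup F Q := by
  intro u v
  show Q (((reflGL hQ z hz : GL ι F) : Matrix ι ι F) *ᵥ u) = Q u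
  rw [reflGL_mulVec, sub_eq_add_neg, ← neg_smul, Q_add Q u, hQ.smul, hQ.bil.smul_right]
  field_simp
  ring

/-- The commutator of two reflections. -/
noncomputable def cm (hQ : IsQF Q) (x y : ι → F) (hx : Q x ≠ 0) (hy : Q y ≠ 0) : GL ι F :=
  reflGL hQ x hx * reflGL hQ y hy * reflGL hQ x hx * reflGL hQ y hy

theorem cm_mem_omega (hQ : IsQF Q) (x y : ι → F) (hx : Q x ≠ 0) (hy : Q y ≠ 0) :
    cm hQ x y hx hy ∈ Cfsg.Geo.omegaGL Q := by
  unfold Cfsg.Geo.omegaGL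
  refine ⟨⁅(⟨reflGL hQ x hx, reflGL_mem hQ x hx⟩ : Cfsg.isometryGroup F Q),
    ⟨reflGL hQ y hy, reflGL_mem hQ y hy⟩⁆, ?_, ?_⟩
  · show _ ∈ commutator _
    rw [commutator_def]
    exact Subgroup.commutator_mem_commutator (Subgroup.mem_top _) (Subgroup.mem_top _)
  · rw [commutatorElement_def]
    simp [cm, reflGL_inv]

theorem cm_mulVec (hQ : IsQF Q) (x y : ι → F) (hx : Q x ≠ 0) (hy : Q y ≠ 0) (v : ι → F) :
    ((cm hQ x y hx hy : GL ι F) : Matrix ι ι F) *ᵥ v =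
      ((reflGL hQ x hx : GL ι F) : Matrix ι ι F) *ᵥ (((reflGL hQ y hy : GL ι F) : Matrix ι ι F) *ᵥ
        (((reflGL hQ x hx : GL ι F) : Matrix ι ι F) *ᵥ
          (((reflGL hQ y hy : GL ι F) : Matrix ι ι F) *ᵥ v))) := by
  simp only [cm, Units.val_mul, Matrix.mulVec_mulVec, mul_assoc]

theorem omega_le_isometry (Q : (ι → F) → F) : Cfsg.Geo.omegaGL Q ≤ Cfsg.isometryGroup F Q := by
  rintro g ⟨h, -, rfl⟩
  exact h.2

theorem isometry_polar {g : GL ι F} (hg : g ∈ Cfsg.isometryGroup F Q) (u v : ι → F) :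
    QuadraticMap.polar Q ((g : Matrix ι ι F) *ᵥ u) ((g : Matrix ι ι F) *ᵥ v) =
      QuadraticMap.polar Q u v := by
  have hU : ∀ u v : ι → F, Q ((g : Matrix ι ι F) *ᵥ u) = Q u := hg
  unfold QuadraticMap.polar
  rw [← Matrix.mulVec_add, hU _ u, hU _ u, hU _ u]


section F3

variable [Fintype F]

omit [Fintype ι] [DecidableEq ι] in
theorem Q_eq_neg_polar (hq : Fintype.card F = 3) (hQ : IsQF Q) (z : ι → F) :
    Q z = - QuadraticMap.polar Q z z := by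
  rw [hQ.polar_self]
  linear_combination (Q z) * three_eq_zero hq

omit [Fintype ι] [DecidableEq ι] in
theorem Q_ne_zero (hq : Fintype.card F = 3) (hQ : IsQF Q) {z : ι → F}
    (hz : QuadraticMap.polar Q z z ≠ 0) : Q z ≠ 0 := by
  rw [Q_eq_neg_polar hq hQ]
  exact neg_ne_zero.mpr hz

/-- The reflection along a vector of non-zero norm, over the field with three elements. -/
noncomputable def rr (hq : Fintype.card F = 3) (hQ : IsQF Q) (z : ι → F)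
    (hz : QuadraticMap.polar Q z z ≠ 0) : GL ι F :=
  reflGL hQ z (Q_ne_zero hq hQ hz)

theorem rr_mulVec (hq : Fintype.card F = 3) (hQ : IsQF Q) (z : ι → F)
    (hz : QuadraticMap.polar Q z z ≠ 0) (x : ι → F) :
    ((rr hq hQ z hz : GL ι F) : Matrix ι ι F) *ᵥ x =
      x + (QuadraticMap.polar Q x z * QuadraticMap.polar Q z z) • z := by
  unfold rr
  rw [reflGL_mulVec, Q_eq_neg_polar hq hQ z]
  have h1 := sq_eq_one3 hq hz
  have : QuadraticMap.polar Q x z / -QuadraticMap.polar Q z z =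
      -(QuadraticMap.polar Q x z * QuadraticMap.polar Q z z) := by
    field_simp
    linear_combination (QuadraticMap.polar Q x z) * h1
  rw [this, neg_smul, sub_neg_eq_add]

theorem rr_invol (hq : Fintype.card F = 3) (hQ : IsQF Q) (z : ι → F)
    (hz : QuadraticMap.polar Q z z ≠ 0) (x : ι → F) :
    ((rr hq hQ z hz : GL ι F) : Matrix ι ι F) *ᵥ
      (((rr hq hQ z hz : GL ι F) : Matrix ι ι F) *ᵥ x) = x := by
  have h : ((rr hq hQ z hz : GL ι F) : Matrix ι ι F) * ((rr hq hQ z hz : GL ι F) : Matrix ι ι F) = 1 :=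
    (reflGL hQ z (Q_ne_zero hq hQ hz)).val_inv
  rw [Matrix.mulVec_mulVec, h, Matrix.one_mulVec]

theorem rr_fix (hq : Fintype.card F = 3) (hQ : IsQF Q) (z : ι → F)
    (hz : QuadraticMap.polar Q z z ≠ 0) (x : ι → F) (h0 : QuadraticMap.polar Q x z = 0) :
    ((rr hq hQ z hz : GL ι F) : Matrix ι ι F) *ᵥ x = x := by
  rw [rr_mulVec, h0, zero_mul, zero_smul, add_zero]

/-- The commutator of two reflections, over the field with three elements. -/
noncomputable def cc (hq : Fintype.card F = 3) (hQ : IsQF Q) (x y : ι → F)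
    (hx : QuadraticMap.polar Q x x ≠ 0) (hy : QuadraticMap.polar Q y y ≠ 0) : GL ι F :=
  rr hq hQ x hx * rr hq hQ y hy * rr hq hQ x hx * rr hq hQ y hy

theorem cc_mem_omega (hq : Fintype.card F = 3) (hQ : IsQF Q) (x y : ι → F)
    (hx : QuadraticMap.polar Q x x ≠ 0) (hy : QuadraticMap.polar Q y y ≠ 0) :
    cc hq hQ x y hx hy ∈ Cfsg.Geo.omegaGL Q :=
  cm_mem_omega hQ x y (Q_ne_zero hq hQ hx) (Q_ne_zero hq hQ hy)

theorem cc_mulVec (hq : Fintype.card F = 3) (hQ : IsQF Q) (x y : ι → F)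
    (hx : QuadraticMap.polar Q x x ≠ 0) (hy : QuadraticMap.polar Q y y ≠ 0) (v : ι → F) :
    ((cc hq hQ x y hx hy : GL ι F) : Matrix ι ι F) *ᵥ v =
      ((rr hq hQ x hx : GL ι F) : Matrix ι ι F) *ᵥ (((rr hq hQ y hy : GL ι F) : Matrix ι ι F) *ᵥ
        (((rr hq hQ x hx : GL ι F) : Matrix ι ι F) *ᵥ
          (((rr hq hQ y hy : GL ι F) : Matrix ι ι F) *ᵥ v))) := by
  simp only [cc, Units.val_mul, Matrix.mulVec_mulVec, mul_assoc]

/-- The commutator of the reflections along `x` and `y`, evaluated at `x`, in a special case. -/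
theorem cc_self (hq : Fintype.card F = 3) (hQ : IsQF Q) (x y : ι → F)
    (hx : QuadraticMap.polar Q x x ≠ 0) (hy : QuadraticMap.polar Q y y ≠ 0) {κ : F} (hκ : κ ≠ 0)
    (hxx : QuadraticMap.polar Q x x = 2 * κ) (hyy : QuadraticMap.polar Q y y = 2 * κ)
    (hxy : QuadraticMap.polar Q x y = κ) :
    ((cc hq hQ x y hx hy : GL ι F) : Matrix ι ι F) *ᵥ x = y - x := by
  have h3 := three_eq_zero hq
  have hκ2 := sq_eq_one3 hq hκ
  have hyx : QuadraticMap.polar Q y x = κ := by rw [polar_symm]; exact hxy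
  have hb := hQ.bil
  have hk1 : κ * (2 * κ) = -1 := by linear_combination 2 * hκ2 + h3
  have s1 : ((rr hq hQ y hy : GL ι F) : Matrix ι ι F) *ᵥ x = x - y := by
    rw [rr_mulVec, hxy, hyy, hk1, neg_one_smul, sub_eq_add_neg]
  have s2 : ((rr hq hQ x hx : GL ι F) : Matrix ι ι F) *ᵥ (x - y) = -y := by
    rw [rr_mulVec, bf_sub_left hb, hxx, hyx]
    have : (2 * κ - κ) * (2 * κ) = -1 := by linear_combination 2 * hκ2 + h3
    rw [this, neg_one_smul]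
    abel
  have s3 : ((rr hq hQ y hy : GL ι F) : Matrix ι ι F) *ᵥ (-y) = y := by
    rw [rr_mulVec, bf_neg_left hb, hyy]
    have : -(2 * κ) * (2 * κ) = -1 := by linear_combination (-4) * hκ2 - h3
    rw [this, neg_one_smul]
    ext i
    simp only [Pi.add_apply, Pi.neg_apply]
    linear_combination (-(y i)) * h3
  have s4 : ((rr hq hQ x hx : GL ι F) : Matrix ι ι F) *ᵥ y = y - x := by
    rw [rr_mulVec, hyx, hxx, hk1, neg_one_smul, sub_eq_add_neg]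
  rw [cc_mulVec, s1, s2, s3, s4]

section Orth

variable {κ : Type} [Fintype κ] [DecidableEq κ] {f : (κ → F) → (κ → F) → F}

theorem exists_three_orth (hq : Fintype.card F = 3) (hf : Cfsg.Geo.IsSymmetricForm f)
    (hκ : 3 ≤ Fintype.card κ) :
    ∃ w₁ w₂ w₃ : κ → F, f w₁ w₁ ≠ 0 ∧ f w₂ w₂ ≠ 0 ∧ f w₃ w₃ ≠ 0 ∧ f w₁ w₂ = 0 ∧ f w₁ w₃ = 0 ∧
      f w₂ w₃ = 0 := by
  have h2 := two_ne_zero3 hq
  obtain ⟨d₁, -, hd₁⟩ := exists_orth hf h2 (k := 0) (fun i => Fin.elim0 i)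
    (fun i => Fin.elim0 i) (fun i => Fin.elim0 i) (by omega)
  obtain ⟨d₂, h21, hd₂⟩ := exists_orth hf h2 (k := 1) ![d₁]
    (by
      intro i j hij
      fin_cases i; fin_cases j
      exact absurd rfl hij)
    (by
      intro i
      fin_cases i
      simpa using hd₁) (by omega)
  have o21 : f d₂ d₁ = 0 := by simpa using h21 0
  have o12 : f d₁ d₂ = 0 := by rw [hf.symm]; exact o21
  obtain ⟨d₃, h3, hd₃⟩ := exists_orth hf h2 (k := 2) ![d₁, d₂]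
    (by
      intro i j hij
      fin_cases i <;> fin_cases j <;> simp_all)
    (by
      intro i
      fin_cases i <;> simp_all) (by omega)
  have o31 : f d₃ d₁ = 0 := by simpa using h3 0
  have o32 : f d₃ d₂ = 0 := by simpa using h3 1
  have o13 : f d₁ d₃ = 0 := by rw [hf.symm]; exact o31
  have o23 : f d₂ d₃ = 0 := by rw [hf.symm]; exact o32
  exact ⟨d₁, d₂, d₃, hd₁, hd₂, hd₃, o12, o13, o23⟩

theorem exists_pair_eq (hq : Fintype.card F = 3) (hf : Cfsg.Geo.IsSymmetricForm f)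
    (hκ : 3 ≤ Fintype.card κ) :
    ∃ w a y : κ → F, f w w ≠ 0 ∧ f a a = f w w ∧ f w a = 0 ∧ y ≠ 0 ∧ f y w = 0 ∧ f y a = 0 := by
  obtain ⟨d₁, d₂, d₃, hd₁, hd₂, hd₃, o12, o13, o23⟩ := exists_three_orth hq hf hκ
  have hb := hf.bilinear
  have o21 : f d₂ d₁ = 0 := by rw [hf.symm]; exact o12
  have o31 : f d₃ d₁ = 0 := by rw [hf.symm]; exact o13
  have o32 : f d₃ d₂ = 0 := by rw [hf.symm]; exact o23
  have hne : ∀ {d : κ → F}, f d d ≠ 0 → d ≠ 0 := by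
    intro d hd h0
    rw [h0, bf_zero_left hb] at hd
    exact hd rfl
  by_cases e12 : f d₂ d₂ = f d₁ d₁
  · exact ⟨d₁, d₂, d₃, hd₁, e12, o12, hne hd₃, o31, o32⟩
  · by_cases e13 : f d₃ d₃ = f d₁ d₁
    · exact ⟨d₁, d₃, d₂, hd₁, e13, o13, hne hd₂, o21, o23⟩
    · have e23 : f d₃ d₃ = f d₂ d₂ := by
        rcases eq_one_or_neg_one3 hq hd₁ with h1 | h1 <;>
          rcases eq_one_or_neg_one3 hq hd₂ with h2' | h2' <;>
          rcases eq_one_or_neg_one3 hq hd₃ with h3' | h3'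
        all_goals first
          | exact absurd (h2'.trans h1.symm) e12
          | exact absurd (h3'.trans h1.symm) e13
          | exact h3'.trans h2'.symm
      exact ⟨d₂, d₃, d₁, hd₂, e23, o23, hne hd₁, o12, o13⟩

end Orth


section OTensor

variable {n₂ : ℕ} {e : ι ≃ Fin 3 × Fin n₂} {P : GL ι F}
  {f₁ : (Fin 3 → F) → (Fin 3 → F) → F} {f₂ : (Fin n₂ → F) → (Fin n₂ → F) → F} {c : F}

/-- The pure tensors whose first factor is a special vector. -/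
def ST (e : ι ≃ Fin 3 × Fin n₂) (P : GL ι F) (f₁ : (Fin 3 → F) → (Fin 3 → F) → F) : Set (ι → F) :=
  {x | ∃ (v : Fin 3 → F) (w : Fin n₂ → F), NN f₁ v ∧ x = emb e P (tv v w)}

omit [Fintype F] in
theorem ot_maps (hf₁ : Cfsg.Geo.IsSymmetricForm f₁) (hf₂ : Cfsg.Geo.IsSymmetricForm f₂)
    (hc0 : c ≠ 0)
    (hc : ∀ x y : Fin 3 × Fin n₂ → F,
      QuadraticMap.polar Q ((P : Matrix ι ι F) *ᵥ (x ∘ e)) ((P : Matrix ι ι F) *ᵥ (y ∘ e)) =
      c * Cfsg.Geo.formOfGram (id : F → F)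
        (Cfsg.Geo.gramMatrix f₁ ⊗ₖ Cfsg.Geo.gramMatrix f₂) x y)
    {w₀ : Fin n₂ → F} (hw₀ : w₀ ≠ 0)
    {g : GL ι F} (hg : g ∈ Cfsg.Geo.tensorProductSubgroup 3 n₂ e P)
    (hgI : g ∈ Cfsg.isometryGroup F Q) (x : ι → F) (hx : x ∈ ST e P f₁) :
    (g : Matrix ι ι F) *ᵥ x ∈ ST e P f₁ := by
  obtain ⟨a, b, hab⟩ := tensor_act hg
  obtain ⟨v, w, hv, rfl⟩ := hx
  obtain ⟨⟨w₁, hw₁⟩, -⟩ := hf₂.nondegenerate w₀ hw₀
  refine ⟨(a : Matrix (Fin 3) (Fin 3) F) *ᵥ v, (b : Matrix (Fin n₂) (Fin n₂) F) *ᵥ w, ?_, ?_⟩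
  · apply hv.similarity a
      (f₂ ((b : Matrix (Fin n₂) (Fin n₂) F) *ᵥ w₁) ((b : Matrix (Fin n₂) (Fin n₂) F) *ᵥ w₀) / f₂ w₁ w₀)
    intro x y
    have h1 := isometry_polar hgI (emb e P (tv x w₁)) (emb e P (tv y w₀))
    rw [hab, hab, kron_tv, kron_tv, pair_tv hf₁.bilinear hf₂.bilinear hc,
      pair_tv hf₁.bilinear hf₂.bilinear hc] at h1
    have h2 := mul_left_cancel₀ hc0 h1
    field_simp
    linear_combination h2
  · rw [hab, kron_tv]

omit [Fintype F] in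
theorem ot_le (hf₁ : Cfsg.Geo.IsSymmetricForm f₁) (hf₂ : Cfsg.Geo.IsSymmetricForm f₂)
    (hc0 : c ≠ 0)
    (hc : ∀ x y : Fin 3 × Fin n₂ → F,
      QuadraticMap.polar Q ((P : Matrix ι ι F) *ᵥ (x ∘ e)) ((P : Matrix ι ι F) *ᵥ (y ∘ e)) =
      c * Cfsg.Geo.formOfGram (id : F → F)
        (Cfsg.Geo.gramMatrix f₁ ⊗ₖ Cfsg.Geo.gramMatrix f₂) x y)
    {w₀ : Fin n₂ → F} (hw₀ : w₀ ≠ 0) :
    Cfsg.Geo.tensorProductSubgroup 3 n₂ e P ⊓ Cfsg.Geo.omegaGL Q ≤
      KX (ST e P f₁) ⊓ Cfsg.Geo.omegaGL Q := by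
  rintro g ⟨hg, hgO⟩
  have hgI := omega_le_isometry Q hgO
  refine ⟨fun x => ⟨ot_maps hf₁ hf₂ hc0 hc hw₀ hg hgI x, fun h => ?_⟩, hgO⟩
  have := ot_maps hf₁ hf₂ hc0 hc hw₀ (Subgroup.inv_mem _ hg) (Subgroup.inv_mem _ hgI) _ h
  rwa [Matrix.mulVec_mulVec, ← Units.val_mul, inv_mul_cancel, Units.val_one, Matrix.one_mulVec] at this

variable {ε : F} {d₁ d₂ d₃ : Fin 3 → F}

theorem rr_maps (hq : Fintype.card F = 3) (hQ : IsQF Q) (hf₁ : Cfsg.Geo.IsSymmetricForm f₁)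
    (hf₂ : Cfsg.Geo.IsSymmetricForm f₂)
    (hc : ∀ x y : Fin 3 × Fin n₂ → F,
      QuadraticMap.polar Q ((P : Matrix ι ι F) *ᵥ (x ∘ e)) ((P : Matrix ι ι F) *ᵥ (y ∘ e)) =
      c * Cfsg.Geo.formOfGram (id : F → F)
        (Cfsg.Geo.gramMatrix f₁ ⊗ₖ Cfsg.Geo.gramMatrix f₂) x y)
    (hfr : IsFrame f₁ ε d₁ d₂ d₃) (u : Fin n₂ → F)
    (hz : QuadraticMap.polar Q (emb e P (tv d₁ u)) (emb e P (tv d₁ u)) ≠ 0)
    (x : ι → F) (hx : x ∈ ST e P f₁) :
    ((rr hq hQ _ hz : GL ι F) : Matrix ι ι F) *ᵥ x ∈ ST e P f₁ := by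
  have hb₁ := hf₁.bilinear
  have hb₂ := hf₂.bilinear
  obtain ⟨v, w, hv, rfl⟩ := hx
  rw [rr_mulVec]
  generalize QuadraticMap.polar Q (emb e P (tv d₁ u)) (emb e P (tv d₁ u)) = β
  rw [pair_tv hb₁ hb₂ hc]
  obtain ⟨s, h | h | h⟩ := hfr.of_nn hq hf₁ hv
  · subst h
    refine ⟨d₁, s • w + (c * (f₁ (s • d₁) d₁ * f₂ w u) * β) • u, hfr.nn1 hq hf₁, ?_⟩
    rw [tv_add_right, tv_smul_right, tv_smul_right, tv_smul_left, emb_add, emb_smul, emb_smul]
  · subst h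
    rw [hb₁.smul_left, hf₁.symm d₂ d₁, hfr.o12, mul_zero, zero_mul, mul_zero, zero_mul, zero_smul,
      add_zero]
    exact ⟨s • d₂, w, hv, rfl⟩
  · subst h
    rw [hb₁.smul_left, hf₁.symm d₃ d₁, hfr.o13, mul_zero, zero_mul, mul_zero, zero_mul, zero_smul,
      add_zero]
    exact ⟨s • d₃, w, hv, rfl⟩

theorem rr_mem_KX (hq : Fintype.card F = 3) (hQ : IsQF Q) (hf₁ : Cfsg.Geo.IsSymmetricForm f₁)
    (hf₂ : Cfsg.Geo.IsSymmetricForm f₂)
    (hc : ∀ x y : Fin 3 × Fin n₂ → F,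
      QuadraticMap.polar Q ((P : Matrix ι ι F) *ᵥ (x ∘ e)) ((P : Matrix ι ι F) *ᵥ (y ∘ e)) =
      c * Cfsg.Geo.formOfGram (id : F → F)
        (Cfsg.Geo.gramMatrix f₁ ⊗ₖ Cfsg.Geo.gramMatrix f₂) x y)
    (hfr : IsFrame f₁ ε d₁ d₂ d₃) (u : Fin n₂ → F)
    (hz : QuadraticMap.polar Q (emb e P (tv d₁ u)) (emb e P (tv d₁ u)) ≠ 0) :
    rr hq hQ _ hz ∈ KX (ST e P f₁) := by
  intro x
  refine ⟨rr_maps hq hQ hf₁ hf₂ hc hfr u hz x, fun h => ?_⟩
  have := rr_maps hq hQ hf₁ hf₂ hc hfr u hz _ h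
  rwa [rr_invol] at this

theorem rr_d1 (hq : Fintype.card F = 3) (hQ : IsQF Q) (hf₁ : Cfsg.Geo.IsSymmetricForm f₁)
    (hf₂ : Cfsg.Geo.IsSymmetricForm f₂) (hc0 : c ≠ 0)
    (hc : ∀ x y : Fin 3 × Fin n₂ → F,
      QuadraticMap.polar Q ((P : Matrix ι ι F) *ᵥ (x ∘ e)) ((P : Matrix ι ι F) *ᵥ (y ∘ e)) =
      c * Cfsg.Geo.formOfGram (id : F → F)
        (Cfsg.Geo.gramMatrix f₁ ⊗ₖ Cfsg.Geo.gramMatrix f₂) x y)
    (hfr : IsFrame f₁ ε d₁ d₂ d₃) (u : Fin n₂ → F)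
    (hz : QuadraticMap.polar Q (emb e P (tv d₁ u)) (emb e P (tv d₁ u)) ≠ 0) (t : Fin n₂ → F) :
    ((rr hq hQ _ hz : GL ι F) : Matrix ι ι F) *ᵥ emb e P (tv d₁ t) =
      emb e P (tv d₁ (t + (f₂ t u * f₂ u u) • u)) := by
  have hb₁ := hf₁.bilinear
  have hb₂ := hf₂.bilinear
  have hc2 := sq_eq_one3 hq hc0
  have hε2 := sq_eq_one3 hq hfr.ne
  rw [rr_mulVec, pair_tv hb₁ hb₂ hc, pair_tv hb₁ hb₂ hc, hfr.n1]
  have : c * (ε * f₂ t u) * (c * (ε * f₂ u u)) = f₂ t u * f₂ u u := by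
    linear_combination (ε ^ 2 * f₂ t u * f₂ u u) * hc2 + (f₂ t u * f₂ u u) * hε2
  rw [this, tv_add_right, tv_smul_right, emb_add, emb_smul]

theorem w1_not_tensor (hq : Fintype.card F = 3) (hQ : IsQF Q) (hf₁ : Cfsg.Geo.IsSymmetricForm f₁)
    (hf₂ : Cfsg.Geo.IsSymmetricForm f₂) (hc0 : c ≠ 0)
    (hc : ∀ x y : Fin 3 × Fin n₂ → F,
      QuadraticMap.polar Q ((P : Matrix ι ι F) *ᵥ (x ∘ e)) ((P : Matrix ι ι F) *ᵥ (y ∘ e)) =
      c * Cfsg.Geo.formOfGram (id : F → F)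
        (Cfsg.Geo.gramMatrix f₁ ⊗ₖ Cfsg.Geo.gramMatrix f₂) x y)
    (hfr : IsFrame f₁ ε d₁ d₂ d₃) {w a y₃ : Fin n₂ → F} (hw : f₂ w w ≠ 0) (haa : f₂ a a = f₂ w w)
    (hwa : f₂ w a = 0) (hy₃ : y₃ ≠ 0) (hyw : f₂ y₃ w = 0) (hya : f₂ y₃ a = 0)
    (hx : QuadraticMap.polar Q (emb e P (tv d₁ (w + a))) (emb e P (tv d₁ (w + a))) ≠ 0)
    (hy : QuadraticMap.polar Q (emb e P (tv d₁ w)) (emb e P (tv d₁ w)) ≠ 0) :
    cc hq hQ _ _ hx hy ∉ Cfsg.Geo.tensorProductSubgroup 3 n₂ e P := by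
  intro hmem
  obtain ⟨A, B', hab⟩ := tensor_act hmem
  have h3 := three_eq_zero hq
  have hb₁ := hf₁.bilinear
  have hb₂ := hf₂.bilinear
  have hα2 := sq_eq_one3 hq hw
  have haw : f₂ a w = 0 := by rw [hf₂.symm]; exact hwa
  have o21 : f₁ d₂ d₁ = 0 := by rw [hf₁.symm]; exact hfr.o12
  have hd₁ : d₁ ≠ 0 := by
    rintro rfl
    have := hfr.n1
    rw [bf_zero_left hb₁] at this
    exact hfr.ne this.symm
  have hd₂ : d₂ ≠ 0 := by
    rintro rfl
    have := hfr.n2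
    rw [bf_zero_left hb₁] at this
    exact hfr.ne this.symm
  have n2 : f₂ (w + a) (w + a) = 2 * f₂ w w := by
    rw [hb₂.add_left, hb₂.add_right, hb₂.add_right, hwa, haw, haa]
    ring
  have r1 : (w + y₃) + (f₂ (w + y₃) w * f₂ w w) • w = -w + y₃ := by
    rw [hb₂.add_left, hyw, add_zero]
    have : f₂ w w * f₂ w w = 1 := by linear_combination hα2
    rw [this, one_smul]
    ext i
    simp only [Pi.add_apply, Pi.neg_apply]
    linear_combination (w i) * h3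
  have r2 : (-w + y₃) + (f₂ (-w + y₃) (w + a) * f₂ (w + a) (w + a)) • (w + a) = a + y₃ := by
    have c2 : f₂ (-w + y₃) (w + a) = - f₂ w w := by
      rw [hb₂.add_left, hb₂.add_right, hb₂.add_right, bf_neg_left hb₂, bf_neg_left hb₂, hyw, hya, hwa]
      ring
    rw [c2, n2]
    have : -f₂ w w * (2 * f₂ w w) = 1 := by linear_combination (-2) * hα2 - h3
    rw [this, one_smul]
    abel
  have r3 : (a + y₃) + (f₂ (a + y₃) w * f₂ w w) • w = a + y₃ := by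
    rw [hb₂.add_left, haw, hyw, add_zero, zero_mul, zero_smul, add_zero]
  have r4 : (a + y₃) + (f₂ (a + y₃) (w + a) * f₂ (w + a) (w + a)) • (w + a) = -w + y₃ := by
    have c4 : f₂ (a + y₃) (w + a) = f₂ w w := by
      rw [hb₂.add_left, hb₂.add_right, hb₂.add_right, haw, haa, hyw, hya]
      ring
    rw [c4, n2]
    have : f₂ w w * (2 * f₂ w w) = -1 := by linear_combination 2 * hα2 + h3
    rw [this, neg_one_smul]
    abel
  have e1 := hab (tv d₁ (w + y₃))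
  rw [cc_mulVec, rr_d1 hq hQ hf₁ hf₂ hc0 hc hfr w hy, r1, rr_d1 hq hQ hf₁ hf₂ hc0 hc hfr (w + a) hx, r2,
    rr_d1 hq hQ hf₁ hf₂ hc0 hc hfr w hy, r3, rr_d1 hq hQ hf₁ hf₂ hc0 hc hfr (w + a) hx, r4,
    kron_tv] at e1
  have e1' := emb_inj e P e1
  have hfix : ∀ (u : Fin n₂ → F)
      (hz : QuadraticMap.polar Q (emb e P (tv d₁ u)) (emb e P (tv d₁ u)) ≠ 0) (t : Fin n₂ → F),
      ((rr hq hQ _ hz : GL ι F) : Matrix ι ι F) *ᵥ emb e P (tv d₂ t) = emb e P (tv d₂ t) :=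
    fun u hz t => rr_fix hq hQ _ hz _ (by rw [pair_tv hb₁ hb₂ hc, o21, zero_mul, mul_zero])
  have e2 := hab (tv d₂ (w + y₃))
  rw [cc_mulVec, hfix, hfix, hfix, hfix, kron_tv] at e2
  have e2' := emb_inj e P e2
  obtain ⟨l, hl⟩ := tv_eq_right e2'.symm hd₂
  obtain ⟨l', hl'⟩ := tv_eq_right e1'.symm hd₁
  generalize (B' : Matrix (Fin n₂) (Fin n₂) F) *ᵥ (w + y₃) = q at hl hl'
  have hl0 : l ≠ 0 := by
    rintro rfl
    rw [zero_smul] at hl
    have := congrArg (fun t => f₂ t w) hl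
    simp only [hb₂.add_left, hyw, add_zero, bf_zero_left hb₂] at this
    exact hw this
  have h5 : l • (-w + y₃) = l' • (w + y₃) := by
    calc l • (-w + y₃) = l • (l' • q) := by rw [← hl']
      _ = l' • (l • q) := smul_comm l l' q
      _ = l' • (w + y₃) := by rw [← hl]
  have h6 := congrArg (fun t => f₂ t w) h5
  simp only [hb₂.smul_left, hb₂.add_left, bf_neg_left hb₂, hyw, add_zero] at h6
  have hl'eq : l' = -l := by
    have : (l' + l) * f₂ w w = 0 := by linear_combination -h6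
    rcases mul_eq_zero.mp this with h | h
    · linear_combination h
    · exact absurd h hw
  subst hl'eq
  apply hy₃
  ext i
  have := congrFun h5 i
  simp only [Pi.smul_apply, Pi.add_apply, Pi.neg_apply, smul_eq_mul] at this
  have h7 : (2 * l) * y₃ i = 0 := by linear_combination this
  rcases mul_eq_zero.mp h7 with h | h
  · exfalso
    rcases mul_eq_zero.mp h with h | h
    · exact two_ne_zero3 hq h
    · exact hl0 h
  · exact h

theorem w2_not_K (hq : Fintype.card F = 3) (hQ : IsQF Q) (hf₁ : Cfsg.Geo.IsSymmetricForm f₁)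
    (hf₂ : Cfsg.Geo.IsSymmetricForm f₂) (hc0 : c ≠ 0)
    (hc : ∀ x y : Fin 3 × Fin n₂ → F,
      QuadraticMap.polar Q ((P : Matrix ι ι F) *ᵥ (x ∘ e)) ((P : Matrix ι ι F) *ᵥ (y ∘ e)) =
      c * Cfsg.Geo.formOfGram (id : F → F)
        (Cfsg.Geo.gramMatrix f₁ ⊗ₖ Cfsg.Geo.gramMatrix f₂) x y)
    (hfr : IsFrame f₁ ε d₁ d₂ d₃) {w a : Fin n₂ → F} (hw : f₂ w w ≠ 0) (haa : f₂ a a = f₂ w w)
    (hwa : f₂ w a = 0)
    (hx : QuadraticMap.polar Q (emb e P (tv d₁ (w + a))) (emb e P (tv d₁ (w + a))) ≠ 0)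
    (hy : QuadraticMap.polar Q (emb e P (tv (d₁ - d₂) w)) (emb e P (tv (d₁ - d₂) w)) ≠ 0) :
    cc hq hQ _ _ hx hy ∉ KX (ST e P f₁) := by
  intro hmem
  have h3 := three_eq_zero hq
  have hb₁ := hf₁.bilinear
  have hb₂ := hf₂.bilinear
  have haw : f₂ a w = 0 := by rw [hf₂.symm]; exact hwa
  have o21 : f₁ d₂ d₁ = 0 := by rw [hf₁.symm]; exact hfr.o12
  have o31 : f₁ d₃ d₁ = 0 := by rw [hf₁.symm]; exact hfr.o13
  have hxS : emb e P (tv d₁ (w + a)) ∈ ST e P f₁ := ⟨d₁, w + a, hfr.nn1 hq hf₁, rfl⟩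
  obtain ⟨v', w', hv', heq⟩ := (hmem _).mp hxS
  have hκ : c * (ε * f₂ w w) ≠ 0 := mul_ne_zero hc0 (mul_ne_zero hfr.ne hw)
  have n2 : f₂ (w + a) (w + a) = 2 * f₂ w w := by
    rw [hb₂.add_left, hb₂.add_right, hb₂.add_right, hwa, haw, haa]
    ring
  have m2 : f₁ (d₁ - d₂) (d₁ - d₂) = 2 * ε := by
    rw [bf_sub_left hb₁, bf_sub_right hb₁, bf_sub_right hb₁, hfr.n1, hfr.n2, hfr.o12, o21]
    ring
  have hxx : QuadraticMap.polar Q (emb e P (tv d₁ (w + a))) (emb e P (tv d₁ (w + a))) =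
      2 * (c * (ε * f₂ w w)) := by
    rw [pair_tv hb₁ hb₂ hc, hfr.n1, n2]
    ring
  have hyy : QuadraticMap.polar Q (emb e P (tv (d₁ - d₂) w)) (emb e P (tv (d₁ - d₂) w)) =
      2 * (c * (ε * f₂ w w)) := by
    rw [pair_tv hb₁ hb₂ hc, m2]
    ring
  have hxy : QuadraticMap.polar Q (emb e P (tv d₁ (w + a))) (emb e P (tv (d₁ - d₂) w)) =
      c * (ε * f₂ w w) := by
    rw [pair_tv hb₁ hb₂ hc, bf_sub_right hb₁, hfr.n1, hfr.o12, hb₂.add_left, haw]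
    ring
  rw [cc_self hq hQ _ _ hx hy hκ hxx hyy hxy, ← emb_sub] at heq
  have heq' := emb_inj e P heq
  have heq2 : tv d₁ (-a) + tv d₂ (-w) = tv v' w' := by
    rw [← heq']
    ext p
    simp only [tv, Pi.add_apply, Pi.sub_apply, Pi.neg_apply]
    ring
  have hslice := fun y j => slice_left hb₁.add_left hb₁.smul_left y heq2 j
  have hne : ∀ {d : Fin n₂ → F}, f₂ d d ≠ 0 → d ≠ 0 := by
    intro d hd h0
    rw [h0, bf_zero_left hb₂] at hd
    exact hd rfl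
  have ha : f₂ a a ≠ 0 := by rw [haa]; exact hw
  have key : ∀ {d : Fin n₂ → F}, (∀ j, (-d) j * ε = 0) → d = 0 := by
    intro d hh
    ext j
    have := hh j
    simp only [Pi.neg_apply] at this
    rcases mul_eq_zero.mp this with h | h
    · simpa using h
    · exact absurd h hfr.ne
  obtain ⟨s, h | h | h⟩ := hfr.of_nn hq hf₁ hv'
  · apply hne hw
    apply key
    intro j
    have := hslice d₂ j
    rw [hfr.o12, hfr.n2, h, hb₁.smul_left, hfr.o12] at this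
    linear_combination this
  · apply hne ha
    apply key
    intro j
    have := hslice d₁ j
    rw [hfr.n1, o21, h, hb₁.smul_left, o21] at this
    linear_combination this
  · apply hne ha
    apply key
    intro j
    have := hslice d₁ j
    rw [hfr.n1, o21, h, hb₁.smul_left, o31] at this
    linear_combination this

/-- Over the field with three elements, the stabiliser in `Ω(Q)` of a tensor decomposition of the
polar form into symmetric forms on a 3-space and on a space of dimension at least 3 is not maximal. -/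
theorem omega_tensor_not_max (hq : Fintype.card F = 3) (hQ : IsQF Q) (n₂ : ℕ) (h2 : 3 ≤ n₂)
    (e : ι ≃ Fin 3 × Fin n₂) (P : GL ι F) (f₁ : (Fin 3 → F) → (Fin 3 → F) → F)
    (f₂ : (Fin n₂ → F) → (Fin n₂ → F) → F) (hf₁ : Cfsg.Geo.IsSymmetricForm f₁)
    (hf₂ : Cfsg.Geo.IsSymmetricForm f₂)
    (hT : Cfsg.Geo.IsTensorFormStructure id (QuadraticMap.polar Q) f₁ f₂ e P) :
    ∃ K : Subgroup (GL ι F), Cfsg.Geo.tensorProductSubgroup 3 n₂ e P ⊓ Cfsg.Geo.omegaGL Q < K ∧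
      K < Cfsg.Geo.omegaGL Q := by
  obtain ⟨c, hc0, hc⟩ := hT
  obtain ⟨ε, d₁, d₂, d₃, hfr⟩ := exists_frame hq hf₁
  obtain ⟨w, a, y₃, hw, haa, hwa, hy₃, hyw, hya⟩ := exists_pair_eq hq hf₂ (by simpa using h2)
  have hb₁ := hf₁.bilinear
  have hb₂ := hf₂.bilinear
  have haw : f₂ a w = 0 := by rw [hf₂.symm]; exact hwa
  have o21 : f₁ d₂ d₁ = 0 := by rw [hf₁.symm]; exact hfr.o12
  have n2 : f₂ (w + a) (w + a) = 2 * f₂ w w := by
    rw [hb₂.add_left, hb₂.add_right, hb₂.add_right, hwa, haw, haa]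
    ring
  have m2 : f₁ (d₁ - d₂) (d₁ - d₂) = 2 * ε := by
    rw [bf_sub_left hb₁, bf_sub_right hb₁, bf_sub_right hb₁, hfr.n1, hfr.n2, hfr.o12, o21]
    ring
  have hX : QuadraticMap.polar Q (emb e P (tv d₁ (w + a))) (emb e P (tv d₁ (w + a))) ≠ 0 := by
    rw [pair_tv hb₁ hb₂ hc, hfr.n1, n2]
    exact mul_ne_zero hc0 (mul_ne_zero hfr.ne (mul_ne_zero (two_ne_zero3 hq) hw))
  have hY1 : QuadraticMap.polar Q (emb e P (tv d₁ w)) (emb e P (tv d₁ w)) ≠ 0 := by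
    rw [pair_tv hb₁ hb₂ hc, hfr.n1]
    exact mul_ne_zero hc0 (mul_ne_zero hfr.ne hw)
  have hY2 : QuadraticMap.polar Q (emb e P (tv (d₁ - d₂) w)) (emb e P (tv (d₁ - d₂) w)) ≠ 0 := by
    rw [pair_tv hb₁ hb₂ hc, m2]
    exact mul_ne_zero hc0 (mul_ne_zero (mul_ne_zero (two_ne_zero3 hq) hfr.ne) hw)
  have hw₀ : w ≠ 0 := by
    intro h0
    rw [h0, bf_zero_left hb₂] at hw
    exact hw rfl
  refine ⟨KX (ST e P f₁) ⊓ Cfsg.Geo.omegaGL Q, ?_, ?_⟩
  · rw [lt_iff_le_and_ne]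
    refine ⟨ot_le hf₁ hf₂ hc0 hc hw₀, ?_⟩
    intro heq
    have hmem : cc hq hQ _ _ hX hY1 ∈ KX (ST e P f₁) ⊓ Cfsg.Geo.omegaGL Q := by
      refine ⟨?_, cc_mem_omega hq hQ _ _ hX hY1⟩
      have k1 := rr_mem_KX hq hQ hf₁ hf₂ hc hfr (w + a) hX
      have k2 := rr_mem_KX hq hQ hf₁ hf₂ hc hfr w hY1
      unfold cc
      exact Subgroup.mul_mem _ (Subgroup.mul_mem _ (Subgroup.mul_mem _ k1 k2) k1) k2
    rw [← heq] at hmem
    exact w1_not_tensor hq hQ hf₁ hf₂ hc0 hc hfr hw haa hwa hy₃ hyw hya hX hY1 hmem.1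
  · rw [lt_iff_le_and_ne]
    refine ⟨inf_le_right, ?_⟩
    intro heq
    have hmem : cc hq hQ _ _ hX hY2 ∈ KX (ST e P f₁) ⊓ Cfsg.Geo.omegaGL Q := by
      rw [heq]
      exact cc_mem_omega hq hQ _ _ hX hY2
    exact w2_not_K hq hQ hf₁ hf₂ hc0 hc hfr hw haa hwa hX hY2 hmem.1

end OTensor

end F3

end Cfsg.Agent.Lib.Helper13.OmegaF3
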