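import Mathlib
import Cfsg.Prelude.Def_GeometricClasses
import Cfsg.Agent.Lib.Helper13.OmegaF3

set_option autoImplicit false
open Cfsg

namespace Cfsg.Agent.Lib.Helper13.OmegaDecomp

open Matrix
open Cfsg.Agent.Lib.Helper13.TensorF3 Cfsg.Agent.Lib.Helper13.OmegaF3

variable {ι : Type} [Fintype ι] [DecidableEq ι] {F : Type*} [Field F] [Fintype F]
  {Q : (ι → F) → F} {t : ℕ} {D : Fin t → Submodule F (ι → F)}

/-- The vectors of norm `β` lying in a member of the decomposition. -/
def XS (Q : (ι → F) → F) (D : Fin t → Submodule F (ι → F)) (β : F) : Set (ι → F) :=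
  {x | ∃ i, x ∈ D i ∧ QuadraticMap.polar Q x x = β}

omit [Fintype F] in
theorem stab_le (β : F) :
    Cfsg.Geo.decompositionStabilizer D ⊓ Cfsg.Geo.omegaGL Q ≤ KX (XS Q D β) ⊓ Cfsg.Geo.omegaGL Q := by
  rintro g ⟨hg, hgO⟩
  have key : ∀ g : GL ι F, g ∈ Cfsg.Geo.decompositionStabilizer D → g ∈ Cfsg.isometryGroup F Q →
      ∀ x ∈ XS Q D β, (g : Matrix ι ι F) *ᵥ x ∈ XS Q D β := by
    rintro g ⟨σ, hσ⟩ hgI x ⟨i, hi, hx⟩
    refine ⟨σ i, ?_, ?_⟩
    · rw [← hσ i, ← Matrix.toLin'_apply]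
      exact Submodule.mem_map_of_mem hi
    · rw [isometry_polar hgI]
      exact hx
  have hgI := omega_le_isometry Q hgO
  refine ⟨fun x => ⟨key g hg hgI x, fun h => ?_⟩, hgO⟩
  have := key g⁻¹ (Subgroup.inv_mem _ hg) (Subgroup.inv_mem _ hgI) _ h
  rwa [Matrix.mulVec_mulVec, ← Units.val_mul, inv_mul_cancel, Units.val_one, Matrix.one_mulVec] at this

section Swap

variable {β : F} {a b : ι → F}

omit [Fintype F] in
theorem swap_norm (hQ : IsQF Q) (haa : QuadraticMap.polar Q a a = β)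
    (hbb : QuadraticMap.polar Q b b = β) (hab : QuadraticMap.polar Q a b = 0) :
    QuadraticMap.polar Q (a - b) (a - b) = 2 * β := by
  have hb := hQ.bil
  have hba : QuadraticMap.polar Q b a = 0 := by rw [polar_symm]; exact hab
  rw [bf_sub_left hb, bf_sub_right hb, bf_sub_right hb, haa, hbb, hab, hba]
  ring

theorem swap_left (hq : Fintype.card F = 3) (hQ : IsQF Q) (hβ : β ≠ 0)
    (haa : QuadraticMap.polar Q a a = β) (hbb : QuadraticMap.polar Q b b = β)
    (hab : QuadraticMap.polar Q a b = 0) (hz : QuadraticMap.polar Q (a - b) (a - b) ≠ 0) :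
    ((rr hq hQ (a - b) hz : GL ι F) : Matrix ι ι F) *ᵥ a = b := by
  have hb := hQ.bil
  have h3 := three_eq_zero hq
  have hβ2 := sq_eq_one3 hq hβ
  rw [rr_mulVec, swap_norm hQ haa hbb hab, bf_sub_right hb, haa, hab]
  have : (β - 0) * (2 * β) = -1 := by linear_combination 2 * hβ2 + h3
  rw [this, neg_one_smul]
  abel

theorem swap_right (hq : Fintype.card F = 3) (hQ : IsQF Q) (hβ : β ≠ 0)
    (haa : QuadraticMap.polar Q a a = β) (hbb : QuadraticMap.polar Q b b = β)
    (hab : QuadraticMap.polar Q a b = 0) (hz : QuadraticMap.polar Q (a - b) (a - b) ≠ 0) :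
    ((rr hq hQ (a - b) hz : GL ι F) : Matrix ι ι F) *ᵥ b = a := by
  have hb := hQ.bil
  have h3 := three_eq_zero hq
  have hβ2 := sq_eq_one3 hq hβ
  have hba : QuadraticMap.polar Q b a = 0 := by rw [polar_symm]; exact hab
  rw [rr_mulVec, swap_norm hQ haa hbb hab, bf_sub_right hb, hbb, hba]
  have : (0 - β) * (2 * β) = 1 := by linear_combination (-2) * hβ2 - h3
  rw [this, one_smul]
  abel

theorem swap_fix (hq : Fintype.card F = 3) (hQ : IsQF Q)
    (hz : QuadraticMap.polar Q (a - b) (a - b) ≠ 0) {x : ι → F}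
    (hxa : QuadraticMap.polar Q x a = 0) (hxb : QuadraticMap.polar Q x b = 0) :
    ((rr hq hQ (a - b) hz : GL ι F) : Matrix ι ι F) *ᵥ x = x := by
  apply rr_fix
  rw [bf_sub_right hQ.bil, hxa, hxb, sub_zero]

omit [Fintype ι] [DecidableEq ι] [Fintype F] in
theorem neg_mem_XS (hQ : IsQF Q) {x : ι → F} (hx : x ∈ XS Q D β) : -x ∈ XS Q D β := by
  obtain ⟨i, hi, hxx⟩ := hx
  refine ⟨i, (D i).neg_mem hi, ?_⟩
  have h1 := hQ.bil.smul_left (-1) x (-x)
  have h2 := hQ.bil.smul_right (-1) x x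
  simp only [neg_smul, one_smul] at h1 h2
  rw [h1, h2, hxx]
  ring

theorem swap_mem_KX (hq : Fintype.card F = 3) (hQ : IsQF Q) (hβ : β ≠ 0)
    (ha : a ∈ XS Q D β) (hb : b ∈ XS Q D β)
    (haa : QuadraticMap.polar Q a a = β) (hbb : QuadraticMap.polar Q b b = β)
    (hab : QuadraticMap.polar Q a b = 0)
    (hfa : ∀ x ∈ XS Q D β, x = a ∨ x = -a ∨ QuadraticMap.polar Q x a = 0)
    (hfb : ∀ x ∈ XS Q D β, x = b ∨ x = -b ∨ QuadraticMap.polar Q x b = 0)
    (hz : QuadraticMap.polar Q (a - b) (a - b) ≠ 0) :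
    rr hq hQ (a - b) hz ∈ KX (XS Q D β) := by
  have key : ∀ x ∈ XS Q D β, ((rr hq hQ (a - b) hz : GL ι F) : Matrix ι ι F) *ᵥ x ∈ XS Q D β := by
    intro x hx
    rcases hfa x hx with h | h | h
    · rw [h, swap_left hq hQ hβ haa hbb hab hz]
      exact hb
    · rw [h, Matrix.mulVec_neg, swap_left hq hQ hβ haa hbb hab hz]
      exact neg_mem_XS hQ hb
    · rcases hfb x hx with h' | h' | h'
      · rw [h', swap_right hq hQ hβ haa hbb hab hz]
        exact ha
      · rw [h', Matrix.mulVec_neg, swap_right hq hQ hβ haa hbb hab hz]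
        exact neg_mem_XS hQ ha
      · rw [swap_fix hq hQ hz h h']
        exact hx
  intro x
  refine ⟨key x, fun h => ?_⟩
  have := key _ h
  rwa [rr_invol] at this

end Swap

/-- A member of the decomposition has two orthogonal vectors of norm `β`, and any two of its vectors
of norm `β` are equal, opposite or orthogonal. -/
def EU (Q : (ι → F) → F) (W : Submodule F (ι → F)) (β : F) : Prop :=
  (∃ a ∈ W, ∃ b ∈ W, QuadraticMap.polar Q a a = β ∧ QuadraticMap.polar Q b b = β ∧
    QuadraticMap.polar Q a b = 0) ∧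
  (∀ x ∈ W, ∀ y ∈ W, QuadraticMap.polar Q x x = β → QuadraticMap.polar Q y y = β →
    x = y ∨ x = -y ∨ QuadraticMap.polar Q x y = 0)

/-- Over the field with three elements, the stabiliser in `Ω(Q)` of an orthogonal decomposition whose
members carry compatible orthogonal frames is not maximal. -/
theorem decomp_not_max (hq : Fintype.card F = 3) (hQ : IsQF Q)
    (horth : ∀ i j, i ≠ j → Cfsg.Geo.AreOrthogonalFor (QuadraticMap.polar Q) (D i) (D j))
    {β : F} (hβ : β ≠ 0) {i₁ i₂ : Fin t} (hi : i₁ ≠ i₂) (hEU : ∀ i, EU Q (D i) β) :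
    ∃ K : Subgroup (GL ι F), Cfsg.Geo.decompositionStabilizer D ⊓ Cfsg.Geo.omegaGL Q < K ∧
      K < Cfsg.Geo.omegaGL Q := by
  have hb := hQ.bil
  have h3 := three_eq_zero hq
  obtain ⟨a, ha, b, hbm, haa, hbb, hab⟩ := (hEU i₁).1
  obtain ⟨c, hc, d, hd, hcc, hdd, hcd⟩ := (hEU i₂).1
  have hf : ∀ {u : ι → F} {j : Fin t}, u ∈ D j → QuadraticMap.polar Q u u = β →
      ∀ x ∈ XS Q D β, x = u ∨ x = -u ∨ QuadraticMap.polar Q x u = 0 := by
    rintro u j hu huu x ⟨i, hxi, hx⟩
    by_cases hij : i = j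
    · subst hij
      exact (hEU i).2 x hxi u hu hx huu
    · right; right
      exact horth i j hij x hxi u hu
  have hac : QuadraticMap.polar Q a c = 0 := horth i₁ i₂ hi a ha c hc
  have had : QuadraticMap.polar Q a d = 0 := horth i₁ i₂ hi a ha d hd
  have hbc : QuadraticMap.polar Q b c = 0 := horth i₁ i₂ hi b hbm c hc
  have hbd : QuadraticMap.polar Q b d = 0 := horth i₁ i₂ hi b hbm d hd
  have hba : QuadraticMap.polar Q b a = 0 := by rw [polar_symm]; exact hab
  have hca : QuadraticMap.polar Q c a = 0 := by rw [polar_symm]; exact hac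
  have hda : QuadraticMap.polar Q d a = 0 := by rw [polar_symm]; exact had
  have hcb : QuadraticMap.polar Q c b = 0 := by rw [polar_symm]; exact hbc
  have hdb : QuadraticMap.polar Q d b = 0 := by rw [polar_symm]; exact hbd
  have hdc : QuadraticMap.polar Q d c = 0 := by rw [polar_symm]; exact hcd
  have haX : a ∈ XS Q D β := ⟨i₁, ha, haa⟩
  have hbX : b ∈ XS Q D β := ⟨i₁, hbm, hbb⟩
  have hcX : c ∈ XS Q D β := ⟨i₂, hc, hcc⟩
  have h2β : (2 : F) * β ≠ 0 := mul_ne_zero (two_ne_zero3 hq) hβ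
  have hzab : QuadraticMap.polar Q (a - b) (a - b) ≠ 0 := by
    rw [swap_norm hQ haa hbb hab]
    exact h2β
  have hzbc : QuadraticMap.polar Q (b - c) (b - c) ≠ 0 := by
    rw [swap_norm hQ hbb hcc hbc]
    exact h2β
  refine ⟨KX (XS Q D β) ⊓ Cfsg.Geo.omegaGL Q, ?_, ?_⟩
  · rw [lt_iff_le_and_ne]
    refine ⟨stab_le β, ?_⟩
    intro heq
    have hmem : cc hq hQ _ _ hzab hzbc ∈ KX (XS Q D β) ⊓ Cfsg.Geo.omegaGL Q := by
      refine ⟨?_, cc_mem_omega hq hQ _ _ hzab hzbc⟩
      have k1 := swap_mem_KX hq hQ hβ haX hbX haa hbb hab (hf ha haa) (hf hbm hbb) hzab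
      have k2 := swap_mem_KX hq hQ hβ hbX hcX hbb hcc hbc (hf hbm hbb) (hf hc hcc) hzbc
      unfold cc
      exact Subgroup.mul_mem _ (Subgroup.mul_mem _ (Subgroup.mul_mem _ k1 k2) k1) k2
    rw [← heq] at hmem
    obtain ⟨σ, hσ⟩ := hmem.1
    have hWa : ((cc hq hQ _ _ hzab hzbc : GL ι F) : Matrix ι ι F) *ᵥ a = c := by
      rw [cc_mulVec, swap_fix hq hQ hzbc hab hac, swap_left hq hQ hβ haa hbb hab hzab,
        swap_left hq hQ hβ hbb hcc hbc hzbc, swap_fix hq hQ hzab hca hcb]
    have hWb : ((cc hq hQ _ _ hzab hzbc : GL ι F) : Matrix ι ι F) *ᵥ b = a := by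
      rw [cc_mulVec, swap_left hq hQ hβ hbb hcc hbc hzbc, swap_fix hq hQ hzab hca hcb,
        swap_right hq hQ hβ hbb hcc hbc hzbc, swap_right hq hQ hβ haa hbb hab hzab]
    have hc' : c ∈ D (σ i₁) := by
      rw [← hσ i₁]
      have := Submodule.mem_map_of_mem
        (f := Matrix.toLin' ((cc hq hQ _ _ hzab hzbc : GL ι F) : Matrix ι ι F)) ha
      rw [Matrix.toLin'_apply, hWa] at this
      exact this
    have ha' : a ∈ D (σ i₁) := by
      rw [← hσ i₁]
      have := Submodule.mem_map_of_mem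
        (f := Matrix.toLin' ((cc hq hQ _ _ hzab hzbc : GL ι F) : Matrix ι ι F)) hbm
      rw [Matrix.toLin'_apply, hWb] at this
      exact this
    have hσ1 : σ i₁ = i₂ := by
      by_contra hne
      have := horth (σ i₁) i₂ hne c hc' c hc
      rw [hcc] at this
      exact hβ this
    rw [hσ1] at ha'
    have := horth i₁ i₂ hi a ha a ha'
    rw [haa] at this
    exact hβ this
  · rw [lt_iff_le_and_ne]
    refine ⟨inf_le_right, ?_⟩
    intro heq
    have hyy : QuadraticMap.polar Q (-a + (b + c + d)) (-a + (b + c + d)) = β := by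
      simp only [hb.add_left, hb.add_right, bf_neg_left hb, bf_neg_right hb, haa, hbb, hcc, hdd, hab,
        hac, had, hbc, hbd, hcd, hba, hca, hda, hcb, hdb, hdc]
      linear_combination β * h3
    have hay : QuadraticMap.polar Q a (-a + (b + c + d)) = -β := by
      simp only [hb.add_right, bf_neg_right hb, haa, hab, hac, had]
      ring
    have hx0 : QuadraticMap.polar Q a a ≠ 0 := by rw [haa]; exact hβ
    have hy0 : QuadraticMap.polar Q (-a + (b + c + d)) (-a + (b + c + d)) ≠ 0 := by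
      rw [hyy]; exact hβ
    have hmem : cc hq hQ _ _ hx0 hy0 ∈ KX (XS Q D β) ⊓ Cfsg.Geo.omegaGL Q := by
      rw [heq]
      exact cc_mem_omega hq hQ _ _ hx0 hy0
    have hcs := cc_self hq hQ _ _ hx0 hy0 (neg_ne_zero.mpr hβ)
      (by rw [haa]; linear_combination β * h3) (by rw [hyy]; linear_combination β * h3) hay
    have himg := (hmem.1 a).mp haX
    rw [hcs] at himg
    have e1 : QuadraticMap.polar Q (-a + (b + c + d) - a) b = β := by
      simp only [bf_sub_left hb, hb.add_left, bf_neg_left hb, hab, hbb, hcb, hdb]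
      ring
    have e2 : QuadraticMap.polar Q (-a + (b + c + d) - a) a = β := by
      simp only [bf_sub_left hb, hb.add_left, bf_neg_left hb, haa, hba, hca, hda]
      linear_combination (-β) * h3
    rcases hf ha haa _ himg with h | h | h
    · rw [h, hab] at e1
      exact hβ e1.symm
    · rw [h, bf_neg_left hb, hab, neg_zero] at e1
      exact hβ e1.symm
    · rw [h] at e2
      exact hβ e2.symm


theorem eq_or_neg3 (hq : Fintype.card F = 3) {s r : F} (hs : s ≠ 0) (hr : r ≠ 0) : s = r ∨ s = -r := by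
  rcases eq_one_or_neg_one3 hq hs with h1 | h1 <;> rcases eq_one_or_neg_one3 hq hr with h2 | h2
  · left; rw [h1, h2]
  · right; rw [h1, h2, neg_neg]
  · right; rw [h1, h2]
  · left; rw [h1, h2]

omit [Fintype ι] [DecidableEq ι] [Fintype F] in
/-- Transport along an isometry. -/
theorem EU.transport {W W' : Submodule F (ι → F)} {β : F} (h : EU Q W β)
    (hiso : Cfsg.Geo.AreIsometricFor Q W W') : EU Q W' β := by
  obtain ⟨e, he⟩ := hiso
  have hpol : ∀ x y : W, QuadraticMap.polar Q ((e x : W') : ι → F) ((e y : W') : ι → F) =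
      QuadraticMap.polar Q (x : ι → F) (y : ι → F) := by
    intro x y
    unfold QuadraticMap.polar
    rw [← Submodule.coe_add, ← map_add, he, he, he, Submodule.coe_add]
  obtain ⟨⟨a, ha, b, hb, haa, hbb, hab⟩, hU⟩ := h
  refine ⟨⟨e ⟨a, ha⟩, (e ⟨a, ha⟩).2, e ⟨b, hb⟩, (e ⟨b, hb⟩).2, ?_, ?_, ?_⟩, ?_⟩
  · rw [hpol]; exact haa
  · rw [hpol]; exact hbb
  · rw [hpol]; exact hab
  · intro x hx y hy hxx hyy
    have ex : ((e (e.symm ⟨x, hx⟩) : W') : ι → F) = x := by rw [LinearEquiv.apply_symm_apply]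
    have ey : ((e (e.symm ⟨y, hy⟩) : W') : ι → F) = y := by rw [LinearEquiv.apply_symm_apply]
    have h1 := hU (e.symm ⟨x, hx⟩) (e.symm ⟨x, hx⟩).2 (e.symm ⟨y, hy⟩) (e.symm ⟨y, hy⟩).2
      (by rw [← hpol, ex]; exact hxx) (by rw [← hpol, ey]; exact hyy)
    rcases h1 with h | h | h
    · left
      have := e.symm.injective (Subtype.ext h)
      exact congrArg Subtype.val this
    · right; left
      have h' : e.symm ⟨x, hx⟩ = e.symm (-⟨y, hy⟩) := by
        rw [map_neg]
        exact Subtype.ext h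
      have := e.symm.injective h'
      exact congrArg Subtype.val this
    · right; right
      rw [← ex, ← ey, hpol]
      exact h

/-- An anisotropic plane over the field with three elements. -/
theorem plane_EU (hq : Fintype.card F = 3) (hQ : IsQF Q) {W : Submodule F (ι → F)}
    (hdim : Module.finrank F W = 2) (haniso : ¬ Cfsg.Geo.IsPlusTypeOn Q W) {β : F} (hβ : β ≠ 0) :
    EU Q W β := by
  have hb := hQ.bil
  have h3 := three_eq_zero hq
  have han : ∀ u ∈ W, QuadraticMap.polar Q u u = 0 → u = 0 := by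
    intro u hu huu
    by_contra hu0
    apply haniso
    refine ⟨Submodule.span F {u}, ?_, ?_, ?_⟩
    · rw [Submodule.span_singleton_le_iff_mem]
      exact hu
    · intro w hw
      obtain ⟨c, rfl⟩ := Submodule.mem_span_singleton.mp hw
      rw [hQ.smul, Q_eq_neg_polar hq hQ, huu]
      ring
    · rw [finrank_span_singleton hu0, hdim]
  obtain ⟨u, hu, hu0⟩ : ∃ u ∈ W, u ≠ 0 := by
    have : W ≠ ⊥ := by
      intro h
      rw [h, finrank_bot] at hdim
      omega
    exact Submodule.exists_mem_ne_zero_of_ne_bot this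
  have hα : QuadraticMap.polar Q u u ≠ 0 := fun h => hu0 (han u hu h)
  obtain ⟨x, hx, hxu⟩ : ∃ x ∈ W, x ∉ Submodule.span F {u} := by
    by_contra hcon
    push Not at hcon
    have hle : W ≤ Submodule.span F {u} := hcon
    have := Submodule.finrank_mono hle
    rw [hdim, finrank_span_singleton hu0] at this
    omega
  obtain ⟨u', hu'def⟩ : ∃ u', u' = x - (QuadraticMap.polar Q x u / QuadraticMap.polar Q u u) • u :=
    ⟨_, rfl⟩
  have hu' : u' ∈ W := by
    rw [hu'def]
    exact W.sub_mem hx (W.smul_mem _ hu)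
  have hu'u : QuadraticMap.polar Q u' u = 0 := by
    rw [hu'def, bf_sub_left hb, hb.smul_left]
    field_simp
    ring
  have hu'0 : u' ≠ 0 := by
    intro h0
    apply hxu
    rw [hu'def] at h0
    rw [sub_eq_zero.mp h0]
    exact Submodule.smul_mem _ _ (Submodule.mem_span_singleton_self u)
  have hα' : QuadraticMap.polar Q u' u' ≠ 0 := fun h => hu'0 (han u' hu' h)
  have huu' : QuadraticMap.polar Q u u' = 0 := by rw [polar_symm]; exact hu'u
  have heq : QuadraticMap.polar Q u' u' = QuadraticMap.polar Q u u := by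
    rcases eq_or_neg3 hq hα' hα with h | hneg
    · exact h
    · exfalso
      have h0 := han (u + u') (W.add_mem hu hu')
        (by rw [hb.add_left, hb.add_right, hb.add_right, huu', hu'u, hneg]; ring)
      have := congrArg (fun v => QuadraticMap.polar Q v u) h0
      simp only [hb.add_left, hu'u, add_zero, bf_zero_left hb] at this
      exact hα this
  constructor
  · rcases eq_or_neg3 hq hβ hα with hβα | hneg
    · exact ⟨u, hu, u', hu', hβα.symm, by rw [heq]; exact hβα.symm, huu'⟩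
    · refine ⟨u + u', W.add_mem hu hu', u - u', W.sub_mem hu hu', ?_, ?_, ?_⟩
      · rw [hb.add_left, hb.add_right, hb.add_right, huu', hu'u, heq, hneg]
        linear_combination (QuadraticMap.polar Q u u) * h3
      · rw [bf_sub_left hb, bf_sub_right hb, bf_sub_right hb, huu', hu'u, heq, hneg]
        linear_combination (QuadraticMap.polar Q u u) * h3
      · rw [hb.add_left, bf_sub_right hb, bf_sub_right hb, huu', hu'u, heq]
        ring
  · intro x hx y hy hxx hyy
    by_cases hxy : QuadraticMap.polar Q x y = 0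
    · right; right; exact hxy
    · have hyx : QuadraticMap.polar Q y x = QuadraticMap.polar Q x y := polar_symm Q y x
      rcases eq_or_neg3 hq hxy hβ with h | h
      · left
        have := han (x - y) (W.sub_mem hx hy)
          (by rw [bf_sub_left hb, bf_sub_right hb, bf_sub_right hb, hxx, hyy, hyx, h]; ring)
        exact sub_eq_zero.mp this
      · right; left
        have := han (x + y) (W.add_mem hx hy)
          (by rw [hb.add_left, hb.add_right, hb.add_right, hxx, hyy, hyx, h]; ring)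
        exact eq_neg_of_add_eq_zero_left this

theorem sq_sum_one3 (hq : Fintype.card F = 3) {p q r : F} (h : p ^ 2 + q ^ 2 + r ^ 2 = 1) :
    (q = 0 ∧ r = 0) ∨ (p = 0 ∧ r = 0) ∨ (p = 0 ∧ q = 0) := by
  have h2 := two_ne_zero3 hq
  by_cases hp : p = 0 <;> by_cases hq' : q = 0 <;> by_cases hr : r = 0
  · exfalso
    rw [hp, hq', hr] at h
    simp at h
  · exact Or.inr (Or.inr ⟨hp, hq'⟩)
  · exact Or.inr (Or.inl ⟨hp, hr⟩)
  · exfalso
    rw [hp, sq_eq_one3 hq hq', sq_eq_one3 hq hr] at h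
    apply one_ne_zero (α := F)
    linear_combination h
  · exact Or.inl ⟨hq', hr⟩
  · exfalso
    rw [hq', sq_eq_one3 hq hp, sq_eq_one3 hq hr] at h
    apply one_ne_zero (α := F)
    linear_combination h
  · exfalso
    rw [hr, sq_eq_one3 hq hp, sq_eq_one3 hq hq'] at h
    apply one_ne_zero (α := F)
    linear_combination h
  · exfalso
    rw [sq_eq_one3 hq hp, sq_eq_one3 hq hq', sq_eq_one3 hq hr] at h
    apply h2
    linear_combination h

section Frame3

variable {f : (Fin 3 → F) → (Fin 3 → F) → F} {ε : F} {d₁ d₂ d₃ : Fin 3 → F}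

theorem frame_line (hq : Fintype.card F = 3) (hf : Cfsg.Geo.IsSymmetricForm f)
    (hfr : IsFrame f ε d₁ d₂ d₃) {z : Fin 3 → F} (hz : f z z = ε) :
    ∃ s : F, z = s • d₁ ∨ z = s • d₂ ∨ z = s • d₃ := by
  have h1 := hfr.parseval hf z z
  rw [hz] at h1
  have h2 : f z d₁ ^ 2 + f z d₂ ^ 2 + f z d₃ ^ 2 = 1 := by
    have h' : ε * (f z d₁ ^ 2 + f z d₂ ^ 2 + f z d₃ ^ 2 - 1) = 0 := by linear_combination -h1
    rcases mul_eq_zero.mp h' with h | h
    · exact absurd h hfr.ne
    · linear_combination h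
  have hexp := hfr.exp z
  rcases sq_sum_one3 hq h2 with ⟨e2, e3⟩ | ⟨e1, e3⟩ | ⟨e1, e2⟩
  · refine ⟨ε * f z d₁, Or.inl ?_⟩
    conv_lhs => rw [hexp]
    rw [e2, e3]
    simp
  · refine ⟨ε * f z d₂, Or.inr (Or.inl ?_)⟩
    conv_lhs => rw [hexp]
    rw [e1, e3]
    simp
  · refine ⟨ε * f z d₃, Or.inr (Or.inr ?_)⟩
    conv_lhs => rw [hexp]
    rw [e1, e2]
    simp

theorem frame_U (hq : Fintype.card F = 3) (hf : Cfsg.Geo.IsSymmetricForm f)
    (hfr : IsFrame f ε d₁ d₂ d₃) {x y : Fin 3 → F} (hx : f x x = ε) (hy : f y y = ε) :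
    x = y ∨ x = -y ∨ f x y = 0 := by
  obtain ⟨s, hs⟩ := frame_line hq hf hfr hx
  obtain ⟨r, hr⟩ := frame_line hq hf hfr hy
  have hb := hf.bilinear
  have same : ∀ {d : Fin 3 → F}, f d d = ε → x = s • d → y = r • d → x = y ∨ x = -y ∨ f x y = 0 := by
    intro d hd hxd hyd
    have hs2 : s ^ 2 = 1 := by
      have := hx
      rw [hxd, hb.smul_left, hb.smul_right, hd] at this
      have h' : (s ^ 2 - 1) * ε = 0 := by linear_combination this
      rcases mul_eq_zero.mp h' with h | h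
      · linear_combination h
      · exact absurd h hfr.ne
    have hr2 : r ^ 2 = 1 := by
      have := hy
      rw [hyd, hb.smul_left, hb.smul_right, hd] at this
      have h' : (r ^ 2 - 1) * ε = 0 := by linear_combination this
      rcases mul_eq_zero.mp h' with h | h
      · linear_combination h
      · exact absurd h hfr.ne
    have : (s - r) * (s + r) = 0 := by linear_combination hs2 - hr2
    rcases mul_eq_zero.mp this with h | h
    · left
      rw [hxd, hyd, sub_eq_zero.mp h]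
    · right; left
      rw [hxd, hyd, eq_neg_of_add_eq_zero_left h, neg_smul]
  have diff : ∀ {d d' : Fin 3 → F}, f d d' = 0 → x = s • d → y = r • d' →
      x = y ∨ x = -y ∨ f x y = 0 := by
    intro d d' hdd hxd hyd
    right; right
    rw [hxd, hyd, hb.smul_left, hb.smul_right, hdd]
    ring
  have o21 : f d₂ d₁ = 0 := by rw [hf.symm]; exact hfr.o12
  have o31 : f d₃ d₁ = 0 := by rw [hf.symm]; exact hfr.o13
  have o32 : f d₃ d₂ = 0 := by rw [hf.symm]; exact hfr.o23
  rcases hs with hs | hs | hs <;> rcases hr with hr | hr | hr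
  · exact same hfr.n1 hs hr
  · exact diff hfr.o12 hs hr
  · exact diff hfr.o13 hs hr
  · exact diff o21 hs hr
  · exact same hfr.n2 hs hr
  · exact diff hfr.o23 hs hr
  · exact diff o31 hs hr
  · exact diff o32 hs hr
  · exact same hfr.n3 hs hr

end Frame3

/-- A non-degenerate 3-space over the field with three elements. -/
theorem space3_EU (hq : Fintype.card F = 3) (hQ : IsQF Q) {W : Submodule F (ι → F)}
    (hdim : Module.finrank F W = 3)
    (hnd : Cfsg.Geo.IsNondegenerateOn (QuadraticMap.polar Q) W) :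
    ∃ β : F, β ≠ 0 ∧ EU Q W β := by
  have hb := hQ.bil
  obtain ⟨φ⟩ : Nonempty ((Fin 3 → F) ≃ₗ[F] W) :=
    ⟨(Module.finBasisOfFinrankEq F W hdim).equivFun.symm⟩
  obtain ⟨f, hfdef⟩ : ∃ f : (Fin 3 → F) → (Fin 3 → F) → F,
      ∀ x y, f x y = QuadraticMap.polar Q ((φ x : W) : ι → F) ((φ y : W) : ι → F) :=
    ⟨_, fun _ _ => rfl⟩
  have hf : Cfsg.Geo.IsSymmetricForm f := by
    refine ⟨⟨?_, ?_, ?_, ?_⟩, ?_, ?_⟩
    · intro x y v
      rw [hfdef, hfdef, hfdef, map_add, Submodule.coe_add, hb.add_left]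
    · intro c x v
      rw [hfdef, hfdef, map_smul, Submodule.coe_smul, hb.smul_left]
    · intro v x y
      rw [hfdef, hfdef, hfdef, map_add, Submodule.coe_add, hb.add_right]
    · intro c v x
      rw [hfdef, hfdef, map_smul, Submodule.coe_smul, hb.smul_right]
    · intro u v
      rw [hfdef, hfdef, polar_symm]
    · intro v hv
      have hφv : ((φ v : W) : ι → F) ≠ 0 := by
        intro h0
        apply hv
        have : φ v = 0 := Subtype.ext h0
        exact (LinearEquiv.map_eq_zero_iff φ).mp this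
      obtain ⟨⟨x, hx, hx1⟩, ⟨y, hy, hy1⟩⟩ := hnd (φ v) (φ v).2 hφv
      refine ⟨⟨φ.symm ⟨x, hx⟩, ?_⟩, ⟨φ.symm ⟨y, hy⟩, ?_⟩⟩
      · rw [hfdef, LinearEquiv.apply_symm_apply]
        exact hx1
      · rw [hfdef, LinearEquiv.apply_symm_apply]
        exact hy1
  obtain ⟨ε, d₁, d₂, d₃, hfr⟩ := exists_frame hq hf
  refine ⟨ε, hfr.ne, ⟨φ d₁, (φ d₁).2, φ d₂, (φ d₂).2, ?_, ?_, ?_⟩, ?_⟩
  · rw [← hfdef]; exact hfr.n1
  · rw [← hfdef]; exact hfr.n2
  · rw [← hfdef]; exact hfr.o12
  · intro x hx y hy hxx hyy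
    have ex : ((φ (φ.symm ⟨x, hx⟩) : W) : ι → F) = x := by rw [LinearEquiv.apply_symm_apply]
    have ey : ((φ (φ.symm ⟨y, hy⟩) : W) : ι → F) = y := by rw [LinearEquiv.apply_symm_apply]
    have hx' : f (φ.symm ⟨x, hx⟩) (φ.symm ⟨x, hx⟩) = ε := by rw [hfdef, ex]; exact hxx
    have hy' : f (φ.symm ⟨y, hy⟩) (φ.symm ⟨y, hy⟩) = ε := by rw [hfdef, ey]; exact hyy
    rcases frame_U hq hf hfr hx' hy' with h | h | h
    · left
      rw [← ex, ← ey, h]
    · right; left
      rw [← ex, ← ey, h, map_neg, Submodule.coe_neg]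
    · right; right
      rw [← ex, ← ey, ← hfdef]
      exact h

end Cfsg.Agent.Lib.Helper13.OmegaDecomp
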