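import Mathlib
import Cfsg.Agent.Lib.Helper15.InvSplit
import Cfsg.Agent.Lib.Helper15.Dickson
import Cfsg.Agent.Lib.Helper13.OmegaCount

set_option autoImplicit false
open Cfsg

namespace Cfsg.Agent.Lib.Helper13.OmegaMinus

open Matrix Module
open Cfsg.Agent.Lib.Helper13.OrthInv
open Cfsg.Agent.Lib.Helper13.InvCount (class_count')
open Cfsg.Agent.Lib.Helper13.OrthCount (orth_conj' inv_cases)
open Cfsg.Agent.Lib.Helper13.OmegaCount
open Cfsg.Agent.Lib.Helper15.CD2
open Cfsg.Agent.Lib.Helper15.Spinor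
open Cfsg.Agent.Lib.Helper15.RankParity (fixSp mem_fixSp rank_eq rank_parity)

variable {ι : Type} [Fintype ι] [DecidableEq ι] {F : Type*} [Field F] [Fintype F] [CharP F 2]

/-- there is no totally singular plane -/
def NoPlane (Q : QuadraticForm F (ι → F)) : Prop :=
  ∀ x y : ι → F, Q x = 0 → Q y = 0 → QuadraticMap.polar ⇑Q x y = 0 → x ≠ 0 → ∃ c : F, y = c • x

/-- every isometry is a product of reflections -/
def Gen (Q : QuadraticForm F (ι → F)) : Prop :=
  ∀ g : ↥(Cfsg.isometryGroup F ⇑Q), ∃ vs : List (ι → F), (∀ v ∈ vs, Q v ≠ 0) ∧ g = prodRefl Q vs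

theorem mem_perp_bot (Q : QuadraticForm F (ι → F)) (x : ι → F) : x ∈ perp Q ⊥ := by
  intro s hs
  rw [(Submodule.mem_bot F).1 hs, QuadraticMap.polar_comm, polar_zero_left]

theorem fix_bot (Q : QuadraticForm F (ι → F)) (g : ↥(Cfsg.isometryGroup F ⇑Q)) :
    ∀ s ∈ (⊥ : Submodule F (ι → F)), act Q g s = s := by
  intro s hs
  rw [(Submodule.mem_bot F).1 hs, map_zero]

/-- first step of Cartan–Dieudonné when there is no totally singular plane -/
theorem step1w (Q : QuadraticForm F (ι → F))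
    (hnd : ∀ x, (∀ y, QuadraticMap.polar ⇑Q x y = 0) → x = 0) (hts : NoPlane Q)
    (g : ↥(Cfsg.isometryGroup F ⇑Q)) (v : ι → F) (hQv : Q v ≠ 0) :
    ∃ vs : List (ι → F), (∀ y ∈ vs, Q y ≠ 0) ∧ act Q (prodRefl Q vs * g) v = v := by
  classical
  by_cases hF : Fintype.card F ≠ 2
  · obtain ⟨vs, h1, _, h3⟩ := step1 Q hnd ⊥ (splits_bot Q) (Or.inl hF) g (fix_bot Q g) v
      (mem_perp_bot Q v) hQv
    exact ⟨vs, h1, h3⟩
  rw [not_not] at hF
  have hone : ∀ c : F, c ≠ 0 → c = 1 := by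
    intro c hc
    have h1 : Fintype.card Fˣ = 1 := by rw [Fintype.card_units, hF]
    have h2 : Subsingleton Fˣ := Fintype.card_le_one_iff_subsingleton.mp h1.le
    have h3 : Units.mk0 c hc = 1 := Subsingleton.elim _ _
    exact congrArg Units.val h3
  obtain ⟨u, hudef⟩ : ∃ u, u = act Q g v := ⟨_, rfl⟩
  have hQu : Q u = Q v := by rw [hudef, act_Q]
  have hQu0 : Q u ≠ 0 := by rw [hQu]; exact hQv
  have hu0 : u ≠ 0 := by
    rintro rfl
    rw [map_zero] at hQu
    exact hQv hQu.symm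
  have hv0 : v ≠ 0 := by
    rintro rfl
    exact hQv (map_zero Q)
  by_cases huv : u = v
  · refine ⟨[], by simp, ?_⟩
    rw [prodRefl_nil, one_mul, ← hudef, huv]
  by_cases hB : QuadraticMap.polar ⇑Q u v ≠ 0
  · obtain ⟨h1, h2, h3⟩ := move_b Q u v hQu hB
    refine ⟨[u + v], ?_, ?_⟩
    · intro y hy
      rw [List.mem_singleton] at hy
      rw [hy]
      exact h1
    · rw [act_mul, ← hudef, act_cons, act_nil]
      exact h2
  rw [not_not] at hB
  obtain ⟨z₀, -, hα, hβ⟩ := exists_z0 Q hnd ⊥ (splits_bot Q) u v (mem_perp_bot Q u)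
    (mem_perp_bot Q v) hu0 hv0
  have hQz : Q z₀ ≠ 0 := by
    intro hz
    have h1 : Q (u + v) = 0 := by rw [Q_add_of_eq Q u v hQu, hB]
    have h2 : QuadraticMap.polar ⇑Q z₀ (u + v) = 0 := by
      rw [QuadraticMap.polar_add_right, hone _ hα, hone _ hβ]
      exact CharTwo.add_self_eq_zero 1
    have hz0 : z₀ ≠ 0 := by
      rintro rfl
      exact hα (polar_zero_left Q u)
    obtain ⟨c, hc⟩ := hts z₀ (u + v) hz h1 h2 hz0
    have h3 : QuadraticMap.polar ⇑Q (u + v) u = 0 := by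
      rw [QuadraticMap.polar_add_left, polar_self0, zero_add, QuadraticMap.polar_comm, hB]
    rw [hc, QuadraticMap.polar_smul_left, smul_eq_mul] at h3
    have hc0 : c = 0 := by
      rcases mul_eq_zero.mp h3 with h | h
      · exact h
      · exact absurd h hα
    rw [hc0, zero_smul] at hc
    apply huv
    calc u = u + (v + v) := by rw [vec_add_self, add_zero]
      _ = (u + v) + v := by rw [add_assoc]
      _ = v := by rw [hc, zero_add]
  obtain ⟨d, hd, h2, h3⟩ := move_c Q u v z₀ hQu hB hQz hα hβ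
  refine ⟨[d, z₀], ?_, ?_⟩
  · intro y hy
    rw [List.mem_cons, List.mem_singleton] at hy
    rcases hy with rfl | rfl
    · exact hd
    · exact hQz
  · rw [act_mul, ← hudef, act_cons, act_cons, act_nil]
    exact h2

/-- Cartan–Dieudonné when there is no totally singular plane -/
theorem cd_w (Q : QuadraticForm F (ι → F))
    (hnd : ∀ x, (∀ y, QuadraticMap.polar ⇑Q x y = 0) → x = 0) (hts : NoPlane Q) : Gen Q := by
  classical
  intro g
  by_cases hbot : perp Q ⊥ = ⊥
  · exact ⟨[], by simp, by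
      rw [prodRefl_nil]
      exact triv_of_perp_bot Q ⊥ (splits_bot Q) hbot g (fix_bot Q g)⟩
  obtain ⟨v, hvS, hQv⟩ := exists_nonsing Q hnd ⊥ (splits_bot Q) hbot
  have hv0 : v ≠ 0 := by
    rintro rfl
    exact hQv (map_zero Q)
  obtain ⟨vs₁, hvs₁, h1v⟩ := step1w Q hnd hts g v hQv
  obtain ⟨g₁, hg₁def⟩ : ∃ g₁, g₁ = prodRefl Q vs₁ * g := ⟨_, rfl⟩
  rw [← hg₁def] at h1v
  obtain ⟨w, hwS, hvw⟩ := exists_partner Q hnd ⊥ (splits_bot Q) v hvS hv0
  obtain ⟨vs₂, hvs₂, hp1, hp2, hp3⟩ := partner Q v w (act Q g₁ w) hQv (act_Q Q g₁ w) (by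
      have h := act_polar Q g₁ v w
      rw [h1v] at h
      exact h) (by rw [hvw]; exact one_ne_zero)
  obtain ⟨g₂, hg₂def⟩ : ∃ g₂, g₂ = prodRefl Q vs₂ * g₁ := ⟨_, rfl⟩
  have hg₂v : act Q g₂ v = v := by rw [hg₂def, act_mul, h1v]; exact hp2
  have hg₂w : act Q g₂ w = w := by rw [hg₂def, act_mul]; exact hp1
  have hg₂S₁ : ∀ s ∈ Submodule.span F {v, w}, act Q g₂ s = s := by
    intro s hs
    obtain ⟨c₁, c₂, rfl⟩ := Submodule.mem_span_pair.1 hs
    rw [map_add, map_smul, map_smul, hg₂v, hg₂w]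
  have hS₁ : Splits Q (Submodule.span F {v, w}) := by
    intro x
    refine ⟨QuadraticMap.polar ⇑Q x w • v + QuadraticMap.polar ⇑Q x v • w, ?_, ?_⟩
    · exact Submodule.add_mem _ (Submodule.smul_mem _ _ (Submodule.subset_span (by simp)))
        (Submodule.smul_mem _ _ (Submodule.subset_span (by simp)))
    · intro s hs
      obtain ⟨c₁, c₂, rfl⟩ := Submodule.mem_span_pair.1 hs
      have e1 : QuadraticMap.polar ⇑Q
          (x + (QuadraticMap.polar ⇑Q x w • v + QuadraticMap.polar ⇑Q x v • w)) v = 0 := by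
        rw [QuadraticMap.polar_add_left Q x _ v, QuadraticMap.polar_add_left Q _ _ v,
          QuadraticMap.polar_smul_left, QuadraticMap.polar_smul_left, polar_self0, smul_zero,
          zero_add, QuadraticMap.polar_comm ⇑Q w v, hvw, smul_eq_mul, mul_one]
        exact CharTwo.add_self_eq_zero _
      have e2 : QuadraticMap.polar ⇑Q
          (x + (QuadraticMap.polar ⇑Q x w • v + QuadraticMap.polar ⇑Q x v • w)) w = 0 := by
        rw [QuadraticMap.polar_add_left Q x _ w, QuadraticMap.polar_add_left Q _ _ w,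
          QuadraticMap.polar_smul_left, QuadraticMap.polar_smul_left, polar_self0, smul_zero,
          add_zero, hvw, smul_eq_mul, mul_one]
        exact CharTwo.add_self_eq_zero _
      rw [QuadraticMap.polar_add_right, QuadraticMap.polar_smul_right,
        QuadraticMap.polar_smul_right, e1, e2]
      simp
  have hne₁ : Submodule.span F {v, w} ≠ ⊥ := by
    intro h
    have hv' : v ∈ Submodule.span F {v, w} := Submodule.subset_span (by simp)
    rw [h, Submodule.mem_bot] at hv'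
    exact hv0 hv'
  obtain ⟨vs₃, hvs₃, h3⟩ := cd2_aux Q hnd _ (Submodule.span F {v, w}) le_rfl hS₁
    (Or.inr (Or.inr hne₁)) g₂ hg₂S₁
  refine ⟨vs₁.reverse ++ (vs₂.reverse ++ vs₃), ?_, ?_⟩
  · intro y hy
    rw [List.mem_append, List.mem_append, List.mem_reverse, List.mem_reverse] at hy
    rcases hy with hy | hy | hy
    · exact hvs₁ y hy
    · exact hvs₂ y hy
    · exact hvs₃ y hy
  · rw [prodRefl_append, prodRefl_append, ← h3, hg₂def, hg₁def]
    have e1 := Cfsg.Agent.Lib.Helper15.CartanD.prodRefl_reverse Q vs₁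
    have e2 := Cfsg.Agent.Lib.Helper15.CartanD.prodRefl_reverse Q vs₂
    calc g = (prodRefl Q vs₁.reverse * prodRefl Q vs₁) * g := by rw [e1, one_mul]
      _ = prodRefl Q vs₁.reverse * ((prodRefl Q vs₂.reverse * prodRefl Q vs₂)
            * (prodRefl Q vs₁ * g)) := by rw [e2, one_mul, mul_assoc]
      _ = prodRefl Q vs₁.reverse * (prodRefl Q vs₂.reverse
            * (prodRefl Q vs₂ * (prodRefl Q vs₁ * g))) := by rw [mul_assoc]

/-- the product of two reflections is a commutator (no exception) -/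
theorem pair_comm (Q : QuadraticForm F (ι → F))
    (hQ : (QuadraticMap.polarBilin Q).Nondegenerate) (u v : ι → F) (hu : Q u ≠ 0) (hv : Q v ≠ 0) :
    reflO Q u * reflO Q v ∈ commutator ↥(Cfsg.isometryGroup F ⇑Q) := by
  have h2 : (2 : F) = 0 := CharTwo.two_eq_zero
  obtain ⟨c, hc⟩ := FiniteField.isSquare_of_char_two (F := F)
    ((ringChar.eq_iff).2 inferInstance) (Q v / Q u)
  have hc0 : c ≠ 0 := by
    rintro rfl
    rw [mul_zero] at hc
    exact div_ne_zero hv hu hc
  have hQcu : Q (c • u) = Q v := by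
    rw [QuadraticMap.map_smul, smul_eq_mul, ← hc, div_mul_cancel₀ _ hu]
  have hcu : Q (c • u) ≠ 0 := by rw [hQcu]; exact hv
  have hcu0 : c • u ≠ 0 := by
    intro h
    rw [h, map_zero] at hcu
    exact hcu rfl
  have hv0 : v ≠ 0 := by
    rintro rfl
    exact hv (map_zero Q)
  obtain ⟨h, hh1, hh2⟩ := witt_Q Q hQ h2 (κ := Unit) (fun _ => c • u) (fun _ => v)
    (linearIndependent_unique_iff.mpr hcu0) (linearIndependent_unique_iff.mpr hv0)
    (fun _ _ => polar_self0 Q _) (fun _ _ => polar_self0 Q _) (fun _ => hQcu)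
  obtain ⟨g, hgdef⟩ : ∃ g, g = mkO Q h hh1 := ⟨_, rfl⟩
  have hg : act Q g (c • u) = v := by
    rw [hgdef]
    exact hh2 ()
  have hconj := conj_reflO Q g (c • u) hcu
  rw [← act_apply, hg, Cfsg.Agent.Lib.Helper15.Dickson.reflO_smul Q c hc0 u hu] at hconj
  rw [← hconj, commutator_def]
  have hcm := Subgroup.commutator_mem_commutator (Subgroup.mem_top (reflO Q u))
    (Subgroup.mem_top g)
  rw [commutatorElement_def] at hcm
  have hinv : (reflO Q u)⁻¹ = reflO Q u := inv_eq_of_mul_eq_one_right (reflO_mul_self Q u)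
  rw [hinv] at hcm
  have e : reflO Q u * (g * reflO Q u * g⁻¹) = reflO Q u * g * reflO Q u * g⁻¹ := by group
  rw [e]
  exact hcm

/-- parity criterion without exception -/
theorem prod_iff (Q : QuadraticForm F (ι → F))
    (hQ : (QuadraticMap.polarBilin Q).Nondegenerate) (vs : List (ι → F))
    (hvs : ∀ v ∈ vs, Q v ≠ 0) :
    prodRefl Q vs ∈ commutator ↥(Cfsg.isometryGroup F ⇑Q) ↔ Even vs.length := by
  have hnd : ∀ x, (∀ y, QuadraticMap.polar ⇑Q x y = 0) → x = 0 := fun x hx => hQ.1 x hx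
  constructor
  · exact Cfsg.Agent.Lib.Helper15.Dickson.even_of_mem_commutator Q hnd vs hvs
  · rintro ⟨n, hn⟩
    exact Cfsg.Agent.Lib.Helper15.Dickson.even_prodRefl_mem Q _
      (fun a b ha hb => pair_comm Q hQ a b ha hb) n vs (by omega) hvs

theorem mem_iff_rank (Q : QuadraticForm F (ι → F))
    (hQ : (QuadraticMap.polarBilin Q).Nondegenerate) (hcd : Gen Q)
    (g : ↥(Cfsg.isometryGroup F ⇑Q)) :
    g ∈ commutator ↥(Cfsg.isometryGroup F ⇑Q) ↔ Even (rk Q g) := by
  obtain ⟨vs, hvs, rfl⟩ := hcd g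
  rw [prod_iff Q hQ vs hvs]
  exact (rank_parity Q hQ vs hvs).symm

theorem conj_in (Q : QuadraticForm F (ι → F))
    (hQ : (QuadraticMap.polarBilin Q).Nondegenerate) (hcd : Gen Q)
    (t s g : ↥(Cfsg.isometryGroup F ⇑Q))
    (hg : g * t * g⁻¹ = s) (w : ι → F) (hw : Q w ≠ 0) (htw : act Q t w = w) :
    ∃ g' ∈ commutator ↥(Cfsg.isometryGroup F ⇑Q), g' * t * g'⁻¹ = s := by
  by_cases hgO : g ∈ commutator ↥(Cfsg.isometryGroup F ⇑Q)
  · exact ⟨g, hgO, hg⟩
  · obtain ⟨vs, hvs, hgvs⟩ := hcd g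
    have hodd : ¬ Even vs.length := by
      intro he
      apply hgO
      rw [hgvs]
      exact (prod_iff Q hQ vs hvs).2 he
    have hcomm : t * reflO Q w * t⁻¹ = reflO Q w := by
      rw [conj_reflO Q t w hw, ← act_apply, htw]
    refine ⟨g * reflO Q w, ?_, ?_⟩
    · have e : g * reflO Q w = prodRefl Q (vs ++ [w]) := by
        rw [prodRefl_append, hgvs, prodRefl_cons, prodRefl_nil, mul_one]
      rw [e]
      apply (prod_iff Q hQ _ _).2
      · rw [List.length_append, List.length_singleton]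
        exact Nat.even_add_one.2 hodd
      · intro v hv
        rw [List.mem_append, List.mem_singleton] at hv
        rcases hv with hv | rfl
        · exact hvs v hv
        · exact hw
    · have h2 : t * reflO Q w = reflO Q w * t := by
        calc t * reflO Q w = t * reflO Q w * t⁻¹ * t := by group
          _ = reflO Q w * t := by rw [hcomm]
      have h1 : reflO Q w * t * (reflO Q w)⁻¹ = t := by
        rw [← h2]
        group
      rw [← hg]
      calc g * reflO Q w * t * (g * reflO Q w)⁻¹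
          = g * (reflO Q w * t * (reflO Q w)⁻¹) * g⁻¹ := by group
        _ = g * t * g⁻¹ := by rw [h1]

/-- conjugacy in `Ω` of involutions that are conjugate in `O` -/
theorem conj_ns (Q : QuadraticForm F (ι → F))
    (hQ : (QuadraticMap.polarBilin Q).Nondegenerate) (hcd : Gen Q) (m : ℕ)
    (hcard : Fintype.card ι = 2 * m)
    (x y : ↥(Cfsg.isometryGroup F ⇑Q)) (hx : x * x = 1) (hy : y * y = 1)
    (hrk : rk Q x = rk Q y) (hty : alt Q x ↔ alt Q y) (hnot : ¬ (rk Q x = m ∧ alt Q x)) :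
    ∃ c ∈ commutator ↥(Cfsg.isometryGroup F ⇑Q), c * x * c⁻¹ = y := by
  have h2 : (2 : F) = 0 := CharTwo.two_eq_zero
  obtain ⟨h, hh1, hh2⟩ := orth_conj' Q hQ h2 (x : GL ι F) (y : GL ι F) (Qx Q x) (Qx Q y)
    (congrArg Subtype.val hx) (congrArg Subtype.val hy) hrk hty
  obtain ⟨w, hw, hwfix⟩ := fix_ns Q hQ m hcard x hx hnot
  have hg : mkO Q h hh1 * x * (mkO Q h hh1)⁻¹ = y := by
    apply mul_inv_eq_of_eq_mul
    exact Subtype.ext hh2
  exact conj_in Q hQ hcd x y _ hg w hw hwfix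

/-- the classification of involutions of `Ω` (no totally singular half-dimensional space) -/
def Pm (Q : QuadraticForm F (ι → F)) (m : ℕ) :
    Fin (m / 2) ⊕ Fin ((m - 1) / 2) → ↥(commutator ↥(Cfsg.isometryGroup F ⇑Q)) → Prop :=
  Sum.elim
    (fun i g => rk Q (g : ↥(Cfsg.isometryGroup F ⇑Q)) = 2 * (i.val + 1) ∧
      ¬ alt Q (g : ↥(Cfsg.isometryGroup F ⇑Q)))
    (fun j g => rk Q (g : ↥(Cfsg.isometryGroup F ⇑Q)) = 2 * (j.val + 1) ∧
      alt Q (g : ↥(Cfsg.isometryGroup F ⇑Q)))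

set_option maxHeartbeats 400000 in
/-- the number of classes of involutions of `Ω` for a form of minus type -/
theorem omega_minus_count (Q : QuadraticForm F (ι → F))
    (hQ : (QuadraticMap.polarBilin Q).Nondegenerate) (hcd : Gen Q) (m : ℕ) (hm : 1 ≤ m)
    (hcard : Fintype.card ι = 2 * m)
    (exB : ∀ k, 0 < k → k ≤ m → ∃ M : GL ι F, (∀ v, Q ((M : Matrix ι ι F) *ᵥ v) = Q v) ∧
      M * M = 1 ∧ ((M : Matrix ι ι F) - 1).rank = k ∧
      ((∀ y, pf Q ((M : Matrix ι ι F) *ᵥ y - y) y = 0) ↔ False))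
    (exA : ∀ r, r + r ≤ m - 1 → ∃ M : GL ι F, (∀ v, Q ((M : Matrix ι ι F) *ᵥ v) = Q v) ∧
      M * M = 1 ∧ ((M : Matrix ι ι F) - 1).rank = r + r ∧
      ((∀ y, pf Q ((M : Matrix ι ι F) *ᵥ y - y) y = 0) ↔ True))
    (hup : ∀ (r : ℕ) (w : Fin r ⊕ Fin r → ι → F), LinearIndependent F w →
      (∀ i j, pf Q (w i) (w j) = 0) → (∀ i, Q (w i) = 0) → r + r ≤ m - 1) :
    Nat.card {C : ConjClasses ↥(commutator ↥(Cfsg.isometryGroup F ⇑Q)) //
      ∃ g : ↥(commutator ↥(Cfsg.isometryGroup F ⇑Q)), ConjClasses.mk g = C ∧ orderOf g = 2} =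
      m / 2 + (m - 1) / 2 := by
  classical
  have h2 : (2 : F) = 0 := CharTwo.two_eq_zero
  have hmem : ∀ x : ↥(Cfsg.isometryGroup F ⇑Q),
      x ∈ commutator ↥(Cfsg.isometryGroup F ⇑Q) ↔ Even (rk Q x) :=
    fun x => mem_iff_rank Q hQ hcd x
  have hA : ∀ x : ↥(Cfsg.isometryGroup F ⇑Q), x * x = 1 → x ≠ 1 → alt Q x →
      ∃ r, rk Q x = r + r ∧ r + r ≤ m - 1 := by
    intro x hxx hx1 halt
    obtain ⟨hpos, hle, hA⟩ := inv_cases Q hQ h2 (x : GL ι F) (Qx Q x)
      (congrArg Subtype.val hxx) (fun h => hx1 (Subtype.ext h))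
    obtain ⟨r, w, hrk, hli, hti, hq⟩ := hA halt
    exact ⟨r, hrk, hup r w hli hti hq⟩
  have key := class_count' (Pm Q m) ?_ ?_ ?_ ?_
  · rw [key, Fintype.card_sum, Fintype.card_fin, Fintype.card_fin]
  · -- existence
    rintro (i | j)
    · obtain ⟨M, hM, hs, hrk, hal⟩ := exB (2 * (i.val + 1)) (by omega) (by have := i.2; omega)
      have hin : mkO Q M hM ∈ commutator ↥(Cfsg.isometryGroup F ⇑Q) := by
        rw [hmem]
        show Even ((M : Matrix ι ι F) - 1).rank
        rw [hrk]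
        exact even_two_mul _
      refine ⟨⟨mkO Q M hM, hin⟩, order_two Q _ (Subtype.ext hs) ?_, hrk, fun h => hal.mp h⟩
      show 0 < ((M : Matrix ι ι F) - 1).rank
      rw [hrk]
      omega
    · obtain ⟨M, hM, hs, hrk, hal⟩ := exA (j.val + 1) (by have := j.2; omega)
      have hin : mkO Q M hM ∈ commutator ↥(Cfsg.isometryGroup F ⇑Q) := by
        rw [hmem]
        show Even ((M : Matrix ι ι F) - 1).rank
        rw [hrk]
        exact ⟨j.val + 1, rfl⟩
      refine ⟨⟨mkO Q M hM, hin⟩, order_two Q _ (Subtype.ext hs) ?_, ?_, hal.mpr trivial⟩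
      · show 0 < ((M : Matrix ι ι F) - 1).rank
        rw [hrk]
        omega
      · show ((M : Matrix ι ι F) - 1).rank = 2 * (j.val + 1)
        rw [hrk]
        omega
  · -- every involution is classified
    intro g hg
    have hgg := sq_of_order Q g hg
    have hne : (g : ↥(Cfsg.isometryGroup F ⇑Q)) ≠ 1 := by
      intro h
      have h1 : g = 1 := Subtype.ext h
      rw [h1, orderOf_one] at hg
      omega
    have hev : Even ((((g : ↥(Cfsg.isometryGroup F ⇑Q)) : GL ι F) : Matrix ι ι F) - 1).rank :=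
      (hmem g.1).mp g.2
    obtain ⟨hpos, hle, _⟩ := inv_cases Q hQ h2 ((g : ↥(Cfsg.isometryGroup F ⇑Q)) : GL ι F)
      (Qx Q g.1) (congrArg Subtype.val hgg) (fun h => hne (Subtype.ext h))
    rw [hcard] at hle
    by_cases halt : alt Q (g : ↥(Cfsg.isometryGroup F ⇑Q))
    · obtain ⟨r, hrk, hr⟩ := hA g.1 hgg hne halt
      have hrk' : ((((g : ↥(Cfsg.isometryGroup F ⇑Q)) : GL ι F) : Matrix ι ι F) - 1).rank =
        r + r := hrk
      refine ⟨Sum.inr ⟨r - 1, by omega⟩, ?_, halt⟩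
      show ((((g : ↥(Cfsg.isometryGroup F ⇑Q)) : GL ι F) : Matrix ι ι F) - 1).rank =
        2 * (r - 1 + 1)
      omega
    · obtain ⟨k', hk'⟩ := hev
      refine ⟨Sum.inl ⟨k' - 1, by omega⟩, ?_, halt⟩
      show ((((g : ↥(Cfsg.isometryGroup F ⇑Q)) : GL ι F) : Matrix ι ι F) - 1).rank =
        2 * (k' - 1 + 1)
      omega
  · -- same invariants imply conjugacy
    rintro (i | j) g h hg hh hPg hPh
    · obtain ⟨h1, h3⟩ := hPg
      obtain ⟨h4, h5⟩ := hPh
      obtain ⟨c, hcΩ, hc'⟩ := conj_ns Q hQ hcd m hcard g.1 h.1 (sq_of_order Q g hg)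
        (sq_of_order Q h hh) (by rw [h1, h4]) ⟨fun x => absurd x h3, fun x => absurd x h5⟩
        (fun hx => h3 hx.2)
      rw [isConj_iff]
      exact ⟨⟨c, hcΩ⟩, Subtype.ext hc'⟩
    · obtain ⟨h1, h3⟩ := hPg
      obtain ⟨h4, h5⟩ := hPh
      obtain ⟨c, hcΩ, hc'⟩ := conj_ns Q hQ hcd m hcard g.1 h.1 (sq_of_order Q g hg)
        (sq_of_order Q h hh) (by rw [h1, h4]) ⟨fun _ => h5, fun _ => h3⟩
        (fun hx => by
          have := j.2
          have h6 := hx.1
          rw [h1] at h6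
          omega)
      rw [isConj_iff]
      exact ⟨⟨c, hcΩ⟩, Subtype.ext hc'⟩
  · -- conjugate involutions have the same invariants
    intro x y g h hPg hPh hcj
    obtain ⟨d, hd⟩ := isConj_iff.mp hcj
    have hdO : (d : ↥(Cfsg.isometryGroup F ⇑Q)) * (g : ↥(Cfsg.isometryGroup F ⇑Q)) *
        (d : ↥(Cfsg.isometryGroup F ⇑Q))⁻¹ = (h : ↥(Cfsg.isometryGroup F ⇑Q)) :=
      congrArg Subtype.val hd
    have hrk := rk_conj Q _ _ _ hdO
    have hty := alt_conj Q _ _ _ hdO
    rcases x with i | j <;> rcases y with i' | j'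
    · obtain ⟨h1, h3⟩ := hPg
      obtain ⟨h4, h5⟩ := hPh
      rw [h1, h4] at hrk
      congr 1
      exact Fin.ext (by omega)
    · exact absurd (hty.mpr hPh.2) hPg.2
    · exact absurd (hty.mp hPg.2) hPh.2
    · obtain ⟨h1, h3⟩ := hPg
      obtain ⟨h4, h5⟩ := hPh
      rw [h1, h4] at hrk
      congr 1
      exact Fin.ext (by omega)

end Cfsg.Agent.Lib.Helper13.OmegaMinus
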