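import Mathlib
import Cfsg.Agent.S5631
import Cfsg.Agent.Lib.Helper5.SympCount
import Cfsg.Agent.Lib.Helper13.AltInv
import Cfsg.Agent.Lib.Helper13.CentCount

set_option autoImplicit false
open Cfsg

namespace Cfsg.Agent.Lib.Helper13.SymOrth

open Matrix
open Cfsg.Agent.S5631 (tv tv_mulVec tv_mul)
open Cfsg.Agent.Lib.Helper13.AltInv (exists_sqrt)
open Cfsg.Agent.Lib.Helper5.SympCount (card_eq_of_fibers)

variable {F : Type*} [Field F] [CharP F 2]
variable {κ : Type} [Fintype κ] [DecidableEq κ]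

/-- orthogonal matrices for the dot product -/
def IsO (A : Matrix κ κ F) : Prop := A * Aᵀ = 1

omit [CharP F 2] in
theorem isO_tr {A : Matrix κ κ F} (hA : IsO A) : Aᵀ * A = 1 := mul_eq_one_comm.mp hA

omit [CharP F 2] in
theorem isO_mul {A B : Matrix κ κ F} (hA : IsO A) (hB : IsO B) : IsO (A * B) := by
  unfold IsO at *
  rw [Matrix.transpose_mul, Matrix.mul_assoc, ← Matrix.mul_assoc B, hB, Matrix.one_mul, hA]

omit [CharP F 2] in
theorem isO_dot {A : Matrix κ κ F} (hA : IsO A) (u v : κ → F) :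
    (A *ᵥ u) ⬝ᵥ (A *ᵥ v) = u ⬝ᵥ v := by
  rw [Matrix.dotProduct_mulVec, ← Matrix.vecMul_transpose, Matrix.vecMul_vecMul, isO_tr hA,
    Matrix.vecMul_one]

theorem tvO (a : κ → F) (ha : a ⬝ᵥ a = 0) : IsO (tv a a) := by
  unfold IsO
  have ht : (tv a a)ᵀ = tv a (-a) := by
    unfold tv
    rw [Matrix.transpose_add, Matrix.transpose_one, Matrix.transpose_vecMulVec]
    congr 2
    funext i
    exact (CharTwo.neg_eq (a i)).symm
  rw [ht]
  exact tv_mul a a ha

theorem dot_self (x : κ → F) : x ⬝ᵥ x = (∑ i, x i) ^ 2 := by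
  rw [CharTwo.sum_sq]
  unfold dotProduct
  apply Finset.sum_congr rfl
  intro i _
  rw [pow_two]

theorem unit_iff (x : κ → F) : x ⬝ᵥ x = 1 ↔ ∑ i, x i = 1 := by
  rw [dot_self]
  constructor
  · intro h
    apply CharTwo.sq_injective (R := F)
    show (∑ i, x i) ^ 2 = 1 ^ 2
    rw [h, one_pow]
  · intro h
    rw [h, one_pow]

theorem move [Finite F] (x y : κ → F) (hx : x ⬝ᵥ x = 1) (hy : y ⬝ᵥ y = 1) (hxy : x ⬝ᵥ y ≠ 1) :
    ∃ A : Matrix κ κ F, IsO A ∧ A *ᵥ y = x := by
  have h2 : (2 : F) = 0 := CharTwo.two_eq_zero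
  have hne : x ⬝ᵥ y + 1 ≠ 0 := by
    intro h
    exact hxy (CharTwo.add_eq_zero.mp h)
  obtain ⟨c, hc⟩ := exists_sqrt h2 ((x ⬝ᵥ y + 1)⁻¹)
  refine ⟨tv (c • (x + y)) (c • (x + y)), tvO _ ?_, ?_⟩
  · rw [smul_dotProduct, dotProduct_smul, add_dotProduct, dotProduct_add, dotProduct_add, hx, hy,
      dotProduct_comm y x, smul_eq_mul, smul_eq_mul]
    linear_combination (c * c * (1 + x ⬝ᵥ y)) * h2
  · rw [tv_mulVec, smul_dotProduct, add_dotProduct, hy, smul_smul, smul_eq_mul]
    have e : c * (x ⬝ᵥ y + 1) * c = 1 := by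
      rw [mul_comm, ← mul_assoc, hc, inv_mul_cancel₀ hne]
    rw [e, one_smul]
    funext i
    show y i + (x i + y i) = x i
    linear_combination y i * h2

/-- the first basis vector -/
def e0 (κ : Type) [DecidableEq κ] (F : Type*) [Field F] : Unit ⊕ κ → F := Pi.single (Sum.inl ()) 1

omit [CharP F 2] [Fintype κ] in
theorem e0_inl : e0 κ F (Sum.inl ()) = 1 := by
  unfold e0
  rw [Pi.single_eq_same]

omit [CharP F 2] [Fintype κ] in
theorem e0_inr (j : κ) : e0 κ F (Sum.inr j) = 0 := by
  unfold e0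
  rw [Pi.single_eq_of_ne (by simp)]

omit [CharP F 2] in
theorem e0_dot (x : Unit ⊕ κ → F) : x ⬝ᵥ e0 κ F = x (Sum.inl ()) := by
  unfold e0
  rw [dotProduct_single, mul_one]

omit [CharP F 2] in
theorem e0_unit : e0 κ F ⬝ᵥ e0 κ F = 1 := by
  rw [e0_dot, e0_inl]

/-- transitivity on unit vectors other than the all-ones vector -/
theorem trans_unit [Finite F] (x : Unit ⊕ κ → F) (hx : x ⬝ᵥ x = 1) (hx1 : x ≠ fun _ => 1) :
    ∃ A : Matrix (Unit ⊕ κ) (Unit ⊕ κ) F, IsO A ∧ A *ᵥ e0 κ F = x := by
  by_cases h : x (Sum.inl ()) = 1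
  · have hj : ∃ j : κ, x (Sum.inr j) ≠ 1 := by
      by_contra hno
      apply hx1
      funext i
      rcases i with u | j
      · exact h
      · by_contra hj
        exact hno ⟨j, hj⟩
    obtain ⟨j, hj⟩ := hj
    have hu : (Pi.single (Sum.inr j) 1 : Unit ⊕ κ → F) ⬝ᵥ Pi.single (Sum.inr j) 1 = 1 := by
      rw [dotProduct_single, mul_one, Pi.single_eq_same]
    obtain ⟨A₁, hA₁, h1⟩ := move (Pi.single (Sum.inr j) 1 : Unit ⊕ κ → F) (e0 κ F) hu e0_unit (by
      rw [e0_dot, Pi.single_eq_of_ne (by simp)]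
      exact zero_ne_one)
    obtain ⟨A₂, hA₂, h2⟩ := move x (Pi.single (Sum.inr j) 1 : Unit ⊕ κ → F) hx hu (by
      rw [dotProduct_single, mul_one]
      exact hj)
    exact ⟨A₂ * A₁, isO_mul hA₂ hA₁, by rw [← Matrix.mulVec_mulVec, h1, h2]⟩
  · exact move x (e0 κ F) hx e0_unit (by rw [e0_dot]; exact h)

/-- the image of the first basis vector is not the all-ones vector -/
theorem e0_ne_one [Nonempty κ] (A : Matrix (Unit ⊕ κ) (Unit ⊕ κ) F) (hA : IsO A) :
    A *ᵥ e0 κ F ≠ fun _ => 1 := by
  intro h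
  obtain ⟨j⟩ := ‹Nonempty κ›
  have h1 := isO_dot hA (Pi.single (Sum.inr j) 1 : Unit ⊕ κ → F) (e0 κ F)
  rw [h, e0_dot, Pi.single_eq_of_ne (by simp)] at h1
  have h2 := isO_dot hA (Pi.single (Sum.inr j) 1 : Unit ⊕ κ → F) (Pi.single (Sum.inr j) 1)
  rw [dot_self, dotProduct_single, mul_one, Pi.single_eq_same] at h2
  have h3 : (A *ᵥ (Pi.single (Sum.inr j) 1 : Unit ⊕ κ → F)) ⬝ᵥ (fun _ => (1 : F)) =
      ∑ i, (A *ᵥ (Pi.single (Sum.inr j) 1 : Unit ⊕ κ → F)) i := by
    unfold dotProduct
    apply Finset.sum_congr rfl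
    intro i _
    rw [mul_one]
  rw [h3] at h1
  rw [h1] at h2
  simp at h2

/-- the stabiliser of the first basis vector -/
theorem stab_card :
    Nat.card {A : Matrix (Unit ⊕ κ) (Unit ⊕ κ) F // IsO A ∧ A *ᵥ e0 κ F = e0 κ F} =
      Nat.card {B : Matrix κ κ F // IsO B} := by
  have hcol : ∀ A : Matrix (Unit ⊕ κ) (Unit ⊕ κ) F, A *ᵥ e0 κ F = e0 κ F →
      ∀ i, A i (Sum.inl ()) = e0 κ F i := by
    intro A h i
    have h1 := congrFun h i
    unfold e0 at h1
    rw [Matrix.mulVec_single_one] at h1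
    exact h1
  have hrow : ∀ A : Matrix (Unit ⊕ κ) (Unit ⊕ κ) F, IsO A → A *ᵥ e0 κ F = e0 κ F →
      ∀ i, A (Sum.inl ()) i = e0 κ F i := by
    intro A hA h i
    have h1 : Aᵀ *ᵥ e0 κ F = e0 κ F := by
      conv_lhs => rw [← h]
      rw [Matrix.mulVec_mulVec, isO_tr hA, Matrix.one_mulVec]
    exact hcol Aᵀ h1 i
  apply Nat.card_congr
  exact
    { toFun := fun A => ⟨A.1.toBlocks₂₂, by
        unfold IsO
        ext i j
        have h := congrFun (congrFun A.2.1 (Sum.inr i)) (Sum.inr j)
        rw [Matrix.mul_apply, Fintype.sum_sum_type] at h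
        simp only [Matrix.transpose_apply, Finset.univ_unique, Finset.sum_singleton,
          hcol A.1 A.2.2, e0_inr, mul_zero, zero_add] at h
        rw [Matrix.mul_apply]
        simp only [Matrix.transpose_apply, Matrix.toBlocks₂₂, Matrix.of_apply]
        rw [h, Matrix.one_apply, Matrix.one_apply]
        simp⟩
      invFun := fun B => ⟨Matrix.fromBlocks 1 0 0 B.1, by
          unfold IsO
          rw [Matrix.fromBlocks_transpose, Matrix.fromBlocks_multiply]
          have hB : B.1 * B.1ᵀ = 1 := B.2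
          simp only [Matrix.transpose_one, Matrix.transpose_zero, Matrix.mul_one, Matrix.mul_zero,
            Matrix.zero_mul, add_zero, zero_add, hB]
          exact Matrix.fromBlocks_one, by
          funext i
          unfold e0
          rw [Matrix.mulVec_single_one]
          rcases i with u | i
          · simp
          · simp⟩
      left_inv := fun A => by
        apply Subtype.ext
        ext i j
        rcases i with u | i <;> rcases j with v | j
        · show (1 : Matrix Unit Unit F) u v = A.1 (Sum.inl u) (Sum.inl v)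
          rw [hcol A.1 A.2.2, e0_inl, Matrix.one_apply, if_pos (Subsingleton.elim u v)]
        · show (0 : F) = A.1 (Sum.inl u) (Sum.inr j)
          rw [hrow A.1 A.2.1 A.2.2, e0_inr]
        · show (0 : F) = A.1 (Sum.inr i) (Sum.inl v)
          rw [hcol A.1 A.2.2, e0_inr]
        · rfl
      right_inv := fun B => by
        apply Subtype.ext
        exact Matrix.toBlocks_fromBlocks₂₂ _ _ _ _ }

theorem unit_card [Fintype F] :
    Nat.card {x : Unit ⊕ κ → F // x ⬝ᵥ x = 1} = Fintype.card F ^ Fintype.card κ := by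
  have h2 : (2 : F) = 0 := CharTwo.two_eq_zero
  rw [← Nat.card_eq_fintype_card, ← Nat.card_eq_fintype_card, ← Nat.card_fun]
  apply Nat.card_congr
  exact
    { toFun := fun x j => x.1 (Sum.inr j)
      invFun := fun y => ⟨Sum.elim (fun _ => 1 + ∑ j, y j) y, by
        rw [unit_iff, Fintype.sum_sum_type]
        simp only [Sum.elim_inl, Sum.elim_inr, Finset.univ_unique, Finset.sum_singleton]
        linear_combination (∑ j, y j) * h2⟩
      left_inv := fun x => by
        apply Subtype.ext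
        funext i
        have h := (unit_iff x.1).mp x.2
        rw [Fintype.sum_sum_type] at h
        simp only [Finset.univ_unique, Finset.sum_singleton] at h
        rcases i with u | j
        · show 1 + ∑ j, x.1 (Sum.inr j) = x.1 (Sum.inl u)
          have hu : u = default := Subsingleton.elim _ _
          rw [hu]
          linear_combination -h + (∑ j, x.1 (Sum.inr j)) * h2
        · rfl
      right_inv := fun y => rfl }

theorem unit_ne_card [Fintype F] :
    Nat.card {x : Unit ⊕ κ → F // x ⬝ᵥ x = 1 ∧ x ≠ fun _ => 1} =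
      Fintype.card F ^ Fintype.card κ - (if Even (Fintype.card κ) then 1 else 0) := by
  have hone : ((fun _ => 1 : Unit ⊕ κ → F) ⬝ᵥ fun _ => 1) = 1 ↔ Even (Fintype.card κ) := by
    rw [unit_iff, Finset.sum_const, Finset.card_univ, Fintype.card_sum, Fintype.card_unique,
      nsmul_eq_mul, mul_one, Nat.cast_add, Nat.cast_one, add_comm]
    constructor
    · intro h
      have h0 : ((Fintype.card κ : ℕ) : F) = 0 := by linear_combination h
      exact even_iff_two_dvd.mpr ((CharP.cast_eq_zero_iff F 2 _).mp h0)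
    · intro h
      have h0 : ((Fintype.card κ : ℕ) : F) = 0 :=
        (CharP.cast_eq_zero_iff F 2 _).mpr (even_iff_two_dvd.mp h)
      rw [h0, zero_add]
  by_cases hev : Even (Fintype.card κ)
  · rw [if_pos hev, ← unit_card (F := F) (κ := κ)]
    show Nat.card ↥({x : Unit ⊕ κ → F | x ⬝ᵥ x = 1} \ {fun _ => 1}) = _
    rw [Nat.card_coe_set_eq, Set.ncard_sdiff_singleton_of_mem
      (s := {x : Unit ⊕ κ → F | x ⬝ᵥ x = 1}) (a := fun _ => 1) (hone.mpr hev),
      ← Nat.card_coe_set_eq]
    rfl
  · rw [if_neg hev, Nat.sub_zero, ← unit_card (F := F) (κ := κ)]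
    apply Nat.card_congr
    apply Equiv.subtypeEquivRight
    intro x
    constructor
    · exact fun h => h.1
    · intro h
      refine ⟨h, ?_⟩
      rintro rfl
      exact hev (hone.mp h)

theorem o_step [Fintype F] [Nonempty κ] :
    Nat.card {A : Matrix (Unit ⊕ κ) (Unit ⊕ κ) F // IsO A} =
      (Fintype.card F ^ Fintype.card κ - (if Even (Fintype.card κ) then 1 else 0)) *
        Nat.card {B : Matrix κ κ F // IsO B} := by
  rw [← unit_ne_card (F := F) (κ := κ)]
  apply card_eq_of_fibers (fun A : {A : Matrix (Unit ⊕ κ) (Unit ⊕ κ) F // IsO A} =>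
    (⟨A.1 *ᵥ e0 κ F, by rw [isO_dot A.2, e0_unit], e0_ne_one A.1 A.2⟩ :
      {x : Unit ⊕ κ → F // x ⬝ᵥ x = 1 ∧ x ≠ fun _ => 1}))
  intro y
  rw [← stab_card]
  obtain ⟨A₀, hA₀, hA₀y⟩ := trans_unit y.1 y.2.1 y.2.2
  have hA₀t : IsO A₀ᵀ := by
    unfold IsO
    rw [Matrix.transpose_transpose]
    exact isO_tr hA₀
  apply Nat.card_congr
  exact
    { toFun := fun A => ⟨A₀ᵀ * A.1.1, isO_mul hA₀t A.1.2, by
        have h1 : A.1.1 *ᵥ e0 κ F = y.1 := congrArg Subtype.val A.2
        rw [← Matrix.mulVec_mulVec, h1, ← hA₀y, Matrix.mulVec_mulVec, isO_tr hA₀,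
          Matrix.one_mulVec]⟩
      invFun := fun B => ⟨⟨A₀ * B.1, isO_mul hA₀ B.2.1⟩, Subtype.ext (by
        show (A₀ * B.1) *ᵥ e0 κ F = y.1
        rw [← Matrix.mulVec_mulVec, B.2.2, hA₀y])⟩
      left_inv := fun A => by
        apply Subtype.ext
        apply Subtype.ext
        show A₀ * (A₀ᵀ * A.1.1) = A.1.1
        have h : A₀ * A₀ᵀ = 1 := hA₀
        rw [← Matrix.mul_assoc, h, Matrix.one_mul]
      right_inv := fun B => by
        apply Subtype.ext
        show A₀ᵀ * (A₀ * B.1) = B.1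
        rw [← Matrix.mul_assoc, isO_tr hA₀, Matrix.one_mul] }

omit [CharP F 2] in
theorem o_congr {κ' : Type} [Fintype κ'] [DecidableEq κ'] (e : κ ≃ κ') :
    Nat.card {A : Matrix κ κ F // IsO A} = Nat.card {A : Matrix κ' κ' F // IsO A} := by
  have key : ∀ {α β : Type} [Fintype α] [DecidableEq α] [Fintype β] [DecidableEq β] (e : α ≃ β)
      (A : Matrix α α F), IsO A → IsO (Matrix.reindex e e A) := by
    intro α β _ _ _ _ e A h
    unfold IsO at *
    rw [Matrix.reindex_apply, Matrix.transpose_submatrix, Matrix.submatrix_mul_equiv, h,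
      Matrix.submatrix_one_equiv]
  apply Nat.card_congr
  refine Equiv.subtypeEquiv (Matrix.reindex e e) ?_
  intro A
  constructor
  · exact key e A
  · intro h
    have h1 := key e.symm _ h
    have h2 : Matrix.reindex e.symm e.symm (Matrix.reindex e e A) = A := by
      ext i j
      simp
    rw [h2] at h1
    exact h1

/-- the number of orthogonal matrices of size `n` for the dot product -/
noncomputable def oc (F : Type*) [Field F] (n : ℕ) : ℕ :=
  Nat.card {A : Matrix (Fin n) (Fin n) F // IsO A}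

omit [CharP F 2] in
theorem oc_zero : oc F 0 = 1 := by
  unfold oc
  have : Unique {A : Matrix (Fin 0) (Fin 0) F // IsO A} :=
    { default := ⟨1, by unfold IsO; ext i; exact i.elim0⟩
      uniq := fun A => Subtype.ext (by ext i; exact i.elim0) }
  exact Nat.card_unique

theorem oc_one : oc F 1 = 1 := by
  unfold oc
  have : Unique {A : Matrix (Fin 1) (Fin 1) F // IsO A} :=
    { default := ⟨1, by unfold IsO; rw [Matrix.transpose_one, Matrix.mul_one]⟩
      uniq := fun A => Subtype.ext (by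
        ext i j
        have hi : i = 0 := Subsingleton.elim _ _
        have hj : j = 0 := Subsingleton.elim _ _
        subst hi
        subst hj
        have h := congrFun (congrFun A.2 0) 0
        rw [Matrix.mul_apply] at h
        simp only [Finset.univ_unique, Finset.sum_singleton, Matrix.transpose_apply,
          Matrix.one_apply_eq] at h
        have h0 : (default : Fin 1) = 0 := Subsingleton.elim _ _
        rw [h0] at h
        show A.1 0 0 = (1 : Matrix (Fin 1) (Fin 1) F) 0 0
        rw [Matrix.one_apply_eq]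
        apply CharTwo.sq_injective (R := F)
        show A.1 0 0 ^ 2 = 1 ^ 2
        rw [pow_two, h, one_pow]) }
  exact Nat.card_unique

theorem oc_succ [Fintype F] (n : ℕ) :
    oc F (n + 2) = (Fintype.card F ^ (n + 1) - (if Even (n + 1) then 1 else 0)) * oc F (n + 1) := by
  unfold oc
  have e : Fin (n + 2) ≃ Unit ⊕ Fin (n + 1) := Fintype.equivOfCardEq (by
    rw [Fintype.card_fin, Fintype.card_sum, Fintype.card_unique, Fintype.card_fin]
    omega)
  rw [o_congr e, o_step, Fintype.card_fin]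

theorem oc_odd_even [Fintype F] (j : ℕ) :
    oc F (2 * j + 1) = Fintype.card F ^ (j ^ 2) *
        ∏ i ∈ Finset.range j, (Fintype.card F ^ (2 * (i + 1)) - 1) ∧
      oc F (2 * j + 2) = Fintype.card F ^ (2 * j + 1) * (Fintype.card F ^ (j ^ 2) *
        ∏ i ∈ Finset.range j, (Fintype.card F ^ (2 * (i + 1)) - 1)) := by
  have hstep : ∀ j, oc F (2 * j + 1) = Fintype.card F ^ (j ^ 2) *
        ∏ i ∈ Finset.range j, (Fintype.card F ^ (2 * (i + 1)) - 1) →
      oc F (2 * j + 2) = Fintype.card F ^ (2 * j + 1) * (Fintype.card F ^ (j ^ 2) *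
        ∏ i ∈ Finset.range j, (Fintype.card F ^ (2 * (i + 1)) - 1)) := by
    intro j h
    rw [oc_succ, h, if_neg (by rw [Nat.not_even_iff_odd]; exact ⟨j, rfl⟩), Nat.sub_zero]
  induction j with
  | zero =>
    have h1 : oc F (2 * 0 + 1) = Fintype.card F ^ (0 ^ 2) *
        ∏ i ∈ Finset.range 0, (Fintype.card F ^ (2 * (i + 1)) - 1) := by
      rw [Finset.range_zero, Finset.prod_empty]
      simp [oc_one]
    exact ⟨h1, hstep 0 h1⟩
  | succ j ih =>
    have h1 : oc F (2 * (j + 1) + 1) = Fintype.card F ^ ((j + 1) ^ 2) *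
        ∏ i ∈ Finset.range (j + 1), (Fintype.card F ^ (2 * (i + 1)) - 1) := by
      have e : 2 * (j + 1) + 1 = (2 * j + 1) + 2 := by ring
      rw [e, oc_succ, if_pos (by exact ⟨j + 1, by ring⟩), ih.2, Finset.prod_range_succ]
      have e2 : Fintype.card F ^ ((j + 1) ^ 2) =
          Fintype.card F ^ (2 * j + 1) * Fintype.card F ^ (j ^ 2) := by
        rw [← pow_add]
        congr 1
        ring
      have e3 : Fintype.card F ^ (2 * j + 1 + 1) = Fintype.card F ^ (2 * (j + 1)) := by
        congr 1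
      rw [e2, e3]
      ring
    exact ⟨h1, hstep (j + 1) h1⟩

open Cfsg.Agent.Lib.Helper13.CentCount (PS) in
omit [CharP F 2] in
theorem ps_refl (A : Matrix κ κ F) : PS (Equiv.refl κ) A ↔ IsO A := by
  unfold PS IsO
  constructor
  · intro h
    ext j i
    rw [Matrix.mul_apply, Matrix.one_apply]
    have := h j i
    simp only [Equiv.refl_apply] at this
    simp only [Matrix.transpose_apply]
    rw [this]
    by_cases hij : i = j
    · subst hij
      simp
    · simp [hij]
      exact fun h => hij h.symm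
  · intro h j i
    have := congrFun (congrFun h j) i
    rw [Matrix.mul_apply, Matrix.one_apply] at this
    simp only [Matrix.transpose_apply] at this
    simp only [Equiv.refl_apply]
    rw [this]
    by_cases hij : i = j
    · subst hij
      simp
    · simp [hij]
      exact fun h => hij h.symm

open Cfsg.Agent.Lib.Helper13.CentCount (PS) in
omit [CharP F 2] in
theorem card_ps_refl (n : ℕ) :
    Nat.card {A : Matrix (Fin n) (Fin n) F // PS (Equiv.refl (Fin n)) A} = oc F n := by
  unfold oc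
  apply Nat.card_congr
  exact Equiv.subtypeEquivRight (fun A => ps_refl A)

end Cfsg.Agent.Lib.Helper13.SymOrth
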