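import Mathlib
import Cfsg.Agent.S5631
import Cfsg.Agent.S5645
import Cfsg.Agent.Lib.Helper5.SympCount
import Cfsg.Agent.Lib.Helper28.Herm
import Cfsg.Agent.Lib.Helper13.AltInv
import Cfsg.Agent.Lib.Helper13.OrthInv
import Cfsg.Agent.Lib.Helper13.CentCount
import Cfsg.Agent.Lib.Helper13.SymOrth

set_option autoImplicit false
open Cfsg

namespace Cfsg.Agent.Lib.Helper13.OrthCent

open Matrix
open Cfsg.Agent.S5631 Cfsg.Agent.S5645
open Cfsg.Agent.Lib.Helper28.Herm (Isom isom_inv isom_mul)
open Cfsg.Agent.Lib.Helper13.AltInv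
open Cfsg.Agent.Lib.Helper13.OrthInv (pf pf_isAlt isom_of_Q witt_Q)
open Cfsg.Agent.Lib.Helper13.CentCount
open Cfsg.Agent.Lib.Helper5.SympCount (card_eq_of_fibers)

variable {ι : Type} [Fintype ι] [DecidableEq ι] {F : Type*} [Field F]

/-! ### a generic fibration count -/

theorem cent_card_gen [Fintype F] {κ : Type} [Fintype κ] (P : GL ι F → Prop)
    (hmul : ∀ g h, P g → P h → P (g * h)) (hinv : ∀ g, P g → P g⁻¹)
    (X : (κ → ι → F) → Prop)
    (hX : ∀ g, P g → ∀ w, X w → X (fun i => (g : Matrix ι ι F) *ᵥ w i))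
    (htr : ∀ w w', X w → X w' → ∃ g, P g ∧ ∀ i, (g : Matrix ι ι F) *ᵥ w i = w' i)
    (w₀ : κ → ι → F) (hw₀ : X w₀) (Y : Set (κ → ι → F)) (hY : ∀ y ∈ Y, X y) :
    Nat.card {g : GL ι F // P g ∧ (fun i => (g : Matrix ι ι F) *ᵥ w₀ i) ∈ Y} *
        Nat.card {w : κ → ι → F // X w} =
      Nat.card ↥Y * Nat.card {g : GL ι F // P g} := by
  classical
  obtain ⟨c, hc⟩ : ∃ c, c = Nat.card {g : GL ι F // P g ∧
      ∀ i, (g : Matrix ι ι F) *ᵥ w₀ i = w₀ i} := ⟨_, rfl⟩
  have hfib : ∀ x : κ → ι → F, X x →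
      Nat.card {g : GL ι F // P g ∧ ∀ i, (g : Matrix ι ι F) *ᵥ w₀ i = x i} = c := by
    intro x hx
    obtain ⟨g₀, hg₀, hg₀w⟩ := htr w₀ x hw₀ hx
    rw [hc]
    apply Nat.card_congr
    exact
      { toFun := fun g => ⟨g₀⁻¹ * g.1, hmul _ _ (hinv _ hg₀) g.2.1, fun i => by
          rw [Units.val_mul, ← Matrix.mulVec_mulVec, g.2.2 i, ← hg₀w i, gl_inv_mulVec]⟩
        invFun := fun g => ⟨g₀ * g.1, hmul _ _ hg₀ g.2.1, fun i => by
          rw [Units.val_mul, ← Matrix.mulVec_mulVec, g.2.2 i, hg₀w i]⟩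
        left_inv := fun g => Subtype.ext (by
          show g₀ * (g₀⁻¹ * g.1) = g.1
          group)
        right_inv := fun g => Subtype.ext (by
          show g₀⁻¹ * (g₀ * g.1) = g.1
          group) }
  have h1 : Nat.card {g : GL ι F // P g} = Nat.card {w : κ → ι → F // X w} * c := by
    apply card_eq_of_fibers (fun g : {g : GL ι F // P g} =>
      (⟨fun i => (g.1 : Matrix ι ι F) *ᵥ w₀ i, hX g.1 g.2 w₀ hw₀⟩ : {w : κ → ι → F // X w}))
    intro y
    rw [← hfib y.1 y.2]
    apply Nat.card_congr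
    exact
      { toFun := fun g => ⟨g.1.1, g.1.2, fun i => congrFun (congrArg Subtype.val g.2) i⟩
        invFun := fun g => ⟨⟨g.1, g.2.1⟩, Subtype.ext (funext g.2.2)⟩
        left_inv := fun g => rfl
        right_inv := fun g => rfl }
  have h2 : Nat.card {g : GL ι F // P g ∧ (fun i => (g : Matrix ι ι F) *ᵥ w₀ i) ∈ Y} =
      Nat.card ↥Y * c := by
    apply card_eq_of_fibers
      (fun g : {g : GL ι F // P g ∧ (fun i => (g : Matrix ι ι F) *ᵥ w₀ i) ∈ Y} =>
        (⟨fun i => (g.1 : Matrix ι ι F) *ᵥ w₀ i, g.2.2⟩ : ↥Y))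
    intro y
    rw [← hfib y.1 (hY y.1 y.2)]
    apply Nat.card_congr
    exact
      { toFun := fun g => ⟨g.1.1, g.1.2.1, fun i => congrFun (congrArg Subtype.val g.2) i⟩
        invFun := fun g => ⟨⟨g.1, g.2.1, by
            have : (fun i => (g.1 : Matrix ι ι F) *ᵥ w₀ i) = y.1 := funext g.2.2
            rw [this]
            exact y.2⟩, Subtype.ext (funext g.2.2)⟩
        left_inv := fun g => rfl
        right_inv := fun g => rfl }
  rw [h1, h2]
  ring

/-! ### values of `Q` on combinations of a totally isotropic family -/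

theorem Q_sum (Q : QuadraticForm F (ι → F)) {κ : Type} [DecidableEq κ] (w : κ → ι → F)
    (hti : ∀ i j, pf Q (w i) (w j) = 0) (a : κ → F) (s : Finset κ) :
    Q (∑ i ∈ s, a i • w i) = ∑ i ∈ s, a i * a i * Q (w i) := by
  induction s using Finset.induction_on with
  | empty => simp
  | insert j s hj ih =>
    rw [Finset.sum_insert hj, Finset.sum_insert hj, QuadraticMap.map_add (⇑Q), ih,
      QuadraticMap.map_smul, smul_eq_mul]
    have h0 : QuadraticMap.polar ⇑Q (a j • w j) (∑ i ∈ s, a i • w i) = 0 := by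
      rw [← QuadraticMap.polarBilin_apply_apply, map_sum]
      apply Finset.sum_eq_zero
      intro i _
      rw [map_smul, QuadraticMap.polarBilin_apply_apply, QuadraticMap.polar_smul_left]
      have := hti j i
      unfold pf at this
      rw [this, smul_zero, smul_zero]
    rw [h0, add_zero]

/-- the main counting statement for an orthogonal group -/
theorem cent_main_Q [Fintype F] (Q : QuadraticForm F (ι → F))
    (hQ : (QuadraticMap.polarBilin Q).Nondegenerate) (h2 : (2 : F) = 0)
    {κ : Type} [Fintype κ] [DecidableEq κ] (σ : κ ≃ κ) (c : F)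
    (w : κ → ι → F) (hw : IsFrame (pf Q) w) (hwc : ∀ i, Q (w i) = c)
    (hYc : ∀ A : Matrix κ κ F, PS σ A → ∀ j, Q (fr w A j) = c)
    (t : GL ι F) (ht : ∀ y, (t : Matrix ι ι F) *ᵥ y = y + nop (pf Q) σ w y) :
    Nat.card {g : GL ι F // (∀ v, Q ((g : Matrix ι ι F) *ᵥ v) = Q v) ∧ g * t = t * g} *
        Nat.card {w : κ → ι → F // IsFrame (pf Q) w ∧ ∀ i, Q (w i) = c} =
      Nat.card {A : Matrix κ κ F // PS σ A} *
        Nat.card {g : GL ι F // ∀ v, Q ((g : Matrix ι ι F) *ᵥ v) = Q v} := by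
  have hf := pf_isAlt Q hQ h2
  have h := cent_card_gen (fun g : GL ι F => ∀ v, Q ((g : Matrix ι ι F) *ᵥ v) = Q v)
    (fun g h hg hh v => by rw [Units.val_mul, ← Matrix.mulVec_mulVec, hg, hh])
    (fun g hg v => by
      have := hg (((g⁻¹ : GL ι F) : Matrix ι ι F) *ᵥ v)
      rw [gl_mulVec_inv] at this
      exact this.symm)
    (fun w : κ → ι → F => IsFrame (pf Q) w ∧ ∀ i, Q (w i) = c)
    (fun g hg w hw => ⟨frame_map g (isom_of_Q Q g hg) w hw.1, fun i => by rw [hg, hw.2 i]⟩)
    (fun w w' hw hw' => witt_Q Q hQ h2 w w' hw.1.1 hw'.1.1 hw.1.2 hw'.1.2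
      (fun i => by rw [hw.2 i, hw'.2 i]))
    w ⟨hw, hwc⟩ {y | ∃ A : Matrix κ κ F, PS σ A ∧ y = fr w A} (by
      rintro y ⟨A, hA, rfl⟩
      exact ⟨fr_frame hf σ w hw A hA, hYc A hA⟩)
  have e1 : Nat.card {g : GL ι F // (∀ v, Q ((g : Matrix ι ι F) *ᵥ v) = Q v) ∧ g * t = t * g} =
      Nat.card {g : GL ι F // (∀ v, Q ((g : Matrix ι ι F) *ᵥ v) = Q v) ∧
        (fun i => (g : Matrix ι ι F) *ᵥ w i) ∈ {y | ∃ A : Matrix κ κ F, PS σ A ∧ y = fr w A}} := by
    apply Nat.card_congr
    apply Equiv.subtypeEquivRight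
    intro g
    constructor
    · rintro ⟨h1, h2⟩
      exact ⟨h1, (comm_iff hf σ w hw.1 t ht g (isom_of_Q Q g h1)).mp h2⟩
    · rintro ⟨h1, h2⟩
      exact ⟨h1, (comm_iff hf σ w hw.1 t ht g (isom_of_Q Q g h1)).mpr h2⟩
  have e2 : Nat.card {A : Matrix κ κ F // PS σ A} =
      Nat.card ↥{y | ∃ A : Matrix κ κ F, PS σ A ∧ y = fr w A} := by
    apply Nat.card_congr
    refine Equiv.ofBijective (fun A => ⟨fr w A.1, A.1, A.2, rfl⟩) ⟨?_, ?_⟩
    · intro A B hAB
      exact Subtype.ext (fr_inj w hw.1 (congrArg Subtype.val hAB))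
    · rintro ⟨y, A, hA, rfl⟩
      exact ⟨⟨A, hA⟩, rfl⟩
  rw [e1, e2]
  exact h

/-! ### generic counting of families by adding one vector at a time -/

theorem cons_count {V : Type*} [Finite V] (X : ∀ k : ℕ, (Fin k → V) → Prop)
    (h0 : ∀ w : Fin 0 → V, X 0 w)
    (htail : ∀ (k : ℕ) (w : Fin (k + 1) → V), X (k + 1) w → X k (Fin.tail w))
    (c : ℕ → ℕ)
    (hstep : ∀ (k : ℕ) (w : Fin k → V), X k w →
      Nat.card {x : V // X (k + 1) (Fin.cons x w : Fin (k + 1) → V)} = c k) :
    ∀ k, Nat.card {w : Fin k → V // X k w} = ∏ i ∈ Finset.range k, c i := by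
  intro k
  induction k with
  | zero =>
    rw [Finset.range_zero, Finset.prod_empty]
    have : Unique {w : Fin 0 → V // X 0 w} :=
      { default := ⟨fun i => i.elim0, h0 _⟩
        uniq := fun a => Subtype.ext (funext fun i => i.elim0) }
    exact Nat.card_unique
  | succ k ih =>
    rw [Finset.prod_range_succ, ← ih]
    apply card_eq_of_fibers
      (fun w : {w : Fin (k + 1) → V // X (k + 1) w} =>
        (⟨Fin.tail w.1, htail k w.1 w.2⟩ : {w : Fin k → V // X k w}))
    intro y
    rw [← hstep k y.1 y.2]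
    apply Nat.card_congr
    exact
      { toFun := fun x => ⟨x.1.1 0, by
          have h1 : Fin.tail x.1.1 = y.1 := congrArg Subtype.val x.2
          have h2 := x.1.2
          rw [← Fin.cons_self_tail x.1.1, h1] at h2
          exact h2⟩
        invFun := fun x => ⟨⟨Fin.cons x.1 y.1, x.2⟩, Subtype.ext (by
          show Fin.tail (Fin.cons x.1 y.1 : Fin (k + 1) → V) = y.1
          funext i
          show (Fin.cons x.1 y.1 : Fin (k + 1) → V) i.succ = y.1 i
          rw [Fin.cons_succ])⟩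
        left_inv := fun x => by
          apply Subtype.ext
          apply Subtype.ext
          have h1 : Fin.tail x.1.1 = y.1 := congrArg Subtype.val x.2
          show Fin.cons (x.1.1 0) y.1 = x.1.1
          rw [← h1]
          exact Fin.cons_self_tail x.1.1
        right_inv := fun x => by
          apply Subtype.ext
          show (Fin.cons x.1 y.1 : Fin (k + 1) → V) 0 = x.1
          exact Fin.cons_zero _ _ }

theorem card_split {α : Type*} [Finite α] (p q : α → Prop) :
    Nat.card {x // p x} = Nat.card {x // p x ∧ q x} + Nat.card {x // p x ∧ ¬ q x} := by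
  show Nat.card ↥{x | p x} = Nat.card ↥({x | p x} ∩ {x | q x}) + Nat.card ↥({x | p x} \ {x | q x})
  rw [Nat.card_coe_set_eq, Nat.card_coe_set_eq, Nat.card_coe_set_eq]
  exact (Set.ncard_inter_add_ncard_sdiff_eq_ncard _ _ (Set.toFinite _)).symm

theorem frame_le [Fintype F] {f : (ι → F) → (ι → F) → F} (hf : IsAlt f) {κ : Type} [Fintype κ]
    [DecidableEq κ] (w : κ → ι → F) (hw : IsFrame f w) :
    2 * Fintype.card κ ≤ Fintype.card ι := by
  have h1 := perp_card hf w hw.1
  have h2 : Nat.card ↥(Submodule.span F (Set.range w)) = Fintype.card F ^ Fintype.card κ := by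
    rw [Module.natCard_eq_pow_finrank (K := F), Nat.card_eq_fintype_card,
      finrank_span_eq_card hw.1]
  have h3 : Nat.card ↥(Submodule.span F (Set.range w)) ≤
      Nat.card {x : ι → F // ∀ j, f x (w j) = 0} := by
    apply Nat.card_le_card_of_injective
      (fun x : ↥(Submodule.span F (Set.range w)) =>
        (⟨x.1, fun j => by
          apply aspan_perp hf _ _ _ x.1 x.2
          rintro _ ⟨i, rfl⟩
          exact hw.2 i j⟩ : {x : ι → F // ∀ j, f x (w j) = 0}))
    intro x y h
    have h' := congrArg (fun z : {x : ι → F // ∀ j, f x (w j) = 0} => z.1) h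
    exact Subtype.ext h'
  rw [h1, h2] at h3
  have hq : 1 < Fintype.card F := Fintype.one_lt_card
  have := (Nat.pow_le_pow_iff_right hq).mp h3
  omega

/-! ### counting totally singular frames -/

section CharTwo

variable [Fintype F] [CharP F 2]

theorem Q_add_smul (Q : QuadraticForm F (ι → F)) (x w' : ι → F) (a : F) :
    Q (x + a • w') = Q x + a * a * Q w' + a * pf Q x w' := by
  rw [QuadraticMap.map_add (⇑Q), QuadraticMap.map_smul, QuadraticMap.polar_smul_right]
  rfl

theorem slice0 (Q : QuadraticForm F (ι → F)) (hQ : (QuadraticMap.polarBilin Q).Nondegenerate)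
    (P : Submodule F (ι → F)) (w' : ι → F) (hw'P : w' ∈ P) (hQw' : Q w' = 0) :
    Nat.card {x : ι → F // x ∈ P ∧ pf Q x w' ≠ 0 ∧ Q x = 0} * Fintype.card F =
      Nat.card {x : ι → F // x ∈ P ∧ pf Q x w' ≠ 0} := by
  have h2 : (2 : F) = 0 := CharTwo.two_eq_zero
  have hf := pf_isAlt Q hQ h2
  rw [← Nat.card_eq_fintype_card (α := F), ← Nat.card_prod]
  apply Nat.card_congr
  have hpol : ∀ (x : ι → F) (a : F), pf Q (x + a • w') w' = pf Q x w' := by
    intro x a
    rw [hf.add_left, hf.smul_left, hf.self, mul_zero, add_zero]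
  exact
    { toFun := fun p => ⟨p.1.1 + p.2 • w', P.add_mem p.1.2.1 (P.smul_mem _ hw'P), by
        rw [hpol]
        exact p.1.2.2.1⟩
      invFun := fun y => (⟨y.1 + (Q y.1 / pf Q y.1 w') • w',
        P.add_mem y.2.1 (P.smul_mem _ hw'P), by
          rw [hpol]
          exact y.2.2, by
          rw [Q_add_smul, hQw', mul_zero, add_zero, div_mul_cancel₀ _ y.2.2]
          exact CharTwo.add_self_eq_zero _⟩, Q y.1 / pf Q y.1 w')
      left_inv := fun p => by
        have hq0 : Q p.1.1 = 0 := p.1.2.2.2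
        have hne : pf Q p.1.1 w' ≠ 0 := p.1.2.2.1
        have e : Q (p.1.1 + p.2 • w') / pf Q (p.1.1 + p.2 • w') w' = p.2 := by
          rw [hpol, Q_add_smul, hQw', mul_zero, add_zero, hq0, zero_add, mul_div_assoc,
            div_self hne, mul_one]
        apply Prod.ext
        · apply Subtype.ext
          show p.1.1 + p.2 • w' + (Q (p.1.1 + p.2 • w') / pf Q (p.1.1 + p.2 • w') w') • w' = p.1.1
          rw [e, add_assoc, ← add_smul, CharTwo.add_self_eq_zero, zero_smul, add_zero]
        · exact e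
      right_inv := fun y => by
        apply Subtype.ext
        show y.1 + (Q y.1 / pf Q y.1 w') • w' + (Q y.1 / pf Q y.1 w') • w' = y.1
        rw [add_assoc, ← add_smul, CharTwo.add_self_eq_zero, zero_smul, add_zero] }

theorem perp_cons (Q : QuadraticForm F (ι → F)) {k : ℕ} (w : Fin k → ι → F) (w' x : ι → F) :
    (∀ j, pf Q x ((Fin.cons w' w : Fin (k + 1) → ι → F) j) = 0) ↔
      (∀ j, pf Q x (w j) = 0) ∧ pf Q x w' = 0 := by
  rw [Fin.forall_fin_succ]
  simp only [Fin.cons_zero, Fin.cons_succ]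
  exact and_comm

theorem sing_step (Q : QuadraticForm F (ι → F)) (hQ : (QuadraticMap.polarBilin Q).Nondegenerate)
    {k : ℕ} (w : Fin k → ι → F) (w' : ι → F)
    (hfr : IsFrame (pf Q) (Fin.cons w' w : Fin (k + 1) → ι → F)) (hw' : Q w' = 0) :
    Nat.card {x : ι → F // (∀ j, pf Q x (w j) = 0) ∧ Q x = 0} +
        Fintype.card F ^ (Fintype.card ι - k - 2) =
      Nat.card {x : ι → F //
        (∀ j, pf Q x ((Fin.cons w' w : Fin (k + 1) → ι → F) j) = 0) ∧ Q x = 0} +
        Fintype.card F ^ (Fintype.card ι - k - 1) := by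
  classical
  have h2 : (2 : F) = 0 := CharTwo.two_eq_zero
  have hf := pf_isAlt Q hQ h2
  have hle := frame_le hf _ hfr
  rw [Fintype.card_fin] at hle
  have hw : IsFrame (pf Q) w := by
    have := frame_tail _ hfr
    rw [Fin.tail_cons] at this
    exact this
  have hP : ∀ x, x ∈ LinearMap.ker (evalMap hf w) ↔ ∀ j, pf Q x (w j) = 0 := by
    intro x
    rw [LinearMap.mem_ker]
    constructor
    · intro h j
      exact congrFun h j
    · intro h
      funext j
      exact h j
  have hw'P : w' ∈ LinearMap.ker (evalMap hf w) := by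
    rw [hP]
    intro j
    have := hfr.2 0 j.succ
    rw [Fin.cons_zero, Fin.cons_succ] at this
    exact this
  -- split the singular vectors of the perp by `pf Q x w' = 0`
  have s1 := card_split (fun x : ι → F => (∀ j, pf Q x (w j) = 0) ∧ Q x = 0)
    (fun x => pf Q x w' = 0)
  have e1 : Nat.card {x : ι → F // ((∀ j, pf Q x (w j) = 0) ∧ Q x = 0) ∧ pf Q x w' = 0} =
      Nat.card {x : ι → F //
        (∀ j, pf Q x ((Fin.cons w' w : Fin (k + 1) → ι → F) j) = 0) ∧ Q x = 0} := by
    apply Nat.card_congr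
    apply Equiv.subtypeEquivRight
    intro x
    rw [perp_cons]
    tauto
  have e2 : Nat.card {x : ι → F // ((∀ j, pf Q x (w j) = 0) ∧ Q x = 0) ∧ ¬ pf Q x w' = 0} =
      Nat.card {x : ι → F // x ∈ LinearMap.ker (evalMap hf w) ∧ pf Q x w' ≠ 0 ∧ Q x = 0} := by
    apply Nat.card_congr
    apply Equiv.subtypeEquivRight
    intro x
    rw [hP]
    tauto
  -- the vectors of the perp not orthogonal to `w'`
  have s2 := card_split (fun x : ι → F => ∀ j, pf Q x (w j) = 0) (fun x => pf Q x w' = 0)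
  have e3 : Nat.card {x : ι → F // (∀ j, pf Q x (w j) = 0) ∧ pf Q x w' = 0} =
      Nat.card {x : ι → F // ∀ j, pf Q x ((Fin.cons w' w : Fin (k + 1) → ι → F) j) = 0} := by
    apply Nat.card_congr
    apply Equiv.subtypeEquivRight
    intro x
    rw [perp_cons]
  have e4 : Nat.card {x : ι → F // (∀ j, pf Q x (w j) = 0) ∧ ¬ pf Q x w' = 0} =
      Nat.card {x : ι → F // x ∈ LinearMap.ker (evalMap hf w) ∧ pf Q x w' ≠ 0} := by
    apply Nat.card_congr
    apply Equiv.subtypeEquivRight
    intro x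
    rw [hP]
  have p1 := perp_card hf w hw.1
  have p2 := perp_card hf _ hfr.1
  rw [Fintype.card_fin] at p1 p2
  have sl := slice0 Q hQ (LinearMap.ker (evalMap hf w)) w' hw'P hw'
  rw [e1, e2] at s1
  rw [e3, e4, p1, p2] at s2
  rw [← sl] at s2
  -- arithmetic
  obtain ⟨E0, hE0⟩ : ∃ E0, E0 = Nat.card {x : ι → F //
      x ∈ LinearMap.ker (evalMap hf w) ∧ pf Q x w' ≠ 0 ∧ Q x = 0} := ⟨_, rfl⟩
  rw [← hE0] at s1 s2
  have hq : 0 < Fintype.card F := Fintype.card_pos
  have ea : Fintype.card F ^ (Fintype.card ι - k) =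
      Fintype.card F * Fintype.card F ^ (Fintype.card ι - k - 1) := by
    rw [← pow_succ']
    congr 1
    omega
  have eb : Fintype.card F ^ (Fintype.card ι - (k + 1)) =
      Fintype.card F * Fintype.card F ^ (Fintype.card ι - k - 2) := by
    rw [← pow_succ']
    congr 1
    omega
  have ec : Fintype.card ι - (k + 1) = Fintype.card ι - k - 1 := by omega
  have key : E0 + Fintype.card F ^ (Fintype.card ι - k - 2) =
      Fintype.card F ^ (Fintype.card ι - k - 1) := by
    apply Nat.eq_of_mul_eq_mul_left hq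
    rw [ea, eb] at s2
    rw [ec] at eb
    rw [mul_add, ← eb]
    rw [← eb] at s2
    linarith
  rw [s1]
  omega

theorem sing_perp (Q : QuadraticForm F (ι → F)) (hQ : (QuadraticMap.polarBilin Q).Nondegenerate) :
    ∀ (k : ℕ) (w : Fin k → ι → F), IsFrame (pf Q) w → (∀ j, Q (w j) = 0) →
      Nat.card {x : ι → F // (∀ j, pf Q x (w j) = 0) ∧ Q x = 0} +
          Fintype.card F ^ (Fintype.card ι - 1) =
        Nat.card {x : ι → F // Q x = 0} + Fintype.card F ^ (Fintype.card ι - 1 - k) := by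
  intro k
  induction k with
  | zero =>
    intro w _ _
    rw [Nat.sub_zero]
    congr 1
    apply Nat.card_congr
    apply Equiv.subtypeEquivRight
    intro x
    constructor
    · exact fun h => h.2
    · exact fun h => ⟨fun j => j.elim0, h⟩
  | succ k ih =>
    intro w hw hq
    have h2 : (2 : F) = 0 := CharTwo.two_eq_zero
    have hf := pf_isAlt Q hQ h2
    have hle := frame_le hf _ hw
    rw [Fintype.card_fin] at hle
    have e : (Fin.cons (w 0) (Fin.tail w) : Fin (k + 1) → ι → F) = w := Fin.cons_self_tail w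
    have hfr : IsFrame (pf Q) (Fin.cons (w 0) (Fin.tail w) : Fin (k + 1) → ι → F) := by
      rw [e]
      exact hw
    have h1 := ih (Fin.tail w) (frame_tail w hw) (fun j => hq j.succ)
    have h3 := sing_step Q hQ (Fin.tail w) (w 0) hfr (hq 0)
    rw [e] at h3
    have e1 : Fintype.card ι - 1 - k = Fintype.card ι - k - 1 := by omega
    have e2 : Fintype.card ι - 1 - (k + 1) = Fintype.card ι - k - 2 := by omega
    rw [e1] at h1
    rw [e2]
    omega

theorem Q_span (Q : QuadraticForm F (ι → F)) {κ : Type} [Fintype κ] [DecidableEq κ]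
    (w : κ → ι → F) (hti : ∀ i j, pf Q (w i) (w j) = 0) (x : ι → F)
    (hx : x ∈ Submodule.span F (Set.range w)) :
    ∃ a : κ → F, x = ∑ i, a i • w i ∧ Q x = ∑ i, a i * a i * Q (w i) := by
  obtain ⟨a, ha⟩ := (Submodule.mem_span_range_iff_exists_fun F).mp hx
  exact ⟨a, ha.symm, by rw [← ha, Q_sum Q w hti a Finset.univ]⟩

theorem qframe0_step (Q : QuadraticForm F (ι → F))
    (hQ : (QuadraticMap.polarBilin Q).Nondegenerate) {k : ℕ} (w : Fin k → ι → F)
    (hw : IsFrame (pf Q) w) (hq : ∀ j, Q (w j) = 0) :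
    Nat.card {x : ι → F // IsFrame (pf Q) (Fin.cons x w : Fin (k + 1) → ι → F) ∧ Q x = 0} =
      Nat.card {x : ι → F // Q x = 0} + Fintype.card F ^ (Fintype.card ι - 1 - k) -
        Fintype.card F ^ (Fintype.card ι - 1) - Fintype.card F ^ k := by
  classical
  have h2 : (2 : F) = 0 := CharTwo.two_eq_zero
  have hf := pf_isAlt Q hQ h2
  have e1 : Nat.card {x : ι → F // IsFrame (pf Q) (Fin.cons x w : Fin (k + 1) → ι → F) ∧ Q x = 0} =
      Nat.card ↥({x : ι → F | (∀ j, pf Q x (w j) = 0) ∧ Q x = 0} \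
        ((Submodule.span F (Set.range w) : Submodule F (ι → F)) : Set (ι → F))) := by
    apply Nat.card_congr
    apply Equiv.subtypeEquivRight
    intro x
    rw [frame_cons hf w hw x]
    constructor
    · rintro ⟨⟨h1, h3⟩, h4⟩
      exact ⟨⟨h1, h4⟩, h3⟩
    · rintro ⟨⟨h1, h4⟩, h3⟩
      exact ⟨⟨h1, h3⟩, h4⟩
  have hsub : ((Submodule.span F (Set.range w) : Submodule F (ι → F)) : Set (ι → F)) ⊆
      {x : ι → F | (∀ j, pf Q x (w j) = 0) ∧ Q x = 0} := by
    intro x hx
    refine ⟨fun j => ?_, ?_⟩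
    · apply aspan_perp hf _ _ _ x hx
      rintro _ ⟨i, rfl⟩
      exact hw.2 i j
    · obtain ⟨a, -, ha⟩ := Q_span Q w hw.2 x hx
      rw [ha]
      apply Finset.sum_eq_zero
      intro i _
      rw [hq i, mul_zero]
  have e3 : Nat.card ↥((Submodule.span F (Set.range w) : Submodule F (ι → F)) : Set (ι → F)) =
      Fintype.card F ^ k := by
    show Nat.card ↥(Submodule.span F (Set.range w)) = _
    rw [Module.natCard_eq_pow_finrank (K := F), Nat.card_eq_fintype_card,
      finrank_span_eq_card hw.1, Fintype.card_fin]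
  have h5 := sing_perp Q hQ k w hw hq
  rw [e1, Nat.card_coe_set_eq, Set.ncard_sdiff hsub, ← Nat.card_coe_set_eq,
    ← Nat.card_coe_set_eq, e3]
  have e6 : Nat.card ↥{x : ι → F | (∀ j, pf Q x (w j) = 0) ∧ Q x = 0} =
      Nat.card {x : ι → F // (∀ j, pf Q x (w j) = 0) ∧ Q x = 0} := rfl
  rw [e6]
  omega

/-- the number of totally singular frames -/
theorem qframe0_card (Q : QuadraticForm F (ι → F))
    (hQ : (QuadraticMap.polarBilin Q).Nondegenerate) (k : ℕ) :
    Nat.card {w : Fin k → ι → F // IsFrame (pf Q) w ∧ ∀ i, Q (w i) = 0} =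
      ∏ i ∈ Finset.range k, (Nat.card {x : ι → F // Q x = 0} +
        Fintype.card F ^ (Fintype.card ι - 1 - i) -
        Fintype.card F ^ (Fintype.card ι - 1) - Fintype.card F ^ i) := by
  apply cons_count (fun k (w : Fin k → ι → F) => IsFrame (pf Q) w ∧ ∀ i, Q (w i) = 0)
  · intro w
    exact ⟨⟨linearIndependent_empty_type, fun i => i.elim0⟩, fun i => i.elim0⟩
  · intro k w hw
    exact ⟨frame_tail w hw.1, fun i => hw.2 i.succ⟩
  · intro k w hw
    rw [← qframe0_step Q hQ w hw.1 hw.2]
    apply Nat.card_congr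
    apply Equiv.subtypeEquivRight
    intro x
    constructor
    · rintro ⟨h1, h3⟩
      have := h3 0
      rw [Fin.cons_zero] at this
      exact ⟨h1, this⟩
    · rintro ⟨h1, h3⟩
      refine ⟨h1, fun i => ?_⟩
      induction i using Fin.cases with
      | zero => rw [Fin.cons_zero]; exact h3
      | succ i => rw [Fin.cons_succ]; exact hw.2 i

omit [Fintype F] [CharP F 2] in
theorem qframe_reindex (Q : QuadraticForm F (ι → F)) (c : F) {κ : Type} [Fintype κ] :
    Nat.card {w : κ → ι → F // IsFrame (pf Q) w ∧ ∀ i, Q (w i) = c} =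
      Nat.card {w : Fin (Fintype.card κ) → ι → F // IsFrame (pf Q) w ∧ ∀ i, Q (w i) = c} := by
  apply Nat.card_congr
  refine Equiv.subtypeEquiv (Equiv.arrowCongr (Fintype.equivFin κ) (Equiv.refl _)) ?_
  intro w
  show (IsFrame (pf Q) w ∧ ∀ i, Q (w i) = c) ↔
    (IsFrame (pf Q) (fun i => w ((Fintype.equivFin κ).symm i)) ∧
      ∀ i, Q (w ((Fintype.equivFin κ).symm i)) = c)
  constructor
  · rintro ⟨⟨h1, h2⟩, h3⟩
    exact ⟨⟨h1.comp _ (Fintype.equivFin κ).symm.injective, fun i j => h2 _ _⟩, fun i => h3 _⟩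
  · rintro ⟨⟨h1, h2⟩, h3⟩
    refine ⟨⟨?_, fun i j => ?_⟩, fun i => ?_⟩
    · have := h1.comp _ (Fintype.equivFin κ).injective
      have e : (fun i => w ((Fintype.equivFin κ).symm i)) ∘ (Fintype.equivFin κ) = w := by
        funext i
        simp
      rw [e] at this
      exact this
    · have := h2 (Fintype.equivFin κ i) (Fintype.equivFin κ j)
      simp only [Equiv.symm_apply_apply] at this
      exact this
    · have := h3 (Fintype.equivFin κ i)
      simp only [Equiv.symm_apply_apply] at this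
      exact this

end CharTwo

/-! ### counting frames of vectors of norm one -/

section CharTwoB

variable [Fintype F] [CharP F 2]

/-- a square root -/
noncomputable def sq (c : F) : F := Classical.choose (exists_sqrt (CharTwo.two_eq_zero) c)

theorem sq_mul (c : F) : sq c * sq c = c :=
  Classical.choose_spec (exists_sqrt (CharTwo.two_eq_zero) c)

theorem sq_of_mul (a : F) : sq (a * a) = a := by
  apply CharTwo.sq_injective (R := F)
  show sq (a * a) ^ 2 = a ^ 2
  rw [pow_two, sq_mul, pow_two]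

theorem slice1 (Q : QuadraticForm F (ι → F)) (P : Submodule F (ι → F)) (w₁ : ι → F)
    (hw₁ : w₁ ∈ P) (hQ1 : Q w₁ = 1) (hperp : ∀ x ∈ P, pf Q x w₁ = 0) :
    Nat.card {x : ι → F // x ∈ P ∧ Q x = 1} * Fintype.card F = Nat.card ↥P := by
  rw [← Nat.card_eq_fintype_card (α := F), ← Nat.card_prod]
  apply Nat.card_congr
  exact
    { toFun := fun p => ⟨p.1.1 + p.2 • w₁, P.add_mem p.1.2.1 (P.smul_mem _ hw₁)⟩
      invFun := fun y => (⟨y.1 + sq (Q y.1 + 1) • w₁, P.add_mem y.2 (P.smul_mem _ hw₁), by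
          rw [Q_add_smul, hQ1, mul_one, sq_mul, hperp y.1 y.2, mul_zero, add_zero, ← add_assoc,
            CharTwo.add_self_eq_zero, zero_add]⟩, sq (Q y.1 + 1))
      left_inv := fun p => by
        have hq1 : Q p.1.1 = 1 := p.1.2.2
        have e : sq (Q (p.1.1 + p.2 • w₁) + 1) = p.2 := by
          rw [Q_add_smul, hQ1, mul_one, hperp p.1.1 p.1.2.1, mul_zero, add_zero, hq1]
          have : (1 : F) + p.2 * p.2 + 1 = p.2 * p.2 := by
            rw [add_comm 1 (p.2 * p.2), add_assoc, CharTwo.add_self_eq_zero, add_zero]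
          rw [this, sq_of_mul]
        apply Prod.ext
        · apply Subtype.ext
          show p.1.1 + p.2 • w₁ + sq (Q (p.1.1 + p.2 • w₁) + 1) • w₁ = p.1.1
          rw [e, add_assoc, ← add_smul, CharTwo.add_self_eq_zero, zero_smul, add_zero]
        · exact e
      right_inv := fun y => by
        apply Subtype.ext
        show y.1 + sq (Q y.1 + 1) • w₁ + sq (Q y.1 + 1) • w₁ = y.1
        rw [add_assoc, ← add_smul, CharTwo.add_self_eq_zero, zero_smul, add_zero] }

theorem qframe1_step (Q : QuadraticForm F (ι → F))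
    (hQ : (QuadraticMap.polarBilin Q).Nondegenerate) {k : ℕ} (w : Fin (k + 1) → ι → F)
    (hw : IsFrame (pf Q) w) (hq : ∀ j, Q (w j) = 1) :
    Nat.card {x : ι → F // IsFrame (pf Q) (Fin.cons x w : Fin (k + 2) → ι → F) ∧ Q x = 1} =
      Fintype.card F ^ (Fintype.card ι - k - 2) - Fintype.card F ^ k := by
  classical
  have h2 : (2 : F) = 0 := CharTwo.two_eq_zero
  have hf := pf_isAlt Q hQ h2
  have hle := frame_le hf _ hw
  rw [Fintype.card_fin] at hle
  have hP : ∀ x, x ∈ LinearMap.ker (evalMap hf w) ↔ ∀ j, pf Q x (w j) = 0 := by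
    intro x
    rw [LinearMap.mem_ker]
    constructor
    · intro h j
      exact congrFun h j
    · intro h
      funext j
      exact h j
  have hSP : Submodule.span F (Set.range w) ≤ LinearMap.ker (evalMap hf w) := by
    intro x hx
    rw [hP]
    intro j
    apply aspan_perp hf _ _ _ x hx
    rintro _ ⟨i, rfl⟩
    exact hw.2 i j
  have e1 : Nat.card {x : ι → F // IsFrame (pf Q) (Fin.cons x w : Fin (k + 2) → ι → F) ∧ Q x = 1} =
      Nat.card ↥({x : ι → F | x ∈ LinearMap.ker (evalMap hf w) ∧ Q x = 1} \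
        {x : ι → F | x ∈ Submodule.span F (Set.range w) ∧ Q x = 1}) := by
    apply Nat.card_congr
    apply Equiv.subtypeEquivRight
    intro x
    rw [frame_cons hf w hw x]
    constructor
    · rintro ⟨⟨h1, h3⟩, h4⟩
      exact ⟨⟨(hP x).mpr h1, h4⟩, fun h => h3 h.1⟩
    · rintro ⟨⟨h1, h4⟩, h3⟩
      exact ⟨⟨(hP x).mp h1, fun h => h3 ⟨h, h4⟩⟩, h4⟩
  have hsub : {x : ι → F | x ∈ Submodule.span F (Set.range w) ∧ Q x = 1} ⊆
      {x : ι → F | x ∈ LinearMap.ker (evalMap hf w) ∧ Q x = 1} :=
    fun x hx => ⟨hSP hx.1, hx.2⟩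
  have sP := slice1 Q (LinearMap.ker (evalMap hf w)) (w 0)
    (hSP (Submodule.subset_span ⟨0, rfl⟩)) (hq 0) (fun x hx => (hP x).mp hx 0)
  have sS := slice1 Q (Submodule.span F (Set.range w)) (w 0)
    (Submodule.subset_span ⟨0, rfl⟩) (hq 0) (fun x hx => (hP x).mp (hSP hx) 0)
  have cP : Nat.card ↥(LinearMap.ker (evalMap hf w)) =
      Fintype.card F ^ (Fintype.card ι - (k + 1)) := by
    have := perp_card hf w hw.1
    rw [Fintype.card_fin] at this
    rw [← this]
    apply Nat.card_congr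
    exact Equiv.subtypeEquivRight hP
  have cS : Nat.card ↥(Submodule.span F (Set.range w)) = Fintype.card F ^ (k + 1) := by
    rw [Module.natCard_eq_pow_finrank (K := F), Nat.card_eq_fintype_card,
      finrank_span_eq_card hw.1, Fintype.card_fin]
  have hq0 : 0 < Fintype.card F := Fintype.card_pos
  have a1 : Nat.card {x : ι → F // x ∈ LinearMap.ker (evalMap hf w) ∧ Q x = 1} =
      Fintype.card F ^ (Fintype.card ι - k - 2) := by
    apply Nat.eq_of_mul_eq_mul_right hq0
    rw [sP, cP, ← pow_succ]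
    congr 1
    omega
  have a2 : Nat.card {x : ι → F // x ∈ Submodule.span F (Set.range w) ∧ Q x = 1} =
      Fintype.card F ^ k := by
    apply Nat.eq_of_mul_eq_mul_right hq0
    rw [sS, cS, ← pow_succ]
  rw [e1, Nat.card_coe_set_eq, Set.ncard_sdiff hsub, ← Nat.card_coe_set_eq,
    ← Nat.card_coe_set_eq]
  have b1 : Nat.card ↥{x : ι → F | x ∈ LinearMap.ker (evalMap hf w) ∧ Q x = 1} =
      Nat.card {x : ι → F // x ∈ LinearMap.ker (evalMap hf w) ∧ Q x = 1} := rfl
  have b2 : Nat.card ↥{x : ι → F | x ∈ Submodule.span F (Set.range w) ∧ Q x = 1} =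
      Nat.card {x : ι → F // x ∈ Submodule.span F (Set.range w) ∧ Q x = 1} := rfl
  rw [b1, b2, a1, a2]

/-- the number of frames of vectors of norm one -/
theorem qframe1_card (Q : QuadraticForm F (ι → F))
    (hQ : (QuadraticMap.polarBilin Q).Nondegenerate) (k : ℕ) :
    Nat.card {w : Fin k → ι → F // IsFrame (pf Q) w ∧ ∀ i, Q (w i) = 1} =
      ∏ i ∈ Finset.range k, (if i = 0 then Nat.card {x : ι → F // Q x = 1} else
        Fintype.card F ^ (Fintype.card ι - i - 1) - Fintype.card F ^ (i - 1)) := by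
  have h2 : (2 : F) = 0 := CharTwo.two_eq_zero
  have hf := pf_isAlt Q hQ h2
  apply cons_count (fun k (w : Fin k → ι → F) => IsFrame (pf Q) w ∧ ∀ i, Q (w i) = 1)
  · intro w
    exact ⟨⟨linearIndependent_empty_type, fun i => i.elim0⟩, fun i => i.elim0⟩
  · intro k w hw
    exact ⟨frame_tail w hw.1, fun i => hw.2 i.succ⟩
  · intro k w hw
    have hcong : Nat.card {x : ι → F // IsFrame (pf Q) (Fin.cons x w : Fin (k + 1) → ι → F) ∧
        ∀ i, Q ((Fin.cons x w : Fin (k + 1) → ι → F) i) = 1} =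
        Nat.card {x : ι → F // IsFrame (pf Q) (Fin.cons x w : Fin (k + 1) → ι → F) ∧ Q x = 1} := by
      apply Nat.card_congr
      apply Equiv.subtypeEquivRight
      intro x
      constructor
      · rintro ⟨h1, h3⟩
        have := h3 0
        rw [Fin.cons_zero] at this
        exact ⟨h1, this⟩
      · rintro ⟨h1, h3⟩
        refine ⟨h1, fun i => ?_⟩
        induction i using Fin.cases with
        | zero => rw [Fin.cons_zero]; exact h3
        | succ i => rw [Fin.cons_succ]; exact hw.2 i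
    rw [hcong]
    rcases k with _ | j
    · rw [if_pos rfl]
      apply Nat.card_congr
      apply Equiv.subtypeEquivRight
      intro x
      constructor
      · exact fun h => h.2
      · intro h
        refine ⟨?_, h⟩
        rw [frame_cons hf w hw.1 x]
        refine ⟨fun j => j.elim0, ?_⟩
        have hr : Set.range w = ∅ := Set.range_eq_empty w
        rw [hr, Submodule.span_empty]
        intro hx
        have hx0 : x = 0 := (Submodule.mem_bot F).mp hx
        rw [hx0, map_zero] at h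
        exact zero_ne_one h
    · rw [if_neg (by omega), qframe1_step Q hQ w hw.1 hw.2]
      have e1 : Fintype.card ι - (j + 1) - 1 = Fintype.card ι - j - 2 := by omega
      have e2 : j + 1 - 1 = j := by omega
      rw [e1, e2]

theorem N1_eq (Q : QuadraticForm F (ι → F)) :
    Nat.card {x : ι → F // Q x = 1} * (Fintype.card F - 1) + Nat.card {x : ι → F // Q x = 0} =
      Fintype.card F ^ Fintype.card ι := by
  classical
  have htot : Nat.card (ι → F) = Fintype.card F ^ Fintype.card ι := by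
    rw [Nat.card_fun, Nat.card_eq_fintype_card, Nat.card_eq_fintype_card]
  rw [← htot, ← Nat.card_congr (Equiv.sigmaFiberEquiv (fun x : ι → F => Q x)), Nat.card_sigma]
  have hc : ∀ c : F, c ≠ 0 → Nat.card {x : ι → F // Q x = c} = Nat.card {x : ι → F // Q x = 1} := by
    intro c hc
    have hs : sq c ≠ 0 := by
      intro h
      have := sq_mul c
      rw [h, mul_zero] at this
      exact hc this.symm
    apply Nat.card_congr
    exact
      { toFun := fun x => ⟨(sq c)⁻¹ • x.1, by
          rw [QuadraticMap.map_smul, x.2, smul_eq_mul]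
          have e : (sq c)⁻¹ * (sq c)⁻¹ * c = (sq c)⁻¹ * (sq c)⁻¹ * (sq c * sq c) := by
            rw [sq_mul]
          rw [e]
          field_simp⟩
        invFun := fun x => ⟨sq c • x.1, by
          rw [QuadraticMap.map_smul, x.2, smul_eq_mul, mul_one, sq_mul]⟩
        left_inv := fun x => Subtype.ext (by
          show sq c • (sq c)⁻¹ • x.1 = x.1
          rw [smul_smul, mul_inv_cancel₀ hs, one_smul])
        right_inv := fun x => Subtype.ext (by
          show (sq c)⁻¹ • sq c • x.1 = x.1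
          rw [smul_smul, inv_mul_cancel₀ hs, one_smul]) }
  rw [← Finset.add_sum_erase Finset.univ _ (Finset.mem_univ (0 : F)),
    Finset.sum_congr rfl (fun c hc' => hc c (Finset.ne_of_mem_erase hc')), Finset.sum_const,
    Finset.card_erase_of_mem (Finset.mem_univ _), Finset.card_univ, smul_eq_mul]
  ring

end CharTwoB

end Cfsg.Agent.Lib.Helper13.OrthCent
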