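import Mathlib
import Cfsg.Agent.S0245
import Cfsg.Agent.S5645
import Cfsg.Agent.Lib.Helper5.Symp
import Cfsg.Agent.Lib.Helper13.CentCount

set_option autoImplicit false
open Cfsg

namespace Cfsg.Agent.Lib.Helper13.SpCent

open Matrix
open Cfsg.Agent.S5645 (symp_isAlt)
open Cfsg.Agent.Lib.Helper28.Herm (Isom)
open Cfsg.Agent.Lib.Helper13.CentCount
open Cfsg.Agent.Lib.Helper5.Symp (sympForm_mulVec_of_mem mem_of_sympForm_mulVec)

variable {F : Type*} [Field F] {m : ℕ}

/-- the `GL` element of an element of the symplectic group -/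
def sp2gl (a : ↥(Matrix.symplecticGroup (Fin m) F)) : GL (Fin m ⊕ Fin m) F :=
  ⟨a.1, (a⁻¹).1, congrArg Subtype.val (mul_inv_cancel a), congrArg Subtype.val (inv_mul_cancel a)⟩

theorem sp2gl_coe (a : ↥(Matrix.symplecticGroup (Fin m) F)) :
    ((sp2gl a : GL (Fin m ⊕ Fin m) F) : Matrix (Fin m ⊕ Fin m) (Fin m ⊕ Fin m) F) = a.1 := rfl

theorem sp2gl_isom (a : ↥(Matrix.symplecticGroup (Fin m) F)) :
    Isom (Cfsg.sympForm m F) (sp2gl a) :=
  fun u v => sympForm_mulVec_of_mem m a.2 u v

/-- the symplectic group as the isometry group of the standard form -/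
def spIso : ↥(Matrix.symplecticGroup (Fin m) F) ≃
    {g : GL (Fin m ⊕ Fin m) F // Isom (Cfsg.sympForm m F) g} where
  toFun a := ⟨sp2gl a, sp2gl_isom a⟩
  invFun g := ⟨(g.1 : Matrix (Fin m ⊕ Fin m) (Fin m ⊕ Fin m) F), mem_of_sympForm_mulVec m g.2⟩
  left_inv a := Subtype.ext rfl
  right_inv g := Subtype.ext (Units.ext rfl)

theorem card_isom [Fintype F] {q : ℕ} (hF : Fintype.card F = q) (m : ℕ) :
    Nat.card {g : GL (Fin m ⊕ Fin m) F // Isom (Cfsg.sympForm m F) g} =
      q ^ (m ^ 2) * ∏ i ∈ Finset.range m, (q ^ (2 * (i + 1)) - 1) := by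
  rw [← Cfsg.Agent.S0245.result hF m]
  exact (Nat.card_congr spIso).symm

/-- the centraliser as a set of isometries -/
theorem card_cent (t : ↥(Matrix.symplecticGroup (Fin m) F)) :
    Nat.card ↥(Subgroup.centralizer ({t} : Set ↥(Matrix.symplecticGroup (Fin m) F))) =
      Nat.card {g : GL (Fin m ⊕ Fin m) F // Isom (Cfsg.sympForm m F) g ∧ g * sp2gl t = sp2gl t * g} := by
  apply Nat.card_congr
  exact
    { toFun := fun g => ⟨sp2gl g.1, sp2gl_isom g.1, by
        have h := (Subgroup.mem_centralizer_iff.mp g.2) t (Set.mem_singleton t)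
        apply Units.ext
        show g.1.1 * t.1 = t.1 * g.1.1
        exact (congrArg Subtype.val h).symm⟩
      invFun := fun g => ⟨⟨(g.1 : Matrix (Fin m ⊕ Fin m) (Fin m ⊕ Fin m) F),
          mem_of_sympForm_mulVec m g.2.1⟩, by
        rw [Subgroup.mem_centralizer_iff]
        intro h hh
        rw [Set.mem_singleton_iff] at hh
        rw [hh]
        apply Subtype.ext
        show t.1 * (g.1 : Matrix (Fin m ⊕ Fin m) (Fin m ⊕ Fin m) F) =
          (g.1 : Matrix (Fin m ⊕ Fin m) (Fin m ⊕ Fin m) F) * t.1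
        exact (congrArg Units.val g.2.2).symm⟩
      left_inv := fun g => Subtype.ext (Subtype.ext rfl)
      right_inv := fun g => Subtype.ext (Units.ext rfl) }

/-! ### arithmetic -/

/-- triangular numbers -/
def tri (s : ℕ) : ℕ := ∑ i ∈ Finset.range s, i

theorem tri_succ (s : ℕ) : tri (s + 1) = tri s + s := Finset.sum_range_succ _ s

theorem tri_two (s : ℕ) : tri s * 2 = s * (s - 1) := Finset.sum_range_id_mul_two s

theorem arith (q m : ℕ) : ∀ s, s ≤ m → ∀ e, e + tri s = m ^ 2 →
    (∏ i ∈ Finset.range s, (q ^ (m + m - i) - q ^ i)) *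
        (q ^ e * ∏ i ∈ Finset.range (m - s), (q ^ (2 * (i + 1)) - 1)) =
      q ^ (m ^ 2) * ∏ i ∈ Finset.range m, (q ^ (2 * (i + 1)) - 1) := by
  intro s
  induction s with
  | zero =>
    intro _ e he
    have : tri 0 = 0 := rfl
    rw [this, add_zero] at he
    rw [Finset.range_zero, Finset.prod_empty, one_mul, he, Nat.sub_zero]
  | succ s ih =>
    intro hs e he
    rw [tri_succ] at he
    have h1 := ih (by omega) (e + s) (by omega)
    rw [← h1, Finset.prod_range_succ]
    have h2 : m - s = (m - (s + 1)) + 1 := by omega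
    rw [h2, Finset.prod_range_succ]
    have h3 : q ^ (m + m - s) - q ^ s = q ^ s * (q ^ (2 * (m - (s + 1) + 1)) - 1) := by
      rw [Nat.mul_sub, mul_one, ← pow_add]
      congr 2
      omega
    rw [h3, pow_add]
    ring

/-! ### `σ`-orthogonal matrices for the swap: the symplectic group -/

theorem J_char2 (h2 : (2 : F) = 0) (r : ℕ) (k l : Fin r ⊕ Fin r) :
    Matrix.J (Fin r) F k l = if l = Sum.swap k then 1 else 0 := by
  have hneg : (-1 : F) = 1 := by linear_combination -h2
  rcases k with a | a <;> rcases l with b | b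
  · simp [Matrix.J]
  · simp only [Matrix.J, Matrix.fromBlocks_apply₁₂, Matrix.neg_apply, Matrix.one_apply,
      Sum.swap_inl, Sum.inr.injEq]
    by_cases hab : a = b
    · rw [if_pos hab, if_pos hab.symm, hneg]
    · rw [if_neg hab, if_neg (fun h => hab h.symm), neg_zero]
  · simp only [Matrix.J, Matrix.fromBlocks_apply₂₁, Matrix.one_apply, Sum.swap_inr,
      Sum.inl.injEq]
    by_cases hab : a = b
    · rw [if_pos hab, if_pos hab.symm]
    · rw [if_neg hab, if_neg (fun h => hab h.symm)]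
  · simp [Matrix.J]

theorem ps_symp (h2 : (2 : F) = 0) (r : ℕ) (A : Matrix (Fin r ⊕ Fin r) (Fin r ⊕ Fin r) F) :
    PS (Equiv.sumComm (Fin r) (Fin r)) A ↔ A ∈ Matrix.symplecticGroup (Fin r) F := by
  rw [_root_.SymplecticGroup.mem_iff]
  have key : ∀ j i, (A * Matrix.J (Fin r) F * Aᵀ) j i =
      ∑ k, A j k * A i (Equiv.sumComm (Fin r) (Fin r) k) := by
    intro j i
    rw [Matrix.mul_apply]
    rw [← Equiv.sum_comp (Equiv.sumComm (Fin r) (Fin r))]
    apply Finset.sum_congr rfl
    intro k _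
    rw [Matrix.transpose_apply, Matrix.mul_apply]
    congr 1
    rw [Finset.sum_eq_single k]
    · rw [J_char2 h2, if_pos (show (Equiv.sumComm (Fin r) (Fin r)) k = Sum.swap k from rfl),
        mul_one]
    · intro b _ hb
      rw [J_char2 h2, if_neg, mul_zero]
      intro h
      apply hb
      have h' : Sum.swap k = Sum.swap b := h
      have := congrArg Sum.swap h'
      rw [Sum.swap_swap, Sum.swap_swap] at this
      exact this.symm
    · intro h
      exact absurd (Finset.mem_univ _) h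
  constructor
  · intro h
    ext j i
    rw [key, h j i, J_char2 h2]
    rfl
  · intro h j i
    rw [← key, h, J_char2 h2]
    rfl

theorem card_ps [Fintype F] (h2 : (2 : F) = 0) {q : ℕ} (hF : Fintype.card F = q) (r : ℕ) :
    Nat.card {A : Matrix (Fin r ⊕ Fin r) (Fin r ⊕ Fin r) F //
      PS (Equiv.sumComm (Fin r) (Fin r)) A} =
      q ^ (r ^ 2) * ∏ i ∈ Finset.range r, (q ^ (2 * (i + 1)) - 1) := by
  rw [← Cfsg.Agent.S0245.result hF r]
  apply Nat.card_congr
  exact Equiv.subtypeEquivRight (fun A => ps_symp h2 r A)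

end Cfsg.Agent.Lib.Helper13.SpCent
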