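import Mathlib
import Cfsg.Agent.Lib.Helper15.InvSplit
import Cfsg.Agent.Lib.Helper15.Dickson
import Cfsg.Agent.Lib.Helper13.OmegaCount
import Cfsg.Agent.Lib.Helper13.SpCent
import Cfsg.Agent.Lib.Helper13.SymOrth
import Cfsg.Agent.Lib.Helper13.OrthCent

set_option autoImplicit false
open Cfsg

namespace Cfsg.Agent.Lib.Helper13.OrthCent2

open Matrix
open Cfsg.Agent.S5645 (IsAlt)
open Cfsg.Agent.Lib.Helper28.Herm (Isom)
open Cfsg.Agent.Lib.Helper13.AltInv (symm2)
open Cfsg.Agent.Lib.Helper13.OrthInv (pf pf_isAlt isom_of_Q Q_range dataA' dataB')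
open Cfsg.Agent.Lib.Helper13.OmegaCount (rk alt Qx index_two)
open Cfsg.Agent.Lib.Helper13.CentCount
open Cfsg.Agent.Lib.Helper13.OrthCent
open Cfsg.Agent.Lib.Helper13.SymOrth (oc card_ps_refl ps_refl isO_tr)
open Cfsg.Agent.Lib.Helper13.SpCent (card_ps)
open Cfsg.Agent.Lib.Helper15.CD2 (act act_apply)
open Cfsg.Agent.Lib.Helper15.Spinor (reflO prodRefl prodRefl_cons prodRefl_nil conj_reflO
  reflO_mul_self mem_iso)
open Cfsg.Agent.Lib.Helper15.InvSplit (conj_max_ts mulVecLin_sub_one)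

variable {ι : Type} [Fintype ι] [DecidableEq ι] {F : Type*} [Field F] [Fintype F] [CharP F 2]

/-! ### the centraliser in `Ω` versus the centraliser in `O` -/

theorem cent_half (Q : QuadraticForm F (ι → F)) (hQ : (QuadraticMap.polarBilin Q).Nondegenerate)
    (hc : Fintype.card F ≠ 2 ∨ Fintype.card ι ≠ 4) (x : ↥(Cfsg.isometryGroup F ⇑Q))
    (w : ι → F) (hw : Q w ≠ 0) (hxw : act Q x w = w) :
    Nat.card {g : ↥(Cfsg.isometryGroup F ⇑Q) // g * x = x * g} =
      2 * Nat.card {g : ↥(Cfsg.isometryGroup F ⇑Q) //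
        g * x = x * g ∧ g ∈ commutator ↥(Cfsg.isometryGroup F ⇑Q)} := by
  have hnd : ∀ x, (∀ y, QuadraticMap.polar ⇑Q x y = 0) → x = 0 := fun x hx => hQ.1 x hx
  obtain ⟨r, hr⟩ : ∃ r, r = reflO Q w := ⟨_, rfl⟩
  have hrr : r * r = 1 := by rw [hr]; exact reflO_mul_self Q w
  have hrx : r * x = x * r := by
    have h := conj_reflO Q x w hw
    rw [← act_apply, hxw, ← hr] at h
    calc r * x = (x * r * x⁻¹) * x := by rw [h]
      _ = x * r := by group
  have hrΩ : r ∉ commutator ↥(Cfsg.isometryGroup F ⇑Q) := by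
    intro h
    have e : prodRefl Q [w] = r := by rw [prodRefl_cons, prodRefl_nil, mul_one, hr]
    rw [← e] at h
    have := Cfsg.Agent.Lib.Helper15.Dickson.even_of_mem_commutator Q hnd [w] (by
      intro v hv
      rw [List.mem_singleton] at hv
      rw [hv]
      exact hw) h
    simp at this
  have s := card_split (fun g : ↥(Cfsg.isometryGroup F ⇑Q) => g * x = x * g)
    (fun g => g ∈ commutator ↥(Cfsg.isometryGroup F ⇑Q))
  have hcomm : ∀ g : ↥(Cfsg.isometryGroup F ⇑Q), g * x = x * g → g * r * x = x * (g * r) := by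
    intro g hg
    rw [mul_assoc, hrx, ← mul_assoc, hg, mul_assoc]
  have e : Nat.card {g : ↥(Cfsg.isometryGroup F ⇑Q) //
      g * x = x * g ∧ ¬ g ∈ commutator ↥(Cfsg.isometryGroup F ⇑Q)} =
      Nat.card {g : ↥(Cfsg.isometryGroup F ⇑Q) //
        g * x = x * g ∧ g ∈ commutator ↥(Cfsg.isometryGroup F ⇑Q)} := by
    apply Nat.card_congr
    exact
      { toFun := fun g => ⟨g.1 * r, hcomm g.1 g.2.1, index_two Q hQ hc g.1 r g.2.2 hrΩ⟩
        invFun := fun g => ⟨g.1 * r, hcomm g.1 g.2.1, fun h => hrΩ (by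
          have h1 := Subgroup.mul_mem _ (Subgroup.inv_mem _ g.2.2) h
          have e1 : g.1⁻¹ * (g.1 * r) = r := by group
          rw [e1] at h1
          exact h1)⟩
        left_inv := fun g => Subtype.ext (by
          show g.1 * r * r = g.1
          rw [mul_assoc, hrr, mul_one])
        right_inv := fun g => Subtype.ext (by
          show g.1 * r * r = g.1
          rw [mul_assoc, hrr, mul_one]) }
  rw [s, e]
  ring

theorem cent_full (Q : QuadraticForm F (ι → F)) (hQ : (QuadraticMap.polarBilin Q).Nondegenerate)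
    (hc : Fintype.card F ≠ 2 ∨ Fintype.card ι ≠ 4) (m : ℕ) (hcard : Fintype.card ι = 2 * m)
    (x : ↥(Cfsg.isometryGroup F ⇑Q)) (hrk : rk Q x = m) (halt : alt Q x) :
    Nat.card {g : ↥(Cfsg.isometryGroup F ⇑Q) // g * x = x * g} =
      Nat.card {g : ↥(Cfsg.isometryGroup F ⇑Q) //
        g * x = x * g ∧ g ∈ commutator ↥(Cfsg.isometryGroup F ⇑Q)} := by
  have h2 : (2 : F) = 0 := CharTwo.two_eq_zero
  have hR0 : ∀ y ∈ LinearMap.range (act Q x - LinearMap.id), Q y = 0 := by
    rintro _ ⟨v, rfl⟩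
    rw [LinearMap.sub_apply, LinearMap.id_apply, act_apply,
      Q_range Q h2 (x : GL ι F) (Qx Q x) v]
    exact halt v
  have hRm : Module.finrank F ↥(LinearMap.range (act Q x - LinearMap.id)) = m := by
    have h := hrk
    unfold rk Matrix.rank at h
    rw [mulVecLin_sub_one Q x] at h
    exact h
  apply Nat.card_congr
  apply Equiv.subtypeEquivRight
  intro g
  constructor
  · intro hg
    refine ⟨hg, ?_⟩
    have hconj : g * x * g⁻¹ = x := by rw [hg]; group
    rw [conj_max_ts Q hQ hc m hcard x x g hconj hR0 hRm, inf_idem, hRm, Nat.sub_self]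
    exact ⟨0, rfl⟩
  · exact fun h => h.1

/-! ### bridges -/

omit [Fintype F] [CharP F 2] in
theorem card_omega_cent (Q : QuadraticForm F (ι → F)) (x : ↥(Cfsg.isometryGroup F ⇑Q)) :
    Nat.card {g : ↥(commutator ↥(Cfsg.isometryGroup F ⇑Q)) //
        (g : ↥(Cfsg.isometryGroup F ⇑Q)) * x = x * (g : ↥(Cfsg.isometryGroup F ⇑Q))} =
      Nat.card {g : ↥(Cfsg.isometryGroup F ⇑Q) //
        g * x = x * g ∧ g ∈ commutator ↥(Cfsg.isometryGroup F ⇑Q)} := by
  apply Nat.card_congr
  exact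
    { toFun := fun g => ⟨g.1.1, g.2, g.1.2⟩
      invFun := fun g => ⟨⟨g.1, g.2.2⟩, g.2.1⟩
      left_inv := fun g => rfl
      right_inv := fun g => rfl }

omit [Fintype F] [CharP F 2] in
theorem card_O_cent (Q : QuadraticForm F (ι → F)) (x : ↥(Cfsg.isometryGroup F ⇑Q)) :
    Nat.card {g : ↥(Cfsg.isometryGroup F ⇑Q) // g * x = x * g} =
      Nat.card {g : GL ι F // (∀ v, Q ((g : Matrix ι ι F) *ᵥ v) = Q v) ∧
        g * (x : GL ι F) = (x : GL ι F) * g} := by
  apply Nat.card_congr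
  exact
    { toFun := fun g => ⟨g.1.1, (mem_iso Q _).1 g.1.2, congrArg Subtype.val g.2⟩
      invFun := fun g => ⟨⟨g.1, (mem_iso Q _).2 g.2.1⟩, Subtype.ext g.2.2⟩
      left_inv := fun g => rfl
      right_inv := fun g => rfl }

omit [Fintype F] [CharP F 2] in
theorem card_O (Q : QuadraticForm F (ι → F)) :
    Nat.card {g : GL ι F // ∀ v, Q ((g : Matrix ι ι F) *ᵥ v) = Q v} =
      Nat.card ↥(Cfsg.isometryGroup F ⇑Q) := by
  apply Nat.card_congr
  exact
    { toFun := fun g => ⟨g.1, (mem_iso Q _).2 g.2⟩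
      invFun := fun g => ⟨g.1, (mem_iso Q _).1 g.2⟩
      left_inv := fun g => rfl
      right_inv := fun g => rfl }

/-! ### the two counting identities -/

theorem centA (Q : QuadraticForm F (ι → F)) (hQ : (QuadraticMap.polarBilin Q).Nondegenerate)
    {q : ℕ} (hF : Fintype.card F = q)
    (x : ↥(Cfsg.isometryGroup F ⇑Q)) (hxx : x * x = 1) (halt : alt Q x) :
    ∃ r, rk Q x = r + r ∧
      Nat.card {g : ↥(Cfsg.isometryGroup F ⇑Q) // g * x = x * g} *
        ∏ i ∈ Finset.range (r + r), (Nat.card {x : ι → F // Q x = 0} +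
          q ^ (Fintype.card ι - 1 - i) - q ^ (Fintype.card ι - 1) - q ^ i) =
      (q ^ (r ^ 2) * ∏ i ∈ Finset.range r, (q ^ (2 * (i + 1)) - 1)) *
        Nat.card ↥(Cfsg.isometryGroup F ⇑Q) := by
  classical
  have h2 : (2 : F) = 0 := CharTwo.two_eq_zero
  have hf := pf_isAlt Q hQ h2
  have hs : (x : GL ι F) * (x : GL ι F) = 1 := congrArg Subtype.val hxx
  obtain ⟨r, u, v, hmem, hli, hti, hform, hrk⟩ :=
    dataA' hf h2 (x : GL ι F) (isom_of_Q Q _ (Qx Q x)) hs halt
  refine ⟨r, hrk, ?_⟩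
  have hq0 : ∀ i, Q (Sum.elim u v i) = 0 := by
    intro i
    obtain ⟨z, hz⟩ := hmem i
    rw [hz, Q_range Q h2 (x : GL ι F) (Qx Q x)]
    exact halt z
  have ht' : ∀ y, ((x : GL ι F) : Matrix ι ι F) *ᵥ y =
      y + nop (pf Q) (Equiv.sumComm (Fin r) (Fin r)) (Sum.elim u v) y := by
    intro y
    rw [hform y]
    congr 1
    unfold nop
    rw [Fintype.sum_sum_type, Finset.sum_add_distrib, add_comm]
    rfl
  have hmain := cent_main_Q Q hQ h2 (Equiv.sumComm (Fin r) (Fin r)) 0 (Sum.elim u v)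
    ⟨hli, hti⟩ hq0 (by
      intro A _ j
      unfold fr
      rw [Q_sum Q _ hti]
      apply Finset.sum_eq_zero
      intro i _
      rw [hq0 i, mul_zero]) (x : GL ι F) ht'
  rw [← card_O_cent Q x, card_ps h2 hF r, card_O Q, qframe_reindex, qframe0_card Q hQ,
    Fintype.card_sum, Fintype.card_fin, hF] at hmain
  exact hmain

theorem centB (Q : QuadraticForm F (ι → F)) (hQ : (QuadraticMap.polarBilin Q).Nondegenerate)
    {q : ℕ} (hF : Fintype.card F = q)
    (x : ↥(Cfsg.isometryGroup F ⇑Q)) (hxx : x * x = 1) (hna : ¬ alt Q x) :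
    ∃ k, rk Q x = k ∧ 0 < k ∧
      Nat.card {g : ↥(Cfsg.isometryGroup F ⇑Q) // g * x = x * g} *
        ∏ i ∈ Finset.range k, (if i = 0 then Nat.card {x : ι → F // Q x = 1} else
          q ^ (Fintype.card ι - i - 1) - q ^ (i - 1)) =
      oc F k * Nat.card ↥(Cfsg.isometryGroup F ⇑Q) := by
  classical
  have h2 : (2 : F) = 0 := CharTwo.two_eq_zero
  have hf := pf_isAlt Q hQ h2
  have hs : (x : GL ι F) * (x : GL ι F) = 1 := congrArg Subtype.val hxx
  have hna' : ∃ y, pf Q (((x : GL ι F) : Matrix ι ι F) *ᵥ y - y) y ≠ 0 := by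
    by_contra hno
    apply hna
    intro y
    by_contra hy
    exact hno ⟨y, hy⟩
  obtain ⟨k, u, hmem, hli, hti, hform, hrk⟩ :=
    dataB' hf h2 (x : GL ι F) (isom_of_Q Q _ (Qx Q x)) hs hna'
  have hq1 : ∀ i, Q (u i) = 1 := by
    intro i
    obtain ⟨z, hz⟩ := hmem i
    have h1 := hform z
    have h3 : u i = ∑ j, pf Q z (u j) • u j := by
      rw [hz, h1, add_sub_cancel_left]
    have h4 : ∑ j, (if j = i then (1 : F) else 0) • u j = ∑ j, pf Q z (u j) • u j := by
      rw [← h3, Finset.sum_eq_single i]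
      · rw [if_pos rfl, one_smul]
      · intro b _ hb
        rw [if_neg hb, zero_smul]
      · intro h
        exact absurd (Finset.mem_univ _) h
    have h5 := congrFun (li_coeff u hli _ _ h4) i
    simp only [if_true] at h5
    rw [hz, Q_range Q h2 (x : GL ι F) (Qx Q x), ← hz, symm2 hf h2, ← h5]
  refine ⟨k, hrk, ?_, ?_⟩
  · rcases Nat.eq_zero_or_pos k with h0 | hpos
    · exfalso
      subst h0
      obtain ⟨y, hy⟩ := hna'
      apply hy
      rw [hform y, Finset.univ_eq_empty, Finset.sum_empty, add_zero, sub_self]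
      exact hf.zero_left y
    · exact hpos
  have ht' : ∀ y, ((x : GL ι F) : Matrix ι ι F) *ᵥ y =
      y + nop (pf Q) (Equiv.refl (Fin k)) u y := by
    intro y
    rw [hform y]
    rfl
  have hmain := cent_main_Q Q hQ h2 (Equiv.refl (Fin k)) 1 u ⟨hli, hti⟩ hq1 (by
      intro A hA j
      unfold fr
      rw [Q_sum Q _ hti]
      have hO := isO_tr ((ps_refl A).mp hA)
      have h6 := congrFun (congrFun hO j) j
      rw [Matrix.mul_apply, Matrix.one_apply_eq] at h6
      rw [← h6]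
      apply Finset.sum_congr rfl
      intro i _
      rw [hq1 i, mul_one, Matrix.transpose_apply]) (x : GL ι F) ht'
  rw [← card_O_cent Q x, card_ps_refl, card_O Q, qframe1_card Q hQ, hF] at hmain
  exact hmain

end Cfsg.Agent.Lib.Helper13.OrthCent2
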