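import Mathlib
import Cfsg.Agent.Lib.Helper13.SpCent

set_option autoImplicit false
open Cfsg

namespace Cfsg.Agent.Lib.Helper13.SpCent2

open Cfsg.Agent.Lib.Helper13.SpCent (tri tri_two arith)

theorem tri_sq (s : ℕ) : 2 * tri s + s = s ^ 2 := by
  have h := tri_two s
  rcases Nat.eq_zero_or_pos s with h0 | hpos
  · subst h0
    simp at h
    simp [h]
  · obtain ⟨n, rfl⟩ : ∃ n, s = n + 1 := ⟨s - 1, by omega⟩
    have e : n + 1 - 1 = n := by omega
    rw [e] at h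
    nlinarith [h]

theorem half1 (s : ℕ) : (3 * s ^ 2 - s) / 2 = s ^ 2 + tri s := by
  have h := tri_sq s
  apply Nat.div_eq_of_eq_mul_left (by norm_num)
  omega

theorem half2 (s : ℕ) : (3 * s ^ 2 - 3 * s) / 2 = 3 * tri s := by
  have h := tri_sq s
  apply Nat.div_eq_of_eq_mul_left (by norm_num)
  omega

theorem expo (m s : ℕ) (hs : s ≤ m) :
    2 * m * s - (3 * s ^ 2 - s) / 2 + (m - s) ^ 2 + tri s = m ^ 2 := by
  obtain ⟨d, rfl⟩ := Nat.exists_eq_add_of_le hs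
  have h := tri_sq s
  rw [half1]
  have h2 : s + d - s = d := by omega
  rw [h2]
  have e1 : 2 * (s + d) * s = s ^ 2 + s ^ 2 + 2 * d * s := by ring
  have e2 : (s + d) ^ 2 = s ^ 2 + 2 * d * s + d ^ 2 := by ring
  omega

theorem expo2 (m s : ℕ) (hs : s ≤ m) (h2 : 2 ≤ s) :
    2 * m * s - (3 * s ^ 2 - 3 * s) / 2 - 1 + (m - s) ^ 2 =
      (s - 1) + (2 * m * s - (3 * s ^ 2 - s) / 2 + (m - s) ^ 2) := by
  obtain ⟨d, rfl⟩ := Nat.exists_eq_add_of_le hs
  have h := tri_sq s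
  rw [half1, half2]
  have h3 : s + d - s = d := by omega
  rw [h3]
  have e1 : 2 * (s + d) * s = s ^ 2 + s ^ 2 + 2 * d * s := by ring
  omega

theorem sp_pos (q m : ℕ) (hq : 2 ≤ q) :
    0 < q ^ (m ^ 2) * ∏ i ∈ Finset.range m, (q ^ (2 * (i + 1)) - 1) := by
  apply Nat.mul_pos (Nat.pow_pos (by omega))
  apply Finset.prod_pos
  intro i _
  have : 2 ^ (2 * (i + 1)) ≤ q ^ (2 * (i + 1)) := Nat.pow_le_pow_left hq _
  have h2 : 2 ≤ 2 ^ (2 * (i + 1)) := by
    calc 2 = 2 ^ 1 := by norm_num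
      _ ≤ 2 ^ (2 * (i + 1)) := Nat.pow_le_pow_right (by norm_num) (by omega)
  omega

/-- solving the counting identity for the centraliser order -/
theorem cent_formula (q m s C N : ℕ) (hq : 2 ≤ q) (hN : 0 < N)
    (hmain : C * ∏ i ∈ Finset.range s, (q ^ (m + m - i) - q ^ i) =
      N * (q ^ (m ^ 2) * ∏ i ∈ Finset.range m, (q ^ (2 * (i + 1)) - 1))) :
    s ≤ m ∧ C = N * (q ^ (2 * m * s - (3 * s ^ 2 - s) / 2 + (m - s) ^ 2) *
      ∏ i ∈ Finset.range (m - s), (q ^ (2 * (i + 1)) - 1)) := by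
  have hsp := sp_pos q m hq
  have hsm : s ≤ m := by
    by_contra hlt
    have hz : ∏ i ∈ Finset.range s, (q ^ (m + m - i) - q ^ i) = 0 := by
      apply Finset.prod_eq_zero (i := m) (Finset.mem_range.mpr (by omega))
      have : m + m - m = m := by omega
      rw [this, Nat.sub_self]
    rw [hz, mul_zero] at hmain
    have := Nat.mul_pos hN hsp
    omega
  refine ⟨hsm, ?_⟩
  have hA := arith q m s hsm (2 * m * s - (3 * s ^ 2 - s) / 2 + (m - s) ^ 2) (expo m s hsm)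
  rw [← hA, ← mul_assoc] at hmain
  have hX : 0 < ∏ i ∈ Finset.range s, (q ^ (m + m - i) - q ^ i) := by
    apply Nat.pos_of_ne_zero
    intro hz
    rw [hz, zero_mul] at hA
    omega
  apply Nat.eq_of_mul_eq_mul_right hX
  rw [hmain]
  ring

end Cfsg.Agent.Lib.Helper13.SpCent2
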