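import Mathlib
import Cfsg.Agent.Lib.Helper13.SpCent
import Cfsg.Agent.Lib.Helper13.SpCent2

set_option autoImplicit false
open Cfsg

namespace Cfsg.Agent.Lib.Helper13.OrthCent3

open Cfsg.Agent.Lib.Helper13.SpCent (tri tri_succ tri_two)
open Cfsg.Agent.Lib.Helper13.SpCent2 (tri_sq)

/-! ### arithmetic for the centraliser orders in `O⁺_{2m}(q)`, `q` even -/

/-- the number of choices for the `i`-th vector of a totally singular frame -/
def cA (q m i : ℕ) : ℕ :=
  q ^ (2 * m - 1) + q ^ m - q ^ (m - 1) + q ^ (m + m - 1 - i) - q ^ (m + m - 1) - q ^ i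

theorem cA_eq (q m i : ℕ) (hq : 2 ≤ q) (hi : i < m) :
    cA q m i = q ^ i * ((q ^ (m - i) - 1) * (q ^ (m - i - 1) + 1)) := by
  unfold cA
  obtain ⟨d, rfl⟩ : ∃ d, m = i + d + 1 := ⟨m - i - 1, by omega⟩
  have e1 : 2 * (i + d + 1) - 1 = i + i + d + d + 1 := by omega
  have e2 : i + d + 1 - 1 = i + d := by omega
  have e3 : i + d + 1 + (i + d + 1) - 1 - i = i + d + d + 1 := by omega
  have e4 : i + d + 1 + (i + d + 1) - 1 = i + i + d + d + 1 := by omega
  have e5 : i + d + 1 - i = d + 1 := by omega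
  have e6 : i + d + 1 - i - 1 = d := by omega
  rw [e1, e2, e3, e4, e6, e5]
  obtain ⟨t, ht⟩ : ∃ t, q ^ (d + 1) = t + 1 :=
    ⟨q ^ (d + 1) - 1, by have := Nat.pow_pos (n := d + 1) (show 0 < q by omega); omega⟩
  rw [ht, Nat.add_sub_cancel]
  have p1 : q ^ (i + d + 1) = q ^ i * t + q ^ i := by
    have : q ^ (i + d + 1) = q ^ i * q ^ (d + 1) := by ring
    rw [this, ht]
    ring
  have p2 : q ^ (i + d + d + 1) = q ^ i * (t * q ^ d) + q ^ (i + d) := by
    have : q ^ (i + d + d + 1) = q ^ i * q ^ d * q ^ (d + 1) := by ring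
    rw [this, ht]
    ring
  have p3 : q ^ i * (t * (q ^ d + 1)) = q ^ i * (t * q ^ d) + q ^ i * t := by ring
  have p5 : q ^ (i + d) ≤ q ^ (i + d + 1) := Nat.pow_le_pow_right (by omega) (by omega)
  rw [p3]
  omega

theorem cA_zero (q m : ℕ) (hq : 2 ≤ q) (hm : 1 ≤ m) : cA q m m = 0 := by
  unfold cA
  have e : m + m - 1 - m = m - 1 := by omega
  have e2 : m + m - 1 = 2 * m - 1 := by omega
  rw [e, e2]
  have : q ^ (m - 1) ≤ q ^ m := Nat.pow_le_pow_right (by omega) (by omega)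
  omega

theorem diff_sq (b : ℕ) (hb : 0 < b) : (b + 1) * (b - 1) = b ^ 2 - 1 := by
  obtain ⟨t, rfl⟩ : ∃ t, b = t + 1 := ⟨b - 1, by omega⟩
  rw [Nat.add_sub_cancel]
  have : (t + 1) ^ 2 = (t + 1 + 1) * t + 1 := by ring
  rw [this, Nat.add_sub_cancel]

/-- `R = |Ω⁺_{2m}(q)|` -/
def RR (q m : ℕ) : ℕ :=
  q ^ (m * (m - 1)) * (q ^ m - 1) * ∏ i ∈ Finset.range (m - 1), (q ^ (2 * (i + 1)) - 1)

theorem RR_pos (q m : ℕ) (hq : 2 ≤ q) (hm : 1 ≤ m) : 0 < RR q m := by
  unfold RR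
  apply Nat.mul_pos (Nat.mul_pos (Nat.pow_pos (by omega)) _)
  · apply Finset.prod_pos
    intro i _
    have : 2 ^ (2 * (i + 1)) ≤ q ^ (2 * (i + 1)) := Nat.pow_le_pow_left hq _
    have h2 : 2 ≤ 2 ^ (2 * (i + 1)) := by
      calc 2 = 2 ^ 1 := by norm_num
        _ ≤ 2 ^ (2 * (i + 1)) := Nat.pow_le_pow_right (by norm_num) (by omega)
    omega
  · have : 2 ^ m ≤ q ^ m := Nat.pow_le_pow_left hq _
    have h2 : 2 ≤ 2 ^ m := by
      calc 2 = 2 ^ 1 := by norm_num
        _ ≤ 2 ^ m := Nat.pow_le_pow_right (by norm_num) hm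
    omega

theorem arithA (q m : ℕ) (hq : 2 ≤ q) : ∀ s, s < m → ∀ e, e + tri s = m * (m - 1) →
    (∏ i ∈ Finset.range s, cA q m i) * (q ^ e * (q ^ (m - s) - 1) *
        ∏ i ∈ Finset.range (m - s - 1), (q ^ (2 * (i + 1)) - 1)) = RR q m := by
  intro s
  induction s with
  | zero =>
    intro _ e he
    have : tri 0 = 0 := rfl
    rw [this, add_zero] at he
    rw [Finset.range_zero, Finset.prod_empty, one_mul, he, Nat.sub_zero]
    rfl
  | succ s ih =>
    intro hs e he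
    rw [tri_succ] at he
    have h1 := ih (by omega) (e + s) (by omega)
    rw [← h1, Finset.prod_range_succ, cA_eq q m s hq (by omega)]
    obtain ⟨k, rfl⟩ : ∃ k, m = s + k + 2 := ⟨m - s - 2, by omega⟩
    have e1 : s + k + 2 - s = k + 2 := by omega
    have e2 : s + k + 2 - s - 1 = k + 1 := by omega
    have e3 : s + k + 2 - (s + 1) = k + 1 := by omega
    have e4 : s + k + 2 - (s + 1) - 1 = k := by omega
    rw [e2, e1, e4, e3, Finset.prod_range_succ, pow_add]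
    have hd := diff_sq (q ^ (k + 1)) (Nat.pow_pos (by omega))
    rw [← pow_mul] at hd
    have e5 : (k + 1) * 2 = 2 * (k + 1) := by ring
    rw [e5] at hd
    rw [← hd]
    ring

theorem arithA' (q m : ℕ) (hq : 2 ≤ q) (hm : 1 ≤ m) (e : ℕ) (he : e + tri m = m * (m - 1)) :
    (∏ i ∈ Finset.range m, cA q m i) * q ^ e = 2 * RR q m := by
  obtain ⟨n, rfl⟩ : ∃ n, m = n + 1 := ⟨m - 1, by omega⟩
  rw [tri_succ] at he
  have h1 := arithA q (n + 1) hq n (by omega) (e + n) (by omega)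
  rw [← h1, Finset.prod_range_succ, cA_eq q (n + 1) n hq (by omega)]
  have e1 : n + 1 - n = 1 := by omega
  have e2 : n + 1 - n - 1 = 0 := by omega
  rw [e2, e1, Finset.range_zero, Finset.prod_empty, pow_zero, pow_add]
  ring

/-- the number of choices for the `i`-th vector of an orthonormal frame -/
def cB (q m i : ℕ) : ℕ :=
  if i = 0 then q ^ (m - 1) * (q ^ m - 1) else q ^ (m + m - i - 1) - q ^ (i - 1)

theorem cB_zero (q m : ℕ) (hm : 1 ≤ m) : cB q m m = 0 := by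
  unfold cB
  rw [if_neg (by omega)]
  have e : m + m - m - 1 = m - 1 := by omega
  rw [e, Nat.sub_self]

theorem arithB (q m : ℕ) : ∀ j, j + 1 ≤ m → ∀ e, e + (m - 1) + tri j = m * (m - 1) →
    (∏ i ∈ Finset.range (j + 1), cB q m i) * (q ^ e *
        ∏ i ∈ Finset.range (m - (j + 1)), (q ^ (2 * (i + 1)) - 1)) = RR q m := by
  intro j
  induction j with
  | zero =>
    intro _ e he
    have : tri 0 = 0 := rfl
    rw [this, add_zero] at he
    rw [Finset.prod_range_one]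
    unfold cB RR
    rw [if_pos rfl, ← he, pow_add]
    ring
  | succ j ih =>
    intro hs e he
    rw [tri_succ] at he
    have h1 := ih (by omega) (e + j) (by omega)
    rw [← h1, Finset.prod_range_succ (n := j + 1)]
    obtain ⟨k, rfl⟩ : ∃ k, m = j + k + 2 := ⟨m - j - 2, by omega⟩
    have e1 : j + k + 2 - (j + 1 + 1) = k := by omega
    have e2 : j + k + 2 - (j + 1) = k + 1 := by omega
    rw [e1, e2, Finset.prod_range_succ (fun i => q ^ (2 * (i + 1)) - 1) k, pow_add]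
    have e3 : cB q (j + k + 2) (j + 1) = q ^ j * (q ^ (2 * (k + 1)) - 1) := by
      unfold cB
      rw [if_neg (by omega), Nat.mul_sub, mul_one, ← pow_add]
      congr 2
      omega
    rw [e3]
    ring

/-! ### exponents -/

theorem halfB (s : ℕ) : (3 * s ^ 2 - 3 * s) / 2 = 3 * tri s := by
  have h := tri_sq s
  apply Nat.div_eq_of_eq_mul_left (by norm_num)
  omega

theorem halfC (s : ℕ) : (3 * s ^ 2 - 5 * s) / 2 = 3 * tri s - s := by
  have h := tri_sq s
  apply Nat.div_eq_of_eq_mul_left (by norm_num)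
  omega

theorem halfA (s : ℕ) : (3 * s ^ 2 + s) / 2 = 3 * tri s + 2 * s := by
  have h := tri_sq s
  apply Nat.div_eq_of_eq_mul_left (by norm_num)
  omega

theorem expoB1 (m s : ℕ) (hs : s ≤ m) (h1 : 1 ≤ s) :
    2 * m * (s - 1) - (3 * s ^ 2 - 3 * s) / 2 + (m - s) ^ 2 + (m - 1) + tri (s - 1) =
      m * (m - 1) := by
  obtain ⟨d, rfl⟩ := Nat.exists_eq_add_of_le hs
  obtain ⟨j, rfl⟩ : ∃ j, s = j + 1 := ⟨s - 1, by omega⟩
  have h := tri_sq j
  rw [halfB, tri_succ]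
  have h3 : j + 1 + d - (j + 1) = d := by omega
  have h4 : j + 1 - 1 = j := by omega
  have h5 : j + 1 + d - 1 = j + d := by omega
  rw [h3, h4, h5]
  have e1 : 2 * (j + 1 + d) * j = j ^ 2 + j ^ 2 + 2 * j + 2 * d * j := by ring
  have e2 : (j + 1 + d) * (j + d) = j ^ 2 + 2 * d * j + d ^ 2 + j + d := by ring
  omega

theorem expoB2 (m s : ℕ) (hs : s ≤ m) (h2 : 2 ≤ s) :
    2 * m * (s - 1) - (3 * s ^ 2 - 5 * s) / 2 - 1 + (m - s) ^ 2 =
      (s - 1) + (2 * m * (s - 1) - (3 * s ^ 2 - 3 * s) / 2 + (m - s) ^ 2) := by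
  obtain ⟨d, rfl⟩ := Nat.exists_eq_add_of_le hs
  obtain ⟨j, rfl⟩ : ∃ j, s = j + 1 := ⟨s - 1, by omega⟩
  have h := tri_sq j
  rw [halfB, halfC, tri_succ]
  have h3 : j + 1 + d - (j + 1) = d := by omega
  have h4 : j + 1 - 1 = j := by omega
  rw [h3, h4]
  have e1 : 2 * (j + 1 + d) * j = j ^ 2 + j ^ 2 + 2 * j + 2 * d * j := by ring
  omega

theorem expoA1 (m s : ℕ) (hs : s ≤ m) :
    2 * m * s - (3 * s ^ 2 + s) / 2 + (m - s) * (m - s - 1) + tri s = m * (m - 1) := by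
  obtain ⟨d, rfl⟩ := Nat.exists_eq_add_of_le hs
  have h := tri_sq s
  rw [halfA]
  have h3 : s + d - s = d := by omega
  rw [h3]
  have e1 : 2 * (s + d) * s = s ^ 2 + s ^ 2 + 2 * d * s := by ring
  rcases Nat.eq_zero_or_pos d with h0 | hpos
  · subst h0
    rcases Nat.eq_zero_or_pos s with hs0 | hspos
    · subst hs0
      simp [tri]
    · obtain ⟨n, rfl⟩ : ∃ n, s = n + 1 := ⟨s - 1, by omega⟩
      have e2 : (n + 1 + 0) * (n + 1 + 0 - 1) = (n + 1) ^ 2 - (n + 1) := by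
        have : n + 1 + 0 - 1 = n := by omega
        rw [this]
        have : (n + 1) ^ 2 = (n + 1 + 0) * n + (n + 1) := by ring
        omega
      simp only [Nat.zero_mul, Nat.mul_zero, Nat.add_zero] at e1 e2 ⊢
      omega
  · obtain ⟨c, rfl⟩ : ∃ c, d = c + 1 := ⟨d - 1, by omega⟩
    have h4 : c + 1 - 1 = c := by omega
    have h5 : s + (c + 1) - 1 = s + c := by omega
    rw [h4, h5]
    have e2 : (s + (c + 1)) * (s + c) = s ^ 2 + 2 * c * s + s + (c + 1) * c := by ring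
    have e3 : 2 * (c + 1) * s = 2 * c * s + 2 * s := by ring
    omega

end Cfsg.Agent.Lib.Helper13.OrthCent3
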