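import Mathlib
import Cfsg.Agent.S0287
import Cfsg.Agent.S0289
import Cfsg.Agent.Lib.Helper15.StdForms
import Cfsg.Agent.Lib.Helper13.OrthCent2
import Cfsg.Agent.Lib.Helper13.OrthCent3

set_option autoImplicit false
open Cfsg

namespace Cfsg.Agent.Lib.Helper13.OrthCent4

open Matrix
open Cfsg.Agent.Lib.Helper15.StdForms (plusQF plus_nondeg)
open Cfsg.Agent.Lib.Helper13.OrthInv (pf Q_range)
open Cfsg.Agent.Lib.Helper13.OmegaCount (rk alt Qx fix_ns)
open Cfsg.Agent.Lib.Helper13.OrthCent (N1_eq)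
open Cfsg.Agent.Lib.Helper13.OrthCent2
open Cfsg.Agent.Lib.Helper13.OrthCent3
open Cfsg.Agent.Lib.Helper13.SymOrth (oc)
open Cfsg.Agent.Lib.Helper13.SpCent (tri)
open Cfsg.Agent.Lib.Helper13.SpCent2 (sp_pos)

variable {F : Type*} [Field F] [Fintype F] [CharP F 2]

omit [CharP F 2] in
theorem q_ge {q : ℕ} (hF : Fintype.card F = q) : 2 ≤ q := by
  rw [← hF]
  exact Fintype.one_lt_card

omit [CharP F 2] in
theorem N0_plus {q : ℕ} (hF : Fintype.card F = q) (m : ℕ) (hm : 1 ≤ m) :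
    Nat.card {v : Fin m ⊕ Fin m → F // plusQF m F v = 0} =
      q ^ (2 * m - 1) + q ^ m - q ^ (m - 1) :=
  Cfsg.Agent.S0289.result hF m hm

omit [CharP F 2] in
theorem O_plus {q : ℕ} (hF : Fintype.card F = q) (m : ℕ) (hm : 1 ≤ m) :
    Nat.card ↥(Cfsg.isometryGroup F ⇑(plusQF m F)) = 2 * RR q m := by
  have h := Cfsg.Agent.S0287.result hF m hm
  unfold RR
  rw [← mul_assoc, ← mul_assoc]
  exact h

theorem N1_plus {q : ℕ} (hF : Fintype.card F = q) (m : ℕ) (hm : 1 ≤ m) :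
    Nat.card {v : Fin m ⊕ Fin m → F // plusQF m F v = 1} = q ^ (m - 1) * (q ^ m - 1) := by
  have hq := q_ge hF
  have h := N1_eq (plusQF m F)
  rw [N0_plus hF m hm, Fintype.card_sum, Fintype.card_fin, hF] at h
  obtain ⟨n, rfl⟩ : ∃ n, m = n + 1 := ⟨m - 1, by omega⟩
  have e1 : 2 * (n + 1) - 1 = n + n + 1 := by omega
  have e2 : n + 1 - 1 = n := by omega
  rw [e1, e2] at h
  rw [e2]
  obtain ⟨t, rfl⟩ : ∃ t, q = t + 1 := ⟨q - 1, by omega⟩
  rw [Nat.add_sub_cancel] at h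
  have ht : 0 < t := by omega
  apply Nat.eq_of_mul_eq_mul_right ht
  have p1 : (t + 1) ^ (n + 1 + (n + 1)) = (t + 1) ^ (n + n + 1) * t + (t + 1) ^ (n + n + 1) := by
    ring
  have p2 : (t + 1) ^ (n + 1) = (t + 1) ^ n * t + (t + 1) ^ n := by ring
  have p3 : (t + 1) ^ (n + n + 1) = (t + 1) ^ n * (t + 1) ^ (n + 1) := by ring
  have hpos : 0 < (t + 1) ^ (n + 1) := Nat.pow_pos (by omega)
  obtain ⟨u, hu⟩ : ∃ u, (t + 1) ^ (n + 1) = u + 1 := ⟨(t + 1) ^ (n + 1) - 1, by omega⟩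
  rw [hu, Nat.add_sub_cancel]
  rw [hu] at p3
  have p4 : (t + 1) ^ n * (u + 1) * t = (t + 1) ^ n * u * t + (t + 1) ^ n * t := by ring
  have p5 : (t + 1) ^ n * (u + 1) = (t + 1) ^ n * u + (t + 1) ^ n := by ring
  rw [p3, p4, p5] at p1
  rw [p3, p5, hu] at h
  have p6 : (t + 1) ^ n * t + (t + 1) ^ n = u + 1 := by rw [← p2, hu]
  omega

/-- the alternating case: the counting identity with explicit numbers -/
theorem plusA {q : ℕ} (hF : Fintype.card F = q) (m : ℕ) (hm : 1 ≤ m)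
    (x : ↥(Cfsg.isometryGroup F ⇑(plusQF m F))) (hxx : x * x = 1) (halt : alt (plusQF m F) x) :
    ∃ r, rk (plusQF m F) x = r + r ∧ r + r ≤ m ∧
      Nat.card {g : ↥(Cfsg.isometryGroup F ⇑(plusQF m F)) // g * x = x * g} *
        ∏ i ∈ Finset.range (r + r), cA q m i =
      (q ^ (r ^ 2) * ∏ i ∈ Finset.range r, (q ^ (2 * (i + 1)) - 1)) * (2 * RR q m) := by
  have hq := q_ge hF
  obtain ⟨r, hrk, hmain⟩ := centA (plusQF m F) (plus_nondeg m) hF x hxx halt
  rw [N0_plus hF m hm, Fintype.card_sum, Fintype.card_fin, O_plus hF m hm] at hmain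
  have hmain' : Nat.card {g : ↥(Cfsg.isometryGroup F ⇑(plusQF m F)) // g * x = x * g} *
        ∏ i ∈ Finset.range (r + r), cA q m i =
      (q ^ (r ^ 2) * ∏ i ∈ Finset.range r, (q ^ (2 * (i + 1)) - 1)) * (2 * RR q m) := hmain
  refine ⟨r, hrk, ?_, hmain'⟩
  by_contra hlt
  have hz : ∏ i ∈ Finset.range (r + r), cA q m i = 0 :=
    Finset.prod_eq_zero (i := m) (Finset.mem_range.mpr (by omega)) (cA_zero q m hq hm)
  rw [hz, mul_zero] at hmain'
  have h1 := sp_pos q r hq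
  have h2 := RR_pos q m hq hm
  have h3 := Nat.mul_pos h1 (Nat.mul_pos (show 0 < 2 by norm_num) h2)
  omega

/-- the non-alternating case: the counting identity with explicit numbers -/
theorem plusB {q : ℕ} (hF : Fintype.card F = q) (m : ℕ) (hm : 1 ≤ m)
    (x : ↥(Cfsg.isometryGroup F ⇑(plusQF m F))) (hxx : x * x = 1)
    (hna : ¬ alt (plusQF m F) x) :
    ∃ j, rk (plusQF m F) x = j + 1 ∧ j + 1 ≤ m ∧ 0 < oc F (j + 1) ∧
      Nat.card {g : ↥(Cfsg.isometryGroup F ⇑(plusQF m F)) // g * x = x * g} *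
        ∏ i ∈ Finset.range (j + 1), cB q m i = oc F (j + 1) * (2 * RR q m) := by
  have hq := q_ge hF
  obtain ⟨k, hrk, hk, hmain⟩ := centB (plusQF m F) (plus_nondeg m) hF x hxx hna
  obtain ⟨j, rfl⟩ : ∃ j, k = j + 1 := ⟨k - 1, by omega⟩
  rw [N1_plus hF m hm, Fintype.card_sum, Fintype.card_fin, O_plus hF m hm] at hmain
  have hmain' : Nat.card {g : ↥(Cfsg.isometryGroup F ⇑(plusQF m F)) // g * x = x * g} *
        ∏ i ∈ Finset.range (j + 1), cB q m i = oc F (j + 1) * (2 * RR q m) := hmain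
  have hoc : 0 < oc F (j + 1) := by
    unfold oc
    rw [Nat.card_pos_iff]
    exact ⟨⟨⟨1, by unfold Cfsg.Agent.Lib.Helper13.SymOrth.IsO; rw [Matrix.transpose_one, Matrix.mul_one]⟩⟩, Finite.of_injective (fun A : {A : Matrix (Fin (j + 1)) (Fin (j + 1)) F // Cfsg.Agent.Lib.Helper13.SymOrth.IsO A} => A.1) Subtype.val_injective⟩
  refine ⟨j, hrk, ?_, hoc, hmain'⟩
  by_contra hlt
  have hz : ∏ i ∈ Finset.range (j + 1), cB q m i = 0 :=
    Finset.prod_eq_zero (i := m) (Finset.mem_range.mpr (by omega)) (cB_zero q m hm)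
  rw [hz, mul_zero] at hmain'
  have h2 := RR_pos q m hq hm
  have h3 := Nat.mul_pos hoc (Nat.mul_pos (show 0 < 2 by norm_num) h2)
  omega

theorem hc_of {m : ℕ} (h : Fintype.card F ≠ 2 ∨ m ≠ 2) :
    Fintype.card F ≠ 2 ∨ Fintype.card (Fin m ⊕ Fin m) ≠ 4 := by
  rcases h with h | h
  · exact Or.inl h
  · right
    rw [Fintype.card_sum, Fintype.card_fin]
    omega

/-- the centraliser in `Ω` of a non-alternating involution -/
theorem omegaB {q : ℕ} (hF : Fintype.card F = q) (m : ℕ) (h : Fintype.card F ≠ 2 ∨ m ≠ 2)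
    (hm : 1 ≤ m) (x : ↥(Cfsg.isometryGroup F ⇑(plusQF m F))) (hxx : x * x = 1)
    (hna : ¬ alt (plusQF m F) x) :
    ∃ j, rk (plusQF m F) x = j + 1 ∧ j + 1 ≤ m ∧ ∀ e, e + (m - 1) + tri j = m * (m - 1) →
      Nat.card {g : ↥(commutator ↥(Cfsg.isometryGroup F ⇑(plusQF m F))) //
        (g : ↥(Cfsg.isometryGroup F ⇑(plusQF m F))) * x =
          x * (g : ↥(Cfsg.isometryGroup F ⇑(plusQF m F)))} =
        oc F (j + 1) * (q ^ e * ∏ i ∈ Finset.range (m - (j + 1)), (q ^ (2 * (i + 1)) - 1)) := by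
  have hq := q_ge hF
  have hcard : Fintype.card (Fin m ⊕ Fin m) = 2 * m := by
    rw [Fintype.card_sum, Fintype.card_fin]
    omega
  obtain ⟨j, hrk, hjm, hoc, hmain⟩ := plusB hF m hm x hxx hna
  refine ⟨j, hrk, hjm, fun e he => ?_⟩
  obtain ⟨w, hw, hxw⟩ := fix_ns (plusQF m F) (plus_nondeg m) m hcard x hxx (fun h => hna h.2)
  have hhalf := cent_half (plusQF m F) (plus_nondeg m) (hc_of h) x w hw hxw
  rw [card_omega_cent]
  rw [hhalf] at hmain
  have hA := arithB q m j hjm e he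
  have hX : 0 < ∏ i ∈ Finset.range (j + 1), cB q m i := by
    apply Nat.pos_of_ne_zero
    intro hz
    rw [hz, zero_mul] at hA
    have := RR_pos q m hq hm
    omega
  rw [← hA] at hmain
  apply Nat.eq_of_mul_eq_mul_right (Nat.mul_pos (show 0 < 2 by norm_num) hX)
  calc _ = 2 * Nat.card {g : ↥(Cfsg.isometryGroup F ⇑(plusQF m F)) //
        g * x = x * g ∧ g ∈ commutator ↥(Cfsg.isometryGroup F ⇑(plusQF m F))} *
        ∏ i ∈ Finset.range (j + 1), cB q m i := by ring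
    _ = _ := by rw [hmain]; ring

/-- the centraliser in `Ω` of an alternating involution -/
theorem omegaA {q : ℕ} (hF : Fintype.card F = q) (m : ℕ) (h : Fintype.card F ≠ 2 ∨ m ≠ 2)
    (hm : 1 ≤ m) (x : ↥(Cfsg.isometryGroup F ⇑(plusQF m F))) (hxx : x * x = 1)
    (halt : alt (plusQF m F) x) :
    ∃ r, rk (plusQF m F) x = r + r ∧ r + r ≤ m ∧
      (r + r < m → ∀ e, e + tri (r + r) = m * (m - 1) →
        Nat.card {g : ↥(commutator ↥(Cfsg.isometryGroup F ⇑(plusQF m F))) //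
          (g : ↥(Cfsg.isometryGroup F ⇑(plusQF m F))) * x =
            x * (g : ↥(Cfsg.isometryGroup F ⇑(plusQF m F)))} =
          (q ^ (r ^ 2) * ∏ i ∈ Finset.range r, (q ^ (2 * (i + 1)) - 1)) *
            (q ^ e * (q ^ (m - (r + r)) - 1) *
              ∏ i ∈ Finset.range (m - (r + r) - 1), (q ^ (2 * (i + 1)) - 1))) ∧
      (r + r = m → ∀ e, e + tri m = m * (m - 1) →
        Nat.card {g : ↥(commutator ↥(Cfsg.isometryGroup F ⇑(plusQF m F))) //
          (g : ↥(Cfsg.isometryGroup F ⇑(plusQF m F))) * x =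
            x * (g : ↥(Cfsg.isometryGroup F ⇑(plusQF m F)))} =
          (q ^ (r ^ 2) * ∏ i ∈ Finset.range r, (q ^ (2 * (i + 1)) - 1)) * q ^ e) := by
  have hq := q_ge hF
  have hcard : Fintype.card (Fin m ⊕ Fin m) = 2 * m := by
    rw [Fintype.card_sum, Fintype.card_fin]
    omega
  obtain ⟨r, hrk, hrm, hmain⟩ := plusA hF m hm x hxx halt
  refine ⟨r, hrk, hrm, fun hlt e he => ?_, fun heq e he => ?_⟩
  · obtain ⟨w, hw, hxw⟩ := fix_ns (plusQF m F) (plus_nondeg m) m hcard x hxx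
      (fun h => by rw [hrk] at h; omega)
    have hhalf := cent_half (plusQF m F) (plus_nondeg m) (hc_of h) x w hw hxw
    rw [card_omega_cent]
    rw [hhalf] at hmain
    have hA := arithA q m hq (r + r) hlt e he
    have hX : 0 < ∏ i ∈ Finset.range (r + r), cA q m i := by
      apply Nat.pos_of_ne_zero
      intro hz
      rw [hz, zero_mul] at hA
      have := RR_pos q m hq hm
      omega
    rw [← hA] at hmain
    apply Nat.eq_of_mul_eq_mul_right (Nat.mul_pos (show 0 < 2 by norm_num) hX)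
    calc _ = 2 * Nat.card {g : ↥(Cfsg.isometryGroup F ⇑(plusQF m F)) //
          g * x = x * g ∧ g ∈ commutator ↥(Cfsg.isometryGroup F ⇑(plusQF m F))} *
          ∏ i ∈ Finset.range (r + r), cA q m i := by ring
      _ = _ := by rw [hmain]; ring
  · have hfull := cent_full (plusQF m F) (plus_nondeg m) (hc_of h) m hcard x
      (by rw [hrk, heq]) halt
    rw [card_omega_cent]
    rw [hfull, heq] at hmain
    have hA := arithA' q m hq hm e he
    have hX : 0 < ∏ i ∈ Finset.range m, cA q m i := by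
      apply Nat.pos_of_ne_zero
      intro hz
      rw [hz, zero_mul] at hA
      have := RR_pos q m hq hm
      omega
    rw [← hA] at hmain
    apply Nat.eq_of_mul_eq_mul_right hX
    rw [hmain]
    ring

/-- the alternating condition from the vanishing of `Q` on the range of `x - 1` -/
theorem alt_iff (m : ℕ) (x : ↥(Cfsg.isometryGroup F ⇑(plusQF m F))) :
    alt (plusQF m F) x ↔ ∀ v : Fin m ⊕ Fin m → F,
      plusQF m F ((((x : GL (Fin m ⊕ Fin m) F) : Matrix (Fin m ⊕ Fin m) (Fin m ⊕ Fin m) F) - 1) *ᵥ v)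
        = 0 := by
  have h2 : (2 : F) = 0 := CharTwo.two_eq_zero
  have key : ∀ v : Fin m ⊕ Fin m → F,
      plusQF m F ((((x : GL (Fin m ⊕ Fin m) F) : Matrix (Fin m ⊕ Fin m) (Fin m ⊕ Fin m) F) - 1) *ᵥ v)
        = pf (plusQF m F) (((x : GL (Fin m ⊕ Fin m) F) : Matrix (Fin m ⊕ Fin m) (Fin m ⊕ Fin m) F) *ᵥ v - v) v := by
    intro v
    rw [Matrix.sub_mulVec, Matrix.one_mulVec]
    exact Q_range (plusQF m F) h2 (x : GL (Fin m ⊕ Fin m) F) (Qx (plusQF m F) x) v
  constructor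
  · intro ha v
    rw [key]
    exact ha v
  · intro ha v
    rw [← key]
    exact ha v

end Cfsg.Agent.Lib.Helper13.OrthCent4
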