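import Mathlib
import Cfsg.Agent.Lib.Helper13.SL2Irr4
import Cfsg.Agent.Lib.Helper14.SL2Odd2
import Cfsg.Agent.S2325
import Cfsg.Agent.S2301

set_option autoImplicit false
set_option linter.unusedSectionVars false

namespace Cfsg.Agent.Lib.Helper13.SL2Irr5

open scoped ComplexConjugate
open Cfsg.Agent.Lib.Helper1 Cfsg.Agent.Lib.Helper13.GL2Ind Cfsg.Agent.Lib.Helper13.GL2Irr
  Cfsg.Agent.Lib.Helper13.SL2Ind Cfsg.Agent.Lib.Helper13.SL2Irr Cfsg.Agent.Lib.Helper13.SL2Irr2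
  Cfsg.Agent.Lib.Helper13.SL2Irr3 Cfsg.Agent.Lib.Helper13.SL2Irr4
open Cfsg.Agent.Lib.Helper14.GL2Conj Cfsg.Agent.Lib.Helper14.SL2Odd Cfsg.Agent.Lib.Helper14.SL2Odd2
  Cfsg.Agent.Lib.Helper14.ClassSize

universe u

section sl2

variable {F : Type u} [Field F] [Fintype F] [DecidableEq F]

/-- elements without eigenvectors -/
def NoEigen (g : Matrix.SpecialLinearGroup (Fin 2) F) : Prop :=
  ∀ (c : F) (v : Fin 2 → F), v ≠ 0 → g.1.mulVec v ≠ c • v

theorem no_eigen_char (g : Matrix.SpecialLinearGroup (Fin 2) F) (hg : NoEigen g) (c : F) :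
    c ^ 2 - tr2 g * c + 1 ≠ 0 := by
  intro h
  have hdet : (g.1 - c • (1 : Matrix (Fin 2) (Fin 2) F)).det = 0 := by
    have hd := det_eq g
    rw [Matrix.det_fin_two]
    simp only [tr2] at h
    simp only [Matrix.sub_apply, Matrix.smul_apply, Matrix.one_apply_eq, smul_eq_mul, mul_one,
      Matrix.one_apply_ne (show (0 : Fin 2) ≠ 1 by decide),
      Matrix.one_apply_ne (show (1 : Fin 2) ≠ 0 by decide), mul_zero, sub_zero]
    linear_combination h + hd
  obtain ⟨v, hv, hmul⟩ := Matrix.exists_mulVec_eq_zero_iff.mpr hdet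
  apply hg c v hv
  rw [Matrix.sub_mulVec, Matrix.smul_mulVec, Matrix.one_mulVec] at hmul
  exact sub_eq_zero.mp hmul

theorem no_eigen_not_scalar (g : Matrix.SpecialLinearGroup (Fin 2) F) (hg : NoEigen g) :
    ¬ IsScalarMat (g : Matrix (Fin 2) (Fin 2) F) := by
  rintro ⟨s, hs⟩
  apply hg s ![1, 0] (by intro hc; have := congrFun hc 0; simp at this)
  rw [hs, Matrix.smul_mulVec, Matrix.one_mulVec]

theorem no_eigen_tr (hodd : Fintype.card F % 2 = 1) (g : Matrix.SpecialLinearGroup (Fin 2) F)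
    (hg : NoEigen g) : tr2 g ^ 2 ≠ 4 := by
  intro h
  have h2 : (2 : F) ≠ 0 := two_ne_zero_of_odd hodd
  apply no_eigen_char g hg (tr2 g / 2)
  field_simp
  linear_combination (-1 : F) * h

/-- the characters of degree `(q+1)/2` vanish at elements without eigenvectors -/
theorem half_vanish (hodd : Odd (Fintype.card F))
    {ψ : Matrix.SpecialLinearGroup (Fin 2) F → ℂ}
    (hψ : Cfsg.IsIrrCharacter (Matrix.SpecialLinearGroup (Fin 2) F) ψ)
    (hne : Cfsg.classInner (Cfsg.indFun (BS F) (thetaS (epsC F))) ψ ≠ 0)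
    (g : Matrix.SpecialLinearGroup (Fin 2) F) (hg : NoEigen g) : ψ g = 0 := by
  have hF := ringChar_ne_two_of_odd hodd
  have hodd2 : Fintype.card F % 2 = 1 := Nat.odd_iff.mp hodd
  obtain ⟨χ₁, χ₂, i1, i2, hne12, hsum, -, -, x, hx⟩ :=
    half_decomp (epsC F) epsC_sq (epsC_ne_one hF)
  have h0 : χ₁ g + χ₂ g = 0 := by
    have h1 := congrFun hsum g
    rw [indS_no_eigen _ g hg] at h1
    exact h1.symm
  have hdetM : (x.1 * g.1 * (x⁻¹).1).det = 1 := by
    rw [Matrix.det_mul, Matrix.det_mul, g.det_coe, mul_one, ← Matrix.det_mul, ← Units.val_mul,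
      mul_inv_cancel, Units.val_one, Matrix.det_one]
  obtain ⟨h, hh⟩ : ∃ h : Matrix.SpecialLinearGroup (Fin 2) F, h.1 = x.1 * g.1 * (x⁻¹).1 :=
    ⟨⟨_, hdetM⟩, rfl⟩
  have hGL : Matrix.SpecialLinearGroup.toGL h = x * Matrix.SpecialLinearGroup.toGL g * x⁻¹ := by
    apply Units.ext
    show h.1 = _
    rw [hh]
    rfl
  have h1 : χ₂ h = χ₁ g := hx g h hGL
  have hconj : IsConj g h := by
    apply conj_of_trace hodd2 g h (no_eigen_not_scalar g hg) ?_ ?_ (no_eigen_tr hodd2 g hg)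
    · intro hs
      have hxdet : (x⁻¹).1.det ≠ 0 := by
        intro h0
        have h5 : ((x⁻¹).1 * x.1).det = 1 := by
          rw [← Units.val_mul, inv_mul_cancel, Units.val_one, Matrix.det_one]
        rw [Matrix.det_mul, h0, zero_mul] at h5
        exact zero_ne_one h5
      have hrel : (x⁻¹).1 * h.1 = g.1 * (x⁻¹).1 := by
        rw [hh, ← Matrix.mul_assoc, ← Matrix.mul_assoc, ← Units.val_mul, inv_mul_cancel,
          Units.val_one, Matrix.one_mul]
      have h6 := isScalarMat_conj hs g.1 hxdet hrel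
      exact no_eigen_not_scalar g hg (h6 ▸ hs)
    · rw [tr2_eq, tr2_eq, hh, Matrix.trace_mul_comm, ← Matrix.mul_assoc, ← Units.val_mul,
        inv_mul_cancel, Units.val_one, Matrix.one_mul]
  have h2 : χ₂ h = χ₂ g := by
    obtain ⟨c, hc⟩ := isConj_iff.mp hconj
    rw [← hc]
    exact IsIrrCharacter.isClassFunction i2 g c
  have h3 : χ₁ g = χ₂ g := by rw [← h1, h2]
  rcases half_mem i1 i2 hsum hψ hne with rfl | rfl
  · linear_combination (1 / 2 : ℂ) * h0 + (1 / 2 : ℂ) * h3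
  · linear_combination (1 / 2 : ℂ) * h0 - (1 / 2 : ℂ) * h3

theorem cusp_diag_val {ψ : Matrix.SpecialLinearGroup (Fin 2) F → ℂ} (hψ : IsCuspS ψ)
    (g : Matrix.SpecialLinearGroup (Fin 2) F) (h01 : g.1 0 1 = 0) (h10 : g.1 1 0 = 0)
    (hne : g.1 0 0 ^ 2 ≠ 1) : ψ g = 0 := by
  have hdet := det_eq g
  rw [h01, zero_mul, sub_zero] at hdet
  have hg0 : g.1 0 0 ≠ 0 := left_ne_zero_of_mul_eq_one hdet
  have e : g = ((bS (Units.mk0 (g.1 0 0) hg0) 0 : ↥(BS F)) : Matrix.SpecialLinearGroup (Fin 2) F) := by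
    apply Subtype.ext
    rw [bS_val]
    ext i j
    fin_cases i <;> fin_cases j
    · rfl
    · exact h01
    · exact h10
    · show g.1 1 1 = ((Units.mk0 (g.1 0 0) hg0)⁻¹ : Fˣ).1
      rw [Units.val_inv_eq_inv_val, Units.val_mk0]
      exact eq_inv_of_mul_eq_one_right hdet
  rw [e]
  exact cuspS_diag hψ _ (by rw [Units.val_mk0]; exact hne) 0

theorem linear_normSq {G : Type u} [Group G] [Fintype G] {χ : G → ℂ}
    (hχ : Cfsg.IsIrrCharacter G χ) (h1 : χ 1 = 1) (g : G) : Complex.normSq (χ g) = 1 := by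
  obtain ⟨lam, hlam⟩ := IsIrrCharacter.exists_monoidHom hχ h1
  have h2 : χ g * conj (χ g) = 1 := by
    rw [← IsCharacter.inv (IsIrrCharacter.isCharacter hχ), hlam, hlam, ← Units.val_mul, ← map_mul,
      mul_inv_cancel, map_one, Units.val_one]
  rw [Complex.mul_conj] at h2
  exact_mod_cast h2

/-- for `q = 3`, the irreducible characters of degree two vanish at elements without eigenvectors -/
theorem q3_vanish (hq : Fintype.card F = 3)
    {ψ : Matrix.SpecialLinearGroup (Fin 2) F → ℂ}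
    (hψ : Cfsg.IsIrrCharacter (Matrix.SpecialLinearGroup (Fin 2) F) ψ) (hd : ψ 1 = 2)
    (g : Matrix.SpecialLinearGroup (Fin 2) F) (hg : NoEigen g) : ψ g = 0 := by
  classical
  have hk : Fintype.card F = 2 * 1 + 1 := hq
  have hodd : Odd (Fintype.card F) := ⟨1, hk⟩
  have hodd2 : Fintype.card F % 2 = 1 := by omega
  have hFI : Fintype (Cfsg.IrrCharacter (Matrix.SpecialLinearGroup (Fin 2) F)) := irrFintype
  have hqc : (Fintype.card F : ℂ) = 3 := by rw [hq]; norm_num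
  have hα : ∀ α : MulChar F ℂ, α ^ 2 = 1 := by
    intro α
    have h1 := pow_card_eq_one' (G := MulChar F ℂ) (x := α)
    rw [card_mulChar, hq] at h1
    exact h1
  have hcases : ∀ χ : Matrix.SpecialLinearGroup (Fin 2) F → ℂ,
      Cfsg.IsIrrCharacter (Matrix.SpecialLinearGroup (Fin 2) F) χ →
      χ 1 = 1 ∨ χ 1 = 2 ∨ (χ = stS F ∧ χ 1 = 3) := by
    intro χ hχ
    rcases cases_odd hk hχ with ⟨-, h⟩ | ⟨e, h⟩ | ⟨⟨α, h2, -⟩, -⟩ | ⟨-, h⟩ | ⟨-, h⟩ | ⟨-, h⟩
    · exact Or.inl h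
    · exact Or.inr (Or.inr ⟨e, by rw [h]; norm_num⟩)
    · exact absurd (hα α) h2
    · exact Or.inr (Or.inl (by rw [h]; norm_num))
    · exact Or.inl (by rw [h]; norm_num)
    · exact Or.inr (Or.inl (by rw [h]; norm_num))
  have hN3 : Nat.card {χ : Cfsg.IrrCharacter (Matrix.SpecialLinearGroup (Fin 2) F) //
      (χ : Matrix.SpecialLinearGroup (Fin 2) F → ℂ) 1 = 3} = 1 := by
    rw [card_of_bij' 3 (fun _ : Unit => stS F) (fun _ => stS_isIrr)
      (fun _ => by rw [stS_one, hqc]) (fun _ _ _ => rfl), Nat.card_unique]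
    intro χ hχ h1
    rcases hcases χ hχ with h | h | ⟨e, -⟩
    · rw [h] at h1; norm_num at h1
    · rw [h] at h1; norm_num at h1
    · exact ⟨(), e⟩
  obtain ⟨t, ht⟩ : ∃ t : Finset ℂ, t = {1, 2, 3} := ⟨_, rfl⟩
  have hmem : ∀ χ : Cfsg.IrrCharacter (Matrix.SpecialLinearGroup (Fin 2) F),
      (χ : Matrix.SpecialLinearGroup (Fin 2) F → ℂ) 1 ∈ t := by
    intro χ
    rw [ht]
    simp only [Finset.mem_insert, Finset.mem_singleton]
    rcases hcases χ.1 χ.2 with h | h | ⟨-, h⟩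
    · exact Or.inl h
    · exact Or.inr (Or.inl h)
    · exact Or.inr (Or.inr h)
  have d1 : (1 : ℂ) ∉ ({2, 3} : Finset ℂ) := by
    simp only [Finset.mem_insert, Finset.mem_singleton, not_or]
    constructor <;> norm_num
  have d2 : (2 : ℂ) ∉ ({3} : Finset ℂ) := by
    simp only [Finset.mem_singleton]
    norm_num
  have hcount : ∑ χ : Cfsg.IrrCharacter (Matrix.SpecialLinearGroup (Fin 2) F), (1 : ℂ) =
      ∑ y ∈ t, (Nat.card {χ : Cfsg.IrrCharacter (Matrix.SpecialLinearGroup (Fin 2) F) //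
        (χ : Matrix.SpecialLinearGroup (Fin 2) F → ℂ) 1 = y} : ℂ) * 1 :=
    sum_by_degree (fun χ : Cfsg.IrrCharacter (Matrix.SpecialLinearGroup (Fin 2) F) =>
      (χ : Matrix.SpecialLinearGroup (Fin 2) F → ℂ) 1) t hmem (fun _ => 1)
  have hsq : ∑ χ : Cfsg.IrrCharacter (Matrix.SpecialLinearGroup (Fin 2) F),
      (χ : Matrix.SpecialLinearGroup (Fin 2) F → ℂ) 1 ^ 2 =
      ∑ y ∈ t, (Nat.card {χ : Cfsg.IrrCharacter (Matrix.SpecialLinearGroup (Fin 2) F) //
        (χ : Matrix.SpecialLinearGroup (Fin 2) F → ℂ) 1 = y} : ℂ) * y ^ 2 :=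
    sum_by_degree (fun χ : Cfsg.IrrCharacter (Matrix.SpecialLinearGroup (Fin 2) F) =>
      (χ : Matrix.SpecialLinearGroup (Fin 2) F → ℂ) 1) t hmem (fun x => x ^ 2)
  have hL1 : ∑ χ : Cfsg.IrrCharacter (Matrix.SpecialLinearGroup (Fin 2) F), (1 : ℂ) = 7 := by
    rw [Finset.sum_const, Finset.card_univ, nsmul_eq_mul, mul_one, ← Nat.card_eq_fintype_card,
      card_irr, Cfsg.Agent.S2325.result hodd, hq]
    norm_num
  have hL2 : ∑ χ : Cfsg.IrrCharacter (Matrix.SpecialLinearGroup (Fin 2) F),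
      (χ : Matrix.SpecialLinearGroup (Fin 2) F → ℂ) 1 ^ 2 = 24 := by
    rw [sum_sq_degrees, Cfsg.Agent.S2301.card_SL2, hq]
    norm_num
  rw [hL1, ht, Finset.sum_insert d1, Finset.sum_insert d2, Finset.sum_singleton, hN3] at hcount
  rw [hL2, ht, Finset.sum_insert d1, Finset.sum_insert d2, Finset.sum_singleton, hN3] at hsq
  have hN1 : Nat.card {χ : Cfsg.IrrCharacter (Matrix.SpecialLinearGroup (Fin 2) F) //
      (χ : Matrix.SpecialLinearGroup (Fin 2) F → ℂ) 1 = 1} = 3 := by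
    have h3 : ((Nat.card {χ : Cfsg.IrrCharacter (Matrix.SpecialLinearGroup (Fin 2) F) //
        (χ : Matrix.SpecialLinearGroup (Fin 2) F → ℂ) 1 = 1} : ℕ) : ℂ) = ((3 : ℕ) : ℂ) := by
      push_cast
      push_cast at hcount hsq
      linear_combination (-(4 / 3 : ℂ)) * hcount + (1 / 3 : ℂ) * hsq
    exact_mod_cast h3
  -- the centralizer
  have hcent : Nat.card (Subgroup.centralizer ({g} : Set (Matrix.SpecialLinearGroup (Fin 2) F))) = 4 := by
    have h1 := index_centralizer_eq_ncard g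
    have h2 := class_ncard_regular hodd2 g (no_eigen_tr hodd2 g hg)
    have h3 : Nat.card {p : F // p * (tr2 g - p) = 1} = 0 := by
      rw [Nat.card_eq_zero]
      left
      constructor
      rintro ⟨p, hp⟩
      exact no_eigen_char g hg p (by linear_combination -hp)
    rw [h3, hq] at h2
    have h4 := Subgroup.card_mul_index
      (Subgroup.centralizer ({g} : Set (Matrix.SpecialLinearGroup (Fin 2) F)))
    rw [h1, h2, Cfsg.Agent.S2301.card_SL2, hq] at h4
    omega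
  have hcol := col_orth (G := Matrix.SpecialLinearGroup (Fin 2) F) g g
  rw [if_pos (IsConj.refl g), hcent] at hcol
  simp only [Complex.mul_conj] at hcol
  have hr : ∑ χ : Cfsg.IrrCharacter (Matrix.SpecialLinearGroup (Fin 2) F),
      Complex.normSq ((χ : Matrix.SpecialLinearGroup (Fin 2) F → ℂ) g) = 4 := by
    exact_mod_cast hcol
  obtain ⟨A, hAdef⟩ : ∃ A : Finset (Cfsg.IrrCharacter (Matrix.SpecialLinearGroup (Fin 2) F)),
      A = Finset.univ.filter (fun χ : Cfsg.IrrCharacter (Matrix.SpecialLinearGroup (Fin 2) F) =>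
        (χ : Matrix.SpecialLinearGroup (Fin 2) F → ℂ) 1 = 1) := ⟨_, rfl⟩
  have hA : A.card = 3 := by
    rw [hAdef, ← Fintype.card_subtype, ← Nat.card_eq_fintype_card, hN1]
  have hs₀ : (⟨stS F, stS_isIrr⟩ : Cfsg.IrrCharacter (Matrix.SpecialLinearGroup (Fin 2) F)) ∉ A := by
    rw [hAdef]
    intro h
    have h1 : stS F 1 = 1 := (Finset.mem_filter.mp h).2
    rw [stS_one, hqc] at h1
    norm_num at h1
  have hp₀ : (⟨ψ, hψ⟩ : Cfsg.IrrCharacter (Matrix.SpecialLinearGroup (Fin 2) F)) ∉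
      insert (⟨stS F, stS_isIrr⟩ : Cfsg.IrrCharacter (Matrix.SpecialLinearGroup (Fin 2) F)) A := by
    rw [Finset.mem_insert]
    rintro (h | h)
    · have h1 : ψ = stS F := congrArg Subtype.val h
      rw [h1, stS_one, hqc] at hd
      norm_num at hd
    · rw [hAdef] at h
      have h1 : ψ 1 = 1 := (Finset.mem_filter.mp h).2
      rw [hd] at h1
      norm_num at h1
  have hle : ∑ χ ∈ insert (⟨ψ, hψ⟩ : Cfsg.IrrCharacter (Matrix.SpecialLinearGroup (Fin 2) F))
      (insert (⟨stS F, stS_isIrr⟩ : Cfsg.IrrCharacter (Matrix.SpecialLinearGroup (Fin 2) F)) A),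
      Complex.normSq ((χ : Matrix.SpecialLinearGroup (Fin 2) F → ℂ) g) ≤
      ∑ χ : Cfsg.IrrCharacter (Matrix.SpecialLinearGroup (Fin 2) F),
      Complex.normSq ((χ : Matrix.SpecialLinearGroup (Fin 2) F → ℂ) g) :=
    Finset.sum_le_sum_of_subset_of_nonneg (Finset.subset_univ _)
      (fun _ _ _ => Complex.normSq_nonneg _)
  have hA1 : ∑ χ ∈ A, Complex.normSq ((χ : Matrix.SpecialLinearGroup (Fin 2) F → ℂ) g) = 3 := by
    have h1 : ∀ χ ∈ A, Complex.normSq ((χ : Matrix.SpecialLinearGroup (Fin 2) F → ℂ) g) = 1 := by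
      intro χ hχ
      rw [hAdef] at hχ
      exact linear_normSq χ.2 (Finset.mem_filter.mp hχ).2 g
    rw [Finset.sum_congr rfl h1, Finset.sum_const, hA]
    norm_num
  have hs1 : Complex.normSq (stS F g) = 1 := by
    have h1 : stS F g = -1 := by
      show Cfsg.indFun (BS F) (thetaS 1) g - 1 = -1
      rw [indS_no_eigen 1 g hg]
      ring
    rw [h1]
    simp
  rw [Finset.sum_insert hp₀, Finset.sum_insert hs₀, hr, hA1] at hle
  have hle' : Complex.normSq (ψ g) + (Complex.normSq (stS F g) + 3) ≤ 4 := hle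
  rw [hs1] at hle'
  have h0 : Complex.normSq (ψ g) = 0 :=
    le_antisymm (by linarith) (Complex.normSq_nonneg _)
  exact Complex.normSq_eq_zero.mp h0

end sl2

end Cfsg.Agent.Lib.Helper13.SL2Irr5
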